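import Cfsg.Agent.H25.AbIdx
import Cfsg.Agent.H3.PGroup1

set_option autoImplicit false

namespace Cfsg.Agent.H25
open Subgroup Cfsg.Agent.H20 Cfsg.Agent.H21
open scoped commutatorElement

universe u

section
variable {G : Type*} [Group G]

theorem br_cent_sub (C : Subgroup G) (c : C) :
    (centralizer ({c} : Set C)) = (centralizer ({(c : G)} : Set G)).subgroupOf C := by
  ext d
  simp only [mem_subgroupOf, mem_centralizer_singleton_iff]
  constructor
  · intro h; exact congrArg Subtype.val h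
  · intro h; exact Subtype.ext h

theorem br_two_cover {A B : Subgroup G} (hA : A ≠ ⊤) (hB : B ≠ ⊤) : ∃ x, x ∉ A ∧ x ∉ B := by
  obtain ⟨a, ha⟩ : ∃ a, a ∉ A := by
    by_contra h; push Not at h; exact hA ((eq_top_iff' _).mpr h)
  obtain ⟨b, hb⟩ : ∃ b, b ∉ B := by
    by_contra h; push Not at h; exact hB ((eq_top_iff' _).mpr h)
  by_cases h1 : a ∈ B
  · by_cases h2 : b ∈ A
    · refine ⟨a * b, fun h => ha ?_, fun h => hb ?_⟩
      · simpa using A.mul_mem h (A.inv_mem h2)
      · simpa using B.mul_mem (B.inv_mem h1) h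
    · exact ⟨b, h2, hb⟩
  · exact ⟨a, ha, h1⟩

theorem br_three_inf {A B K : Subgroup G} (hA : A ≠ ⊤) (hB : B ≠ ⊤)
    (h : ∀ x, x ∈ A ∨ x ∈ B ∨ x ∈ K) {x : G} (ha : x ∈ A) (hb : x ∈ B) : x ∈ K := by
  obtain ⟨d, hdA, hdB⟩ := br_two_cover hA hB
  have hdK : d ∈ K := by rcases h d with h | h | h <;> simp_all
  rcases h (x * d) with h | h | h
  · exact absurd (by simpa using A.mul_mem (A.inv_mem ha) h) hdA
  · exact absurd (by simpa using B.mul_mem (B.inv_mem hb) h) hdB
  · simpa using K.mul_mem h (K.inv_mem hdK)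

theorem br_three_index {A B K : Subgroup G} (hA : A ≠ ⊤) (hB : B ≠ ⊤) (hK : K ≠ ⊤)
    (h : ∀ x, x ∈ A ∨ x ∈ B ∨ x ∈ K) : K.index = 2 := by
  have key : ∀ {A B : Subgroup G}, A ≠ ⊤ → B ≠ ⊤ → (∀ x, x ∈ A ∨ x ∈ B ∨ x ∈ K) →
      ∀ u v, u ∉ K → v ∉ K → u ∈ A → u * v ∈ K := by
    intro A B hA hB h u v hu hv huA
    have huB : u ∉ B := fun hh => hu (br_three_inf hA hB h huA hh)
    by_cases hvA : v ∈ A
    · have hvB : v ∉ B := fun hh => hv (br_three_inf hA hB h hvA hh)
      obtain ⟨b, hbA, hbK⟩ := br_two_cover hA hK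
      have hbB : b ∈ B := by rcases h b with h | h | h <;> simp_all
      have h1 : u * b ∈ K := by
        rcases h (u * b) with h | h | h
        · exact absurd (by simpa using A.mul_mem (A.inv_mem huA) h) hbA
        · exact absurd (by simpa using B.mul_mem h (B.inv_mem hbB)) huB
        · exact h
      have h2 : b⁻¹ * v ∈ K := by
        rcases h (b⁻¹ * v) with h | h | h
        · exact absurd (by simpa using A.mul_mem h (A.inv_mem hvA)) hbA
        · exact absurd (by simpa using B.mul_mem hbB h) hvB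
        · exact h
      simpa using K.mul_mem h1 h2
    · have hvB : v ∈ B := by rcases h v with h | h | h <;> simp_all
      rcases h (u * v) with h | h | h
      · exact absurd (by simpa using A.mul_mem (A.inv_mem huA) h) hvA
      · exact absurd (by simpa using B.mul_mem h (B.inv_mem hvB)) huB
      · exact h
  obtain ⟨a, ha, -⟩ := br_two_cover hK hK
  rw [index_eq_two_iff_exists_notMem_and]
  refine ⟨a, ha, fun b => ?_⟩
  by_cases hb : b ∈ K
  · exact Or.inr hb
  · left
    rcases h b with h1 | h1 | h1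
    · exact key hA hB h b a hb ha h1
    · exact key hB hA (fun x => by rcases h x with h | h | h <;> simp [h]) b a hb ha h1
    · exact absurd h1 hb

end

variable {p : ℕ} [hp : Fact p.Prime]

theorem br_step {G : Type*} [Group G] [Finite G] (hG : IsPGroup p G) {C : Subgroup G}
    (hC : IsCoatom C) : ∃ K : Subgroup C,
    Nat.card (_root_.commutator G) ≤ Nat.card (_root_.commutator C) * K.index ∧
    (∀ a, a ∉ C → K.index ≤ (centralizer ({a} : Set G)).index) ∧
    ∀ c : C, c ∉ K → p * (centralizer ({c} : Set C)).index = (centralizer ({(c : G)} : Set G)).index := by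
  haveI hn := H3.normal_of_isCoatom hG hC
  set N : Subgroup G := ⁅C, C⁆ with hN
  let f := QuotientGroup.mk' N
  have hab : ∀ a ∈ C, ∀ b ∈ C, f a * f b = f b * f a := by
    intro a ha b hb
    rw [← commutatorElement_eq_one_iff_mul_comm, ← map_commutatorElement]
    exact (QuotientGroup.eq_one_iff _).mpr (commutator_mem_commutator ha hb)
  have hsup : ∀ a, a ∉ C → C ⊔ zpowers a = ⊤ := fun a ha =>
    hC.2 _ (lt_of_le_of_ne le_sup_left fun h => ha (h ▸ mem_sup_right (mem_zpowers a)))
  let K : Subgroup C := (center (G ⧸ N)).comap (f.comp C.subtype)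
  have hK : ∀ a, a ∉ C → K = (centralizer ({f a} : Set (G ⧸ N))).comap (f.comp C.subtype) := by
    intro a ha
    ext c
    simp only [K, mem_comap, MonoidHom.comp_apply, coe_subtype, mem_centralizer_singleton_iff]
    constructor
    · intro h; exact (mem_center_iff.mp h _).symm
    · intro h
      have : (centralizer ({f c} : Set (G ⧸ N))).comap f = ⊤ := by
        rw [eq_top_iff, ← hsup a ha, sup_le_iff]
        refine ⟨fun b hb => ?_, zpowers_le.mpr ?_⟩
        · simp only [mem_comap, mem_centralizer_singleton_iff]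
          exact hab _ hb _ c.2
        · simp only [mem_comap, mem_centralizer_singleton_iff]
          exact h.symm
      rw [mem_center_iff]
      intro g
      obtain ⟨g, rfl⟩ := QuotientGroup.mk'_surjective N g
      have h2 : g ∈ (centralizer ({f c} : Set (G ⧸ N))).comap f := this ▸ mem_top g
      simpa only [mem_comap, mem_centralizer_singleton_iff] using h2
  have hKc : ∀ a, a ∉ C → (centralizer ({a} : Set G)).subgroupOf C ≤ K := by
    intro a ha c hc
    rw [hK a ha]
    simp only [mem_subgroupOf, mem_centralizer_singleton_iff, mem_comap, MonoidHom.comp_apply,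
      coe_subtype] at hc ⊢
    rw [← map_mul, ← map_mul, hc]
  refine ⟨K, ?_, fun a ha => ?_, fun c hc => ?_⟩
  · obtain ⟨x, hx, -⟩ := br_two_cover hC.1 hC.1
    haveI : (C.map f).Normal := Normal.map hn f (QuotientGroup.mk'_surjective N)
    have hA : IsMulCommutative (C.map f) := by
      rw [H3.isMulCommutative_iff_mem]
      rintro _ ⟨a, ha, rfl⟩ _ ⟨b, hb, rfl⟩
      exact hab a ha b hb
    have hx2 : C.map f ⊔ zpowers (f x) = ⊤ := by
      rw [← MonoidHom.map_zpowers, ← Subgroup.map_sup, hsup x hx]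
      exact map_top_of_surjective _ (QuotientGroup.mk'_surjective N)
    have h1 := card_eq_of_ab_normal hA hx2
    have h2 : K.index = Nat.card (_root_.commutator (G ⧸ N)) := by
      rw [hK x hx, index_comap]
      have hr : (f.comp C.subtype).range = C.map f := by
        rw [MonoidHom.range_comp, range_subtype]
      rw [hr]
      have h3 := card_mul_index ((centralizer ({f x} : Set (G ⧸ N))).subgroupOf (C.map f))
      have h4 : Nat.card ((centralizer ({f x} : Set (G ⧸ N))).subgroupOf (C.map f)) =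
          Nat.card ((C.map f ⊓ centralizer ({f x} : Set (G ⧸ N)) : Subgroup _)) := by
        rw [← inf_subgroupOf_left]
        exact Nat.card_congr (subgroupOfEquivOfLe inf_le_left).toEquiv
      rw [h4] at h3
      have h5 : 0 < Nat.card ((C.map f ⊓ centralizer ({f x} : Set (G ⧸ N)) : Subgroup _)) :=
        Nat.card_pos
      exact Nat.eq_of_mul_eq_mul_left h5 (h3.trans h1)
    have h6 : Nat.card (_root_.commutator C) = Nat.card N := by
      rw [hN, ← map_subtype_commutator]
      exact (card_map_of_injective C.subtype_injective).symm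
    rw [h2, h6]
    have h7 : _root_.commutator (G ⧸ N) = (_root_.commutator G).map f := by
      rw [_root_.commutator_def, _root_.commutator_def, map_commutator,
        map_top_of_surjective _ (QuotientGroup.mk'_surjective N)]
    rw [h7]
    have h8 := card_mul_index ((f.domRestrict (_root_.commutator G)).ker)
    rw [index_ker, MonoidHom.domRestrict_range] at h8
    rw [← h8]
    refine Nat.mul_le_mul_right _ ?_
    rw [MonoidHom.ker_domRestrict, QuotientGroup.ker_mk']
    rw [← inf_subgroupOf_right]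
    rw [Nat.card_congr (subgroupOfEquivOfLe (inf_le_right : N ⊓ _root_.commutator G ≤ _)).toEquiv]
    exact card_le_of_le inf_le_left
  · calc K.index ≤ ((centralizer ({a} : Set G)).subgroupOf C).index :=
          Nat.le_of_dvd (Nat.pos_of_ne_zero index_ne_zero_of_finite) (index_dvd_of_le (hKc a ha))
      _ ≤ _ := by
          have := relIndex_le_of_le_right (H := centralizer ({a} : Set G)) (le_top : C ≤ ⊤)
            (by rw [relIndex_top_right]; exact index_ne_zero_of_finite)
          rwa [relIndex_top_right] at this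
  · have hle : centralizer ({(c : G)} : Set G) ≤ C := by
      intro g hg
      by_contra hgC
      apply hc
      apply hKc g hgC
      simp only [mem_subgroupOf, mem_centralizer_singleton_iff] at hg ⊢
      exact hg.symm
    rw [br_cent_sub, ← relIndex_mul_index hle, H3.index_eq_of_isCoatom hG hC, mul_comm]
    rfl

theorem br_cent_le {G : Type*} [Group G] [Finite G] (C : Subgroup G) (c : C) :
    (centralizer ({c} : Set C)).index ≤ (centralizer ({(c : G)} : Set G)).index := by
  rw [br_cent_sub]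
  have := relIndex_le_of_le_right (H := centralizer ({(c : G)} : Set G)) (le_top : C ≤ ⊤)
    (by rw [relIndex_top_right]; exact index_ne_zero_of_finite)
  rwa [relIndex_top_right] at this

theorem br_index_inf {G : Type*} [Group G] [Finite G] (hG : IsPGroup p G) {M N : Subgroup G}
    (hM : IsCoatom M) (hN : IsCoatom N) (h : M ≠ N) : (M ⊓ N).index = p * p := by
  haveI := H3.normal_of_isCoatom hG hM
  rw [← relIndex_mul_index (inf_le_right : M ⊓ N ≤ N), inf_relIndex_right,
    ← relIndex_sup_right N M, (hN.sup_eq_top_of_ne hM h.symm), relIndex_top_right,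
    H3.index_eq_of_isCoatom hG hM, H3.index_eq_of_isCoatom hG hN]

theorem br_choose {G : Type*} [Group G] [Finite G] (hG : IsPGroup p G)
    (hna : _root_.commutator G ≠ ⊥) {H1 H2 : Subgroup G} (h1 : H1 ≠ ⊤) (h2 : H2 ≠ ⊤) :
    ∃ (C : Subgroup G) (D : Subgroup C), IsCoatom C ∧ D ≠ ⊤ ∧
      ∀ c : C, c ∉ D → (c : G) ∉ H1 ∧ (c : G) ∉ H2 := by
  obtain ⟨M1, hM1, l1⟩ := (eq_top_or_exists_le_coatom H1).resolve_left h1
  obtain ⟨M2, hM2, l2⟩ := (eq_top_or_exists_le_coatom H2).resolve_left h2
  obtain ⟨a, ha1, ha2⟩ := br_two_cover hM1.1 hM2.1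
  by_cases he : M1 = M2
  · subst he
    have hz : zpowers a ≠ ⊤ := by
      intro hz
      apply hna
      haveI : IsCyclic G := (isCyclic_iff_exists_zpowers_eq_top).mpr ⟨a, hz⟩
      rw [_root_.commutator_def, commutator_eq_bot_iff_le_centralizer]
      intro x _ y _
      exact mul_comm' y x
    obtain ⟨C, hC, lC⟩ := (eq_top_or_exists_le_coatom _).resolve_left hz
    refine ⟨C, M1.subgroupOf C, hC, fun h => ?_, fun c hc => ⟨fun h => hc (l1 h), fun h => hc (l2 h)⟩⟩
    exact ha1 (subgroupOf_eq_top.mp h (lC (mem_zpowers a)))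
  · haveI := H3.normal_of_isCoatom hG hM1
    haveI := H3.normal_of_isCoatom hG hM2
    have hi := br_index_inf hG hM1 hM2 he
    have hap : a ^ p ∈ M1 ⊓ M2 :=
      mem_inf.mpr ⟨frattini_le_coatom hM1 (H3.pow_mem_frattini hG a),
        frattini_le_coatom hM2 (H3.pow_mem_frattini hG a)⟩
    have hc := H3.card_sup_zpowers (p := p) (N := M1 ⊓ M2) (x := a)
      (by rw [normalizer_eq_top]; exact mem_top a) (fun h => ha1 (mem_inf.mp h).1) hap
    have hcard := card_mul_index (M1 ⊓ M2)
    have hz : (M1 ⊓ M2) ⊔ zpowers a ≠ ⊤ := by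
      intro hz
      rw [hz, card_top, ← hcard, hi] at hc
      have h0 : 0 < Nat.card (M1 ⊓ M2 : Subgroup G) := Nat.card_pos
      have hp1 := hp.out.one_lt
      have : Nat.card (M1 ⊓ M2 : Subgroup G) * (p * p) = Nat.card (M1 ⊓ M2 : Subgroup G) * (p * 1) := by
        rw [hc]; ring
      have := Nat.eq_of_mul_eq_mul_left (by omega) (Nat.eq_of_mul_eq_mul_left h0 this)
      omega
    obtain ⟨C, hC, lC⟩ := (eq_top_or_exists_le_coatom _).resolve_left hz
    have haC : a ∈ C := lC (mem_sup_right (mem_zpowers a))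
    have key : ∀ M, IsCoatom M → a ∉ M → M1 ⊓ M2 ≤ M → C ⊓ M = M1 ⊓ M2 := by
      intro M hM ha hle
      have hi2 := br_index_inf hG hC hM (fun h => ha (h ▸ haC))
      have hcard2 := card_mul_index (C ⊓ M)
      symm
      refine eq_of_le_of_card_ge (le_inf (le_sup_left.trans lC) hle) (le_of_eq ?_)
      rw [hi] at hcard
      rw [hi2, ← hcard] at hcard2
      exact Nat.eq_of_mul_eq_mul_right (Nat.mul_pos hp.out.pos hp.out.pos) hcard2
    refine ⟨C, (M1 ⊓ M2).subgroupOf C, hC, fun h => ?_, fun c hc => ⟨fun h => hc ?_, fun h => hc ?_⟩⟩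
    · exact ha1 (mem_inf.mp (subgroupOf_eq_top.mp h haC)).1
    · rw [mem_subgroupOf, ← key M1 hM1 ha1 inf_le_left]
      exact mem_inf.mpr ⟨c.2, l1 h⟩
    · rw [mem_subgroupOf, ← key M2 hM2 ha2 inf_le_right]
      exact mem_inf.mpr ⟨c.2, l2 h⟩

theorem br_tri (m : ℕ) : (m + 1) * (m + 1 + 1) / 2 = m * (m + 1) / 2 + (m + 1) := by
  rw [show (m + 1) * (m + 1 + 1) = m * (m + 1) + 2 * (m + 1) by ring,
    Nat.add_mul_div_left _ _ (by norm_num)]

theorem br_main (n : ℕ) : ∀ (G : Type u) [Group G] [Finite G], Nat.card G < n → IsPGroup p G →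
    ∀ (m : ℕ) (H1 H2 : Subgroup G),
    (∀ x, x ∉ H1 → x ∉ H2 → (centralizer ({x} : Set G)).index ≤ p ^ m) →
    (∀ M : Subgroup G, M ≠ ⊤ → ∃ a, a ∉ M ∧ a ∉ H1 ∧ a ∉ H2) →
    Nat.card (_root_.commutator G) ≤ p ^ (m * (m + 1) / 2) := by
  induction n with
  | zero => intro G _ _ h; omega
  | succ n ih =>
  intro G _ _ hn hG m H1 H2 hb hgen
  have hp0 := hp.out.pos
  have hp2 := hp.out.two_le
  by_cases hna : _root_.commutator G = ⊥
  · rw [hna, card_bot]; exact Nat.pow_pos hp0
  have hZ : center G ≠ ⊤ := by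
    intro h
    apply hna
    rw [_root_.commutator_def, commutator_eq_bot_iff_le_centralizer]
    intro x _ y _
    exact mem_center_iff.mp (h ▸ mem_top x) y
  obtain ⟨z, hz, hz1, hz2⟩ := hgen _ hZ
  obtain _ | k := m
  · exfalso
    have h1 := hb z hz1 hz2
    have h2 : (centralizer ({z} : Set G)).index ≠ 0 := index_ne_zero_of_finite
    have h3 : (centralizer ({z} : Set G)) = ⊤ := index_eq_one.mp (by simp at h1; omega)
    apply hz
    rw [mem_center_iff]
    intro g
    exact mem_centralizer_singleton_iff.mp (h3 ▸ mem_top g)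
  obtain ⟨C, D, hC, hD, hCD⟩ := br_choose hG hna (H1 := H1) (H2 := H2)
    (fun h => hz1 (h ▸ mem_top z)) (fun h => hz2 (h ▸ mem_top z))
  have hlt : ∀ {X : Type u} [Group X] [Finite X] (C : Subgroup X), C ≠ ⊤ → Nat.card C < Nat.card X := by
    intro X _ _ C hC
    rw [← card_top (G := X)]
    exact H3.card_lt_of_lt (lt_top_iff_ne_top.mpr hC)
  have hCn : Nat.card C < n := by have := hlt C hC.1; omega
  have hGC := hG.to_subgroup C
  obtain ⟨K, hK1, hK2, hK3⟩ := br_step hG hC
  have hDb : ∀ c : C, c ∉ D → (centralizer ({(c : G)} : Set G)).index ≤ p ^ (k + 1) :=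
    fun c hc => hb _ (hCD c hc).1 (hCD c hc).2
  have hDb' : ∀ c : C, c ∉ D → (centralizer ({c} : Set C)).index ≤ p ^ (k + 1) :=
    fun c hc => (br_cent_le C c).trans (hDb c hc)
  have hKi : K.index ≤ p ^ (k + 1) := by
    obtain ⟨a, ha, ha1, ha2⟩ := hgen C hC.1
    exact (hK2 a ha).trans (hb a ha1 ha2)
  have gen2 : ∀ {X : Type u} [Group X] {D : Subgroup X}, D ≠ ⊤ →
      ∀ M : Subgroup X, M ≠ ⊤ → ∃ a, a ∉ M ∧ a ∉ D ∧ a ∉ D := by
    intro X _ D hD M hM
    obtain ⟨a, h1, h2⟩ := br_two_cover hM hD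
    exact ⟨a, h1, h2, h2⟩
  by_cases hK : K = ⊤
  · rw [hK, index_top, mul_one] at hK1
    exact hK1.trans (ih C hCn hGC (k + 1) D D (fun x h _ => hDb' x h) (gen2 hD))
  have hDK : ∀ c : C, c ∉ D → c ∉ K → (centralizer ({c} : Set C)).index ≤ p ^ k := by
    intro c h1 h2
    have := hDb c h1
    rw [← hK3 c h2, pow_succ'] at this
    exact Nat.le_of_mul_le_mul_left this hp0
  by_cases hg : ∀ M : Subgroup C, M ≠ ⊤ → ∃ a, a ∉ M ∧ a ∉ D ∧ a ∉ K
  · have := ih C hCn hGC k D K hDK hg
    rw [br_tri, pow_add]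
    exact hK1.trans (Nat.mul_le_mul this hKi)
  push Not at hg
  obtain ⟨T0, hT0, hcov0⟩ := hg
  obtain ⟨T, hT, lT⟩ := (eq_top_or_exists_le_coatom T0).resolve_left hT0
  have hcov : ∀ a, a ∈ T ∨ a ∈ D ∨ a ∈ K := by
    intro a
    by_cases h1 : a ∈ T0
    · exact Or.inl (lT h1)
    by_cases h2 : a ∈ D
    · exact Or.inr (Or.inl h2)
    exact Or.inr (Or.inr (hcov0 a h1 h2))
  have hK2' : K.index ≤ p := by rw [br_three_index hT.1 hD hK hcov]; exact hp2
  have hTK : ∀ a, a ∈ T → a ∉ D → a ∉ K := fun a h1 h2 h3 =>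
    h2 (br_three_inf hT.1 hK (fun x => by rcases hcov x with h | h | h <;> simp [h]) h1 h3)
  obtain ⟨K', hK1', hK2'', hK3'⟩ := br_step hGC hT
  have hTn : Nat.card T < n := by have := hlt T hT.1; omega
  have hGT := hGC.to_subgroup T
  have hD' : D.subgroupOf T ≠ ⊤ := by
    intro h
    obtain ⟨a, h1, h2⟩ := br_two_cover hD hK
    rcases hcov a with h3 | h3 | h3
    · exact h1 (subgroupOf_eq_top.mp h h3)
    · exact h1 h3
    · exact h2 h3
  have hTb : ∀ t : T, t ∉ D.subgroupOf T → (centralizer ({(t : C)} : Set C)).index ≤ p ^ k :=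
    fun t ht => hDK _ ht (hTK _ t.2 ht)
  have hKi' : K'.index ≤ p ^ (k + 1) := by
    obtain ⟨a, h1, h2⟩ := br_two_cover hT.1 hD
    exact (hK2'' a h1).trans (hDb' a h2)
  have ih1 := ih T hTn hGT k _ _ (fun x h _ => (br_cent_le T x).trans (hTb x h)) (gen2 hD')
  have hall : Nat.card (_root_.commutator G) ≤ Nat.card (_root_.commutator T) * K'.index * p :=
    hK1.trans (Nat.mul_le_mul hK1' hK2')
  by_cases hK' : K' = ⊤
  · rw [hK', index_top, mul_one] at hall
    refine hall.trans ?_
    rw [br_tri, pow_add]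
    exact Nat.mul_le_mul ih1 (Nat.le_self_pow (by omega) p)
  have hDK' : ∀ t : T, t ∉ D.subgroupOf T → t ∉ K' →
      p * (centralizer ({t} : Set T)).index ≤ p ^ k := by
    intro t h1 h2
    rw [hK3' t h2]; exact hTb t h1
  obtain _ | j := k
  · exfalso
    obtain ⟨t, h1, h2⟩ := br_two_cover hD' hK'
    have h3 := hDK' t h1 h2
    have h4 : (centralizer ({t} : Set T)).index ≠ 0 := index_ne_zero_of_finite
    have h5 : p * 1 ≤ p * (centralizer ({t} : Set T)).index := Nat.mul_le_mul_left _ (by omega)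
    simp only [pow_zero] at h3
    omega
  refine hall.trans ?_
  by_cases hg : ∀ M : Subgroup T, M ≠ ⊤ → ∃ a, a ∉ M ∧ a ∉ D.subgroupOf T ∧ a ∉ K'
  · have := ih T hTn hGT j _ K' (fun t h1 h2 => by
      have := hDK' t h1 h2
      rw [pow_succ'] at this
      exact Nat.le_of_mul_le_mul_left this hp0) hg
    rw [br_tri, br_tri, add_assoc, add_comm (j + 1) (j + 1 + 1), pow_add, pow_add, ← mul_assoc]
    exact Nat.mul_le_mul (Nat.mul_le_mul this hKi') (Nat.le_self_pow (by omega) p)
  push Not at hg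
  obtain ⟨U, hU, hcov1⟩ := hg
  have hK2p : K'.index ≤ p := by
    rw [br_three_index hU hD' hK' (fun a => by
      by_cases h1 : a ∈ U
      · exact Or.inl h1
      by_cases h2 : a ∈ D.subgroupOf T
      · exact Or.inr (Or.inl h2)
      exact Or.inr (Or.inr (hcov1 a h1 h2)))]
    exact hp2
  rw [br_tri, pow_add, pow_succ p (j + 1), ← mul_assoc]
  exact Nat.mul_le_mul (Nat.mul_le_mul ih1 (hK2p.trans (Nat.le_self_pow (by omega) p))) le_rfl

/-- Vaughan-Lee's bound for the derived subgroup of a `p`-group of breadth at most `b`. -/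
theorem card_commutator_le_of_breadth {G : Type u} [Group G] [Finite G] (hG : IsPGroup p G) (b : ℕ)
    (hb : ∀ x : G, (centralizer ({x} : Set G)).index ≤ p ^ b) :
    Nat.card (_root_.commutator G) ≤ p ^ (b * (b + 1) / 2) := by
  by_cases h : (⊥ : Subgroup G) = ⊤
  · have : _root_.commutator G = ⊥ := le_bot_iff.mp (h ▸ le_top)
    rw [this, card_bot]; exact Nat.pow_pos hp.out.pos
  refine br_main _ G (Nat.lt_succ_self _) hG b ⊥ ⊥ (fun x _ _ => hb x) fun M hM => ?_
  obtain ⟨a, h1, h2⟩ := br_two_cover hM h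
  exact ⟨a, h1, h2, h2⟩

end Cfsg.Agent.H25
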