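/-
Wielandt's theorem on primitive permutation groups of degree `2p`.
-/
import Mathlib
import Cfsg.Agent.H2.Rank3

set_option autoImplicit false
set_option linter.style.haveILetI false

namespace Cfsg.Agent.H25.W2

open MulAction Finset

variable {p : ℕ} [hp : Fact p.Prime]

/-- the rational group algebra of `ℤ/p`. -/
abbrev RR (p : ℕ) := AddMonoidAlgebra ℚ (ZMod p)

noncomputable def mkR (f : ZMod p → ℚ) : RR p := .ofCoeff (Finsupp.equivFunOnFinite.symm f)

@[simp] theorem coeff_mkR (f : ZMod p → ℚ) (x : ZMod p) : (mkR f).coeff x = f x := rfl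

theorem ext_R {f g : RR p} (h : ∀ x, f.coeff x = g.coeff x) : f = g := by ext x; exact h x

theorem coeff_mul' (f g : RR p) (z : ZMod p) : (f * g).coeff z = ∑ y, f.coeff y * g.coeff (z - y) := by
  rw [AddMonoidAlgebra.coeff_mul_apply_left, Finsupp.sum_fintype _ _ (by simp)]
  simp only [neg_add_eq_sub]

theorem coeff_one' (z : ZMod p) : (1 : RR p).coeff z = if z = 0 then 1 else 0 := by
  rw [AddMonoidAlgebra.one_def, AddMonoidAlgebra.coeff_single, Finsupp.single_apply]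
  simp only [eq_comm]

noncomputable def aug : RR p →ₐ[ℚ] ℚ := AddMonoidAlgebra.lift ℚ ℚ (ZMod p) 1

theorem aug_apply (f : RR p) : aug f = ∑ x, f.coeff x := by
  rw [aug, AddMonoidAlgebra.lift_apply, Finsupp.sum_fintype _ _ (by simp)]
  simp

theorem exists_ev : ∃ ev : RR p →ₐ[ℚ] ℂ, ∀ f, ev f = 0 → ∀ x, p * f.coeff x = aug f := by
  have hζ := Complex.isPrimitiveRoot_exp p hp.out.ne_zero
  refine ⟨AddMonoidAlgebra.lift ℚ ℂ (ZMod p) (AddChar.zmodChar p hζ.pow_eq_one).toMonoidHom, fun f hf x => ?_⟩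
  rw [AddMonoidAlgebra.lift_apply, Finsupp.sum_fintype _ _ (by simp)] at hf
  have key : ∀ x y, f.coeff x = f.coeff y := by
    have h := hp.out
    obtain ⟨n, rfl⟩ : ∃ n, p = n + 1 := ⟨p - 1, by have := h.pos; omega⟩
    refine (hζ.sum_eq_zero_iff_forall_eq h f.coeff).1 ?_
    rw [← hf]
    exact sum_congr rfl fun i _ => by rw [Algebra.smul_def]; rfl
  rw [aug_apply, sum_congr rfl fun y _ => key y x]
  simp

variable {G α : Type*} [Group G] [MulAction G α] [Fintype α]

/-- an element of order `p` acting with two cycles of length `p`. -/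
structure Dat (G α : Type*) [Group G] [MulAction G α] (p : ℕ) where
  e : Fin 2 × ZMod p ≃ α
  t : G
  ht : ∀ a x, t • e (a, x) = e (a, x + 1)

variable (G) in
def Inv (M : Matrix α α ℚ) : Prop := ∀ (g : G) u w, M (g • u) (g • w) = M u w

omit hp in
theorem Inv.mul {M N : Matrix α α ℚ} (hM : Inv G M) (hN : Inv G N) : Inv G (M * N) := fun g u w => by
  simp only [Matrix.mul_apply]
  rw [← Equiv.sum_comp (MulAction.toPerm g)]
  exact sum_congr rfl fun y _ => by rw [toPerm_apply, hM, hN]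

omit hp [Fintype α] in
theorem Inv.transpose {M : Matrix α α ℚ} (hM : Inv G M) : Inv G M.transpose := fun g u w => hM g w u

omit hp in
theorem Inv.row [IsPretransitive G α] {M : Matrix α α ℚ} (hM : Inv G M) (u u' : α) : ∑ w, M u w = ∑ w, M u' w := by
  obtain ⟨g, rfl⟩ := exists_smul_eq G u' u
  rw [← Equiv.sum_comp (MulAction.toPerm g)]
  exact sum_congr rfl fun y _ => hM g _ _

omit hp [Fintype α] in
theorem Inv.diag [IsPretransitive G α] {M : Matrix α α ℚ} (hM : Inv G M) (u u' : α) : M u u = M u' u' := by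
  obtain ⟨g, rfl⟩ := exists_smul_eq G u' u
  exact hM g _ _

namespace Dat

variable (D : Dat G α p)

omit [Fintype α] in
theorem shift {M : Matrix α α ℚ} (hM : Inv G M) (a b : Fin 2) (x y : ZMod p) :
    M (D.e (a, x)) (D.e (b, y)) = M (D.e (a, 0)) (D.e (b, y - x)) := by
  have h : ∀ (n : ℕ) a x, D.t ^ n • D.e (a, x) = D.e (a, x + n) := fun n a x => by
    induction n with
    | zero => simp
    | succ n ih => rw [pow_succ', mul_smul, ih, D.ht, Nat.cast_succ, add_assoc]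
  rw [← hM (D.t ^ x.val) (D.e (a, 0)), h, h]
  simp

noncomputable def Φ (M : Matrix α α ℚ) (a b : Fin 2) : RR p := mkR fun x => M (D.e (a, 0)) (D.e (b, x))

omit [Fintype α] in
@[simp] theorem coeff_Φ (M : Matrix α α ℚ) (a b : Fin 2) (x : ZMod p) :
    (D.Φ M a b).coeff x = M (D.e (a, 0)) (D.e (b, x)) := rfl

theorem sum_eq (f : α → ℚ) : ∑ w, f w = ∑ x, f (D.e (0, x)) + ∑ x, f (D.e (1, x)) := by
  rw [← D.e.sum_comp, Fintype.sum_prod_type, Fin.sum_univ_two]

theorem Φ_mul {M N : Matrix α α ℚ} (hN : Inv G N) (a c : Fin 2) :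
    D.Φ (M * N) a c = D.Φ M a 0 * D.Φ N 0 c + D.Φ M a 1 * D.Φ N 1 c := ext_R fun z => by
  rw [AddMonoidAlgebra.coeff_add, Finsupp.add_apply, coeff_mul', coeff_mul', coeff_Φ, Matrix.mul_apply, D.sum_eq]
  simp only [coeff_Φ]
  congr 1 <;> exact sum_congr rfl fun y _ => by rw [D.shift hN]

omit [Fintype α] in
theorem Φ_smul (c : ℚ) (M : Matrix α α ℚ) (a b : Fin 2) : D.Φ (c • M) a b = algebraMap ℚ _ c * D.Φ M a b := by
  rw [← Algebra.smul_def]; exact ext_R fun x => by simp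

/-- the sign function of the two orbits. -/
def v (u : α) : ℚ := if (D.e.symm u).1 = 0 then 1 else -1

noncomputable def r (M : Matrix α α ℚ) (a b : Fin 2) : ℚ := aug (D.Φ M a b)

noncomputable def lam (M : Matrix α α ℚ) : ℚ := D.r M 0 0 - D.r M 0 1

omit [Fintype α] in
theorem r_eq (M : Matrix α α ℚ) (a b : Fin 2) : D.r M a b = ∑ x, M (D.e (a, 0)) (D.e (b, x)) := aug_apply _

omit [Fintype α] in
theorem r_shift {M : Matrix α α ℚ} (hM : Inv G M) (a b : Fin 2) (y : ZMod p) :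
    ∑ x, M (D.e (a, y)) (D.e (b, x)) = D.r M a b := by
  rw [r_eq, ← Equiv.sum_comp (Equiv.subRight y) (fun x => M (D.e (a, 0)) (D.e (b, x)))]
  exact sum_congr rfl fun x _ => D.shift hM _ _ _ _

omit [Fintype α] in
theorem r_transpose {M : Matrix α α ℚ} (hM : Inv G M) (a b : Fin 2) : D.r M.transpose a b = D.r M b a := by
  rw [r_eq, r_eq, ← Equiv.sum_comp (Equiv.neg _)]
  exact sum_congr rfl fun x _ => by rw [Matrix.transpose_apply, D.shift hM]; simp

variable [IsPretransitive G α]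

theorem r_symm {M : Matrix α α ℚ} (hM : Inv G M) : D.r M 1 0 = D.r M 0 1 ∧ D.r M 1 1 = D.r M 0 0 := by
  have h1 := hM.row (D.e (0, 0)) (D.e (1, 0))
  have h2 := hM.transpose.row (D.e (0, 0)) (D.e (1, 0))
  simp only [D.sum_eq, ← D.r_eq, D.r_transpose hM] at h1 h2
  constructor <;> linarith

theorem row_eq {M : Matrix α α ℚ} (hM : Inv G M) (u : α) : ∑ w, M u w = D.r M 0 0 + D.r M 0 1 := by
  rw [hM.row u (D.e (0, 0)), D.sum_eq, r_eq, r_eq]

theorem mul_v {M : Matrix α α ℚ} (hM : Inv G M) (u : α) : ∑ w, M u w * D.v w = D.lam M * D.v u := by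
  obtain ⟨⟨a, y⟩, rfl⟩ := D.e.surjective u
  obtain ⟨h1, h2⟩ := D.r_symm hM
  simp only [D.sum_eq, v, Equiv.symm_apply_apply, if_true, mul_one, one_ne_zero, if_false, mul_neg, sum_neg_distrib,
    D.r_shift hM, lam]
  fin_cases a <;> simp [h1, h2, sub_eq_add_neg, add_comm]

/-- The idempotent projecting onto the submodule generated by `v`. -/
theorem exists_E [Finite G] : ∃ E : Matrix α α ℚ, Inv G E ∧ E.transpose = E ∧ (∀ M, Inv G M → M * E = D.lam M • E) ∧
    D.r E 0 0 = 1 / 2 ∧ D.r E 0 1 = -1 / 2 := by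
  haveI := Fintype.ofFinite G
  obtain ⟨S, hSd⟩ : ∃ S : Matrix α α ℚ, ∀ u w, S u w = ∑ g : G, D.v (g • u) * D.v (g • w) :=
    ⟨Matrix.of _, fun _ _ => rfl⟩
  have hS : Inv G S := fun h u w => by
    simp only [hSd, smul_smul]
    exact Equiv.sum_comp (Equiv.mulRight h) fun g => D.v (g • u) * D.v (g • w)
  have hM : ∀ M, Inv G M → M * S = D.lam M • S := fun M hM => by
    ext u w
    simp only [hSd, Matrix.mul_apply, Matrix.smul_apply, smul_eq_mul, mul_sum]
    rw [sum_comm]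
    refine sum_congr rfl fun g _ => ?_
    rw [← mul_assoc, ← D.mul_v hM, sum_mul, ← Equiv.sum_comp (MulAction.toPerm g) (fun y => M (g • u) y * D.v y * _)]
    exact sum_congr rfl fun y _ => by rw [toPerm_apply, hM, mul_assoc]
  have hsym : S.transpose = S := by ext u w; simp only [hSd, Matrix.transpose_apply, mul_comm]
  have hv : ∀ u, D.v u * D.v u = 1 := fun u => by unfold v; split_ifs <;> norm_num
  have h0 : D.lam S ≠ 0 := fun h => by
    have h1 := congrFun (congrFun (hM S hS) (D.e (0, 0))) (D.e (0, 0))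
    rw [h, zero_smul, Matrix.mul_apply, Matrix.zero_apply, sum_eq_zero_iff_of_nonneg fun y _ => by
      rw [← congrFun (congrFun hsym y) _]; exact mul_self_nonneg _] at h1
    have := mul_self_eq_zero.1 (h1 _ (mem_univ (D.e (0, 0))))
    simp [hSd, hv] at this
  have h1 : D.r S 0 0 + D.r S 0 1 = 0 := by
    rw [← D.row_eq hS (D.e (0, 0))]
    simp only [hSd]
    rw [sum_comm]
    refine sum_eq_zero fun g _ => ?_
    have := Equiv.sum_comp (MulAction.toPerm g) D.v
    simp only [toPerm_apply] at this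
    rw [← mul_sum, this, D.sum_eq]
    simp [v]
  have hr : ∀ a b, D.r ((D.lam S)⁻¹ • S) a b = (D.lam S)⁻¹ * D.r S a b := fun a b => by
    simp [r_eq, mul_sum]
  refine ⟨(D.lam S)⁻¹ • S, fun g u w => by simp [hS g u w], by rw [Matrix.transpose_smul, hsym], fun M h => by
    rw [Matrix.mul_smul, hM M h, smul_comm], ?_, ?_⟩ <;> rw [hr] <;> field_simp <;> unfold lam <;> linarith

/-- The properties of the idempotent. -/
structure Idem (E : Matrix α α ℚ) : Prop where
  inv : Inv G E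
  sym : E.transpose = E
  mul : ∀ M, Inv G M → M * E = D.lam M • E
  r0 : D.r E 0 0 = 1 / 2
  r1 : D.r E 0 1 = -1 / 2

theorem lam_transpose {M : Matrix α α ℚ} (hM : Inv G M) : D.lam M.transpose = D.lam M := by
  rw [lam, lam, D.r_transpose hM, D.r_transpose hM, (D.r_symm hM).1]

variable {D} {E : Matrix α α ℚ}

omit [IsPretransitive G α] in
theorem Idem.sq (h : D.Idem E) : E * E = E := by
  rw [h.mul E h.inv, lam, h.r0, h.r1]; norm_num

omit [IsPretransitive G α] in
theorem Idem.symm (h : D.Idem E) (u w : α) : E u w = E w u := (congrFun (congrFun h.sym u) w).symm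

omit [IsPretransitive G α] in
theorem Idem.ΦΦ (h : D.Idem E) (a c : Fin 2) : D.Φ E a 0 * D.Φ E 0 c + D.Φ E a 1 * D.Φ E 1 c = D.Φ E a c := by
  rw [← D.Φ_mul h.inv, h.sq]

theorem Idem.tau (h : D.Idem E) (htr : D.Φ E 0 0 + D.Φ E 1 1 = 1) {M : Matrix α α ℚ} (hM : Inv G M) (h0 : D.lam M = 0) :
    D.Φ M 0 0 = (D.Φ M 0 0 + D.Φ M 1 1) * D.Φ E 1 1 ∧ D.Φ M 0 1 = -(D.Φ M 0 0 + D.Φ M 1 1) * D.Φ E 0 1 ∧
    D.Φ M 1 0 = -(D.Φ M 0 0 + D.Φ M 1 1) * D.Φ E 1 0 ∧ D.Φ M 1 1 = (D.Φ M 0 0 + D.Φ M 1 1) * D.Φ E 0 0 := by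
  have h1 : M * E = 0 := by rw [h.mul M hM, h0, zero_smul]
  have h2 : E * M = 0 := by
    have := h.mul _ hM.transpose
    rw [D.lam_transpose hM, h0, zero_smul] at this
    rw [← Matrix.transpose_transpose (E * M), Matrix.transpose_mul, h.sym, this, Matrix.transpose_zero]
  have z : ∀ a b, D.Φ 0 a b = 0 := fun a b => ext_R fun x => by simp
  have a := fun a b => (D.Φ_mul (M := M) h.inv a b).symm.trans (h1 ▸ z a b)
  have b := fun a b => (D.Φ_mul (M := E) hM a b).symm.trans (h2 ▸ z a b)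
  refine ⟨?_, ?_, ?_, ?_⟩
  · linear_combination a 0 0 - b 1 1 - D.Φ M 0 0 * htr
  · linear_combination a 0 1 + b 0 1 - D.Φ M 0 1 * htr
  · linear_combination a 1 0 + b 1 0 - D.Φ M 1 0 * htr
  · linear_combination b 1 1 - a 0 0 - D.Φ M 1 1 * htr

theorem Idem.sumsq (h : D.Idem E) (htr : D.Φ E 0 0 + D.Φ E 1 1 = 1) {M : Matrix α α ℚ} (hM : Inv G M)
    (h0 : D.lam M = 0) (u : α) :
    ∑ y, (M (D.e (0, 0)) (D.e (0, y)) + M (D.e (1, 0)) (D.e (1, y))) ^ 2 = 2 * ∑ w, M u w ^ 2 := by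
  obtain ⟨a1, a2, a3, a4⟩ := h.tau htr hM h0
  obtain ⟨b1, b2, b3, b4⟩ := h.tau htr hM.transpose (by rw [D.lam_transpose hM, h0])
  have key : D.Φ (M * M.transpose) 0 0 + D.Φ (M * M.transpose) 1 1 =
      (D.Φ M 0 0 + D.Φ M 1 1) * (D.Φ M.transpose 0 0 + D.Φ M.transpose 1 1) := by
    rw [D.Φ_mul hM.transpose, D.Φ_mul hM.transpose]
    generalize D.Φ M 0 0 + D.Φ M 1 1 = τ at a1 a2 a3 a4 ⊢
    generalize D.Φ M.transpose 0 0 + D.Φ M.transpose 1 1 = σ at b1 b2 b3 b4 ⊢
    rw [a1, a2, a3, a4, b1, b2, b3, b4]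
    linear_combination τ * σ * (h.ΦΦ 0 0 + h.ΦΦ 1 1 + htr)
  have k0 := congrArg (fun f : RR p => f.coeff 0) key
  have hd : ∀ u', (M * M.transpose) u' u' = ∑ w, M u w ^ 2 := fun u' => by
    rw [(hM.mul hM.transpose).diag u' u, Matrix.mul_apply]
    exact sum_congr rfl fun w _ => by rw [Matrix.transpose_apply, pow_two]
  simp only [coeff_mul', AddMonoidAlgebra.coeff_add, Finsupp.add_apply, coeff_Φ, hd, Matrix.transpose_apply] at k0
  rw [two_mul, k0]
  exact sum_congr rfl fun y _ => by rw [D.shift hM 0 0 (0 - y), D.shift hM 1 1 (0 - y), pow_two]; simp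

theorem Idem.diag (h : D.Idem E) (htr : D.Φ E 0 0 + D.Φ E 1 1 = 1) (u : α) : E u u = 1 / 2 := by
  have k0 := congrArg (fun f : RR p => f.coeff 0) htr
  simp only [AddMonoidAlgebra.coeff_add, Finsupp.add_apply, coeff_Φ, coeff_one', if_true] at k0
  rw [h.inv.diag _ u, h.inv.diag (D.e (1, 0)) u] at k0
  linarith

omit [IsPretransitive G α] in
theorem Idem.anti (htr : D.Φ E 0 0 + D.Φ E 1 1 = 1) {y : ZMod p} (hy : y ≠ 0) :
    E (D.e (0, 0)) (D.e (0, y)) + E (D.e (1, 0)) (D.e (1, y)) = 0 := by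
  have k0 := congrArg (fun f : RR p => f.coeff y) htr
  simpa only [AddMonoidAlgebra.coeff_add, Finsupp.add_apply, coeff_Φ, coeff_one', if_neg hy] using k0

omit [IsPretransitive G α] in
theorem Idem.ne_half [IsPreprimitive G α] (h : D.Idem E) (htr : D.Φ E 0 0 + D.Φ E 1 1 = 1) (u w : α) :
    E u w ≠ -1 / 2 := by
  classical
  intro huw
  have hd := h.diag htr
  have ne : ∀ {a b}, E a b = -1 / 2 → b ≠ a := by rintro a b e rfl; rw [hd] at e; norm_num at e
  have uq : ∀ a b c, E a b = -1 / 2 → E a c = -1 / 2 → b = c := fun a b c hb hc => by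
    by_contra hbc
    have h1 := congrFun (congrFun h.sq a) a
    rw [Matrix.mul_apply, hd] at h1
    have h2 : ∑ y ∈ {a, b, c}, E a y * E y a ≤ ∑ y, E a y * E y a :=
      sum_le_sum_of_subset_of_nonneg (subset_univ _) fun y _ _ => by rw [h.symm y a]; exact mul_self_nonneg _
    rw [sum_insert (by simp [(ne hb).symm, (ne hc).symm]), sum_pair hbc, h.symm b a, h.symm c a, hb, hc, hd] at h2
    linarith
  obtain ⟨g, hg⟩ := exists_smul_eq G u w
  have hall := H2.Pm.univ_of_valency_one (G := G) (ne huw) hg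
    (uq w _ _ (by rw [← huw, ← h.inv g u w, hg]) (by rw [h.symm, huw]))
    fun k hk => uq u _ _ (by rw [← huw, ← h.inv k u w, hk]) huw
  have d1 : D.e (0, 0) ≠ D.e (0, 1) := by simp
  have d2 : D.e (0, 0) ≠ D.e (1, 0) := by simp
  have d3 : D.e (0, 1) ≠ D.e (1, 0) := by simp
  rcases hall (D.e (0, 0)) with a | a <;> rcases hall (D.e (0, 1)) with b | b <;>
    rcases hall (D.e (1, 0)) with c | c <;>
    first | exact d1 (a.trans b.symm) | exact d2 (a.trans c.symm) | exact d3 (b.trans c.symm)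

end Dat

/-- orbital indicator matrices -/
def BB {Q : Type*} [DecidableEq Q] (cl : α → α → Q) (i : Q) : Matrix α α ℚ :=
  Matrix.of fun u w => if cl u w = i then 1 else 0

theorem core [IsPreprimitive G α] {D : Dat G α p} {E : Matrix α α ℚ} (h : D.Idem E)
    (htr : D.Φ E 0 0 + D.Φ E 1 1 = 1) {Q : Type*} [Fintype Q] [DecidableEq Q] (cl : α → α → Q)
    (hcl : ∀ u w u' w', cl u w = cl u' w' ↔ ∃ g : G, g • u = u' ∧ g • w = w') (a₀ : α)
    (hsur : ∀ i, ∃ w, cl a₀ w = i) :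
    ∃ i j : Q, i ≠ j ∧ i ≠ cl a₀ a₀ ∧ j ≠ cl a₀ a₀ ∧ (∀ q, q = cl a₀ a₀ ∨ q = i ∨ q = j) ∧ ∃ a : ℕ, 0 < a ∧
      p = 2 * a ^ 2 + 2 * a + 1 ∧ #{w | cl a₀ w = i} = a * (2 * a + 1) ∧ #{w | cl a₀ w = j} = (a + 1) * (2 * a + 1) := by
  classical
  obtain ⟨hev, hev0⟩ := exists_ev (p := p)
  set i₀ := cl a₀ a₀ with hi₀
  have hB : ∀ i u w, BB cl i u w = if cl u w = i then 1 else 0 := fun _ _ _ => rfl
  have hinv : ∀ i, Inv G (BB cl i) := fun i g u w => by
    rw [hB, hB, (hcl u w (g • u) (g • w)).2 ⟨g, rfl, rfl⟩]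
  have h0 : ∀ u w, cl u w = i₀ ↔ u = w := fun u w => by
    rw [hcl]
    constructor
    · rintro ⟨g, a, b⟩; exact MulAction.injective g (a.trans b.symm)
    · rintro rfl; obtain ⟨g, hg⟩ := exists_smul_eq G u a₀; exact ⟨g, hg, hg⟩
  obtain ⟨k, hk⟩ : ∃ k : Q → ℕ, ∀ i, k i = #{w | cl a₀ w = i} := ⟨_, fun _ => rfl⟩
  have hk1 : ∀ i u, ∑ w, BB cl i u w = k i := fun i u => by
    rw [(hinv i).row u a₀, hk]; simp [hB]
  have hkpos : ∀ i, 0 < k i := fun i => by
    obtain ⟨w, hw⟩ := hsur i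
    rw [hk]; exact card_pos.2 ⟨w, by simpa using hw⟩
  obtain ⟨l, hl⟩ : ∃ l : Q → ℤ, ∀ i, D.lam (BB cl i) = l i :=
    ⟨fun i => #{x | cl (D.e (0, 0)) (D.e (0, x)) = i} - #{x | cl (D.e (0, 0)) (D.e (1, x)) = i}, fun i => by
      simp [Dat.lam, Dat.r_eq, hB]⟩
  have hc : ∀ u w, (k (cl u w) : ℚ) * E u w = l (cl u w) / 2 := fun u w => by
    have h1 := congrFun (congrFun (h.mul _ (hinv (cl u w))) u) u
    rw [Matrix.mul_apply, Matrix.smul_apply, h.diag htr, hl, smul_eq_mul] at h1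
    rw [← hk1 _ u, sum_mul, div_eq_mul_one_div, ← h1]
    refine sum_congr rfl fun y _ => ?_
    rw [hB]
    split_ifs with e
    · obtain ⟨g, a, b⟩ := (hcl _ _ _ _).1 e
      rw [h.symm y u, ← h.inv g u y, a, b]
    · simp
  have hone : Inv G (1 : Matrix α α ℚ) := fun g u w => by simp [Matrix.one_apply]
  have hB0 : BB cl i₀ = 1 := by ext u w; simp [hB, h0, Matrix.one_apply]
  have hl0 : l i₀ = 1 := by
    have := hl i₀
    rw [hB0] at this
    simp [Dat.lam, Dat.r_eq, Matrix.one_apply] at this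
    exact_mod_cast this.symm
  have hlam1 : D.lam 1 = 1 := by rw [← hB0, hl, hl0]; simp
  have hsuml : ∑ i, l i = 0 := by
    have : ∑ i, (l i : ℚ) = 0 := by
      simp only [← hl, Dat.lam, Dat.r_eq, sum_sub_distrib]
      rw [sum_comm, sum_comm (f := fun i x => BB cl i (D.e (0, 0)) (D.e (1, x)))]
      simp [hB]
    exact_mod_cast this
  have hsumk : ∑ i, k i = 2 * p := by
    have : ∑ i, (k i : ℚ) = 2 * p := by
      simp only [← hk1 _ a₀]
      rw [sum_comm]
      simp [hB, ← Fintype.card_congr D.e]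
    exact_mod_cast this
  have hk0 : k i₀ = 1 := by
    have := hk1 i₀ a₀
    rw [hB0] at this
    simp [Matrix.one_apply] at this
    exact_mod_cast this.symm
  obtain ⟨al, hal⟩ : ∃ al : ZMod p → Q, ∀ y, cl (D.e (0, 0)) (D.e (0, y)) = al y := ⟨_, fun _ => rfl⟩
  obtain ⟨be, hbe⟩ : ∃ be : ZMod p → Q, ∀ y, cl (D.e (1, 0)) (D.e (1, y)) = be y := ⟨_, fun _ => rfl⟩
  have hal0 : ∀ y, al y = i₀ ↔ y = 0 := fun y => by rw [← hal, h0]; simp [eq_comm]
  have hbe0 : ∀ y, be y = i₀ ↔ y = 0 := fun y => by rw [← hbe, h0]; simp [eq_comm]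
  obtain ⟨U, hU⟩ : ∃ U : Q → ZMod p → ℚ, ∀ i y, U i y = (if al y = i then 1 else 0) + (if be y = i then 1 else 0) :=
    ⟨_, fun _ _ => rfl⟩
  have F0 : ∀ i, 2 * D.r (BB cl i) 0 0 = k i + l i := fun i => by
    rw [← hk1 i a₀, D.row_eq (hinv i), ← hl, Dat.lam]; ring
  have F1 : ∀ i, ∑ y, U i y = k i + l i := fun i => by
    rw [← F0, two_mul]
    nth_rewrite 2 [← (D.r_symm (hinv i)).2]
    simp only [hU, sum_add_distrib, Dat.r_eq, hB, hal, hbe]
  have hMi : ∀ i, Inv G (BB cl i - (l i : ℚ) • 1) := fun i g u w => by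
    simp only [Matrix.sub_apply, Matrix.smul_apply, hinv i g, hone g]
  have hM0 : ∀ i, D.lam (BB cl i - (l i : ℚ) • 1) = 0 := fun i => by
    have e1 := hl i
    have e2 := hlam1
    simp only [Dat.lam, Dat.r_eq, Matrix.sub_apply, Matrix.smul_apply, smul_eq_mul, sum_sub_distrib, ← mul_sum] at e1 e2 ⊢
    linear_combination e1 - l i * e2
  have F2 : ∀ i, i ≠ i₀ → ∑ y, U i y ^ 2 = 2 * k i - 2 * l i ^ 2 := fun i hi => by
    have e := h.sumsq htr (hMi i) (hM0 i) a₀
    have e1 : ∀ y, ((BB cl i - (l i : ℚ) • (1 : Matrix α α ℚ)) (D.e (0, 0)) (D.e (0, y)) +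
        (BB cl i - (l i : ℚ) • (1 : Matrix α α ℚ)) (D.e (1, 0)) (D.e (1, y))) ^ 2 =
        U i y ^ 2 + if y = 0 then 4 * (l i : ℚ) ^ 2 else 0 := fun y => by
      simp only [Matrix.sub_apply, Matrix.smul_apply, hB, hal, hbe, hU, Matrix.one_apply, smul_eq_mul]
      by_cases hy : y = 0
      · subst hy
        simp [(hal0 0).2 rfl, (hbe0 0).2 rfl, hi.symm]; ring
      · simp [hy, Ne.symm hy]
    have e2 : ∀ w, (BB cl i - (l i : ℚ) • (1 : Matrix α α ℚ)) a₀ w ^ 2 =
        BB cl i a₀ w + if a₀ = w then (l i : ℚ) ^ 2 else 0 := fun w => by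
      simp only [Matrix.sub_apply, Matrix.smul_apply, hB, Matrix.one_apply, smul_eq_mul]
      by_cases hw : a₀ = w
      · subst hw; simp [← hi₀, hi.symm]
      · simp [hw]
    simp only [e1, e2, sum_add_distrib, hk1, sum_ite_eq, sum_ite_eq', mem_univ, if_true] at e
    linarith
  have F3 : ∀ i, i ≠ i₀ → (k i : ℚ) + l i ≤ 2 * k i - 2 * l i ^ 2 := fun i hi => by
    rw [← F1, ← F2 i hi]
    exact sum_le_sum fun y _ => by rw [hU]; split_ifs <;> norm_num
  have F4 : ∀ i, i ≠ i₀ → (k i : ℚ) + l i ≠ 0 := fun i hi e => by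
    have e1 := F3 i hi
    have e2 : (k i : ℤ) + l i = 0 := by exact_mod_cast e
    have e3 : (k i : ℤ) + l i ≤ 2 * k i - 2 * l i ^ 2 := by exact_mod_cast e1
    have e4 := hkpos i
    have e5 : l i = -1 := by nlinarith
    obtain ⟨w, rfl⟩ := hsur i
    have := hc a₀ w
    rw [e5, show k (cl a₀ w) = 1 by omega] at this
    exact h.ne_half htr a₀ w (by simpa using this)
  have hcc : ∀ u w u' w', cl u w = cl u' w' → E u w = E u' w' := fun u w u' w' e => by
    obtain ⟨g, a, b⟩ := (hcl _ _ _ _).1 e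
    rw [← h.inv g u w, a, b]
  have F5 : ∀ i, i ≠ i₀ → l i ≠ 0 := fun i hi e => by
    have e1 := F1 i
    have e2 := F2 i hi
    rw [e] at e1 e2
    have e3 : ∑ y, (2 * U i y - U i y ^ 2) = 0 := by
      rw [sum_sub_distrib, ← mul_sum, e1, e2]; simp
    rw [sum_eq_zero_iff_of_nonneg fun y _ => by rw [hU]; split_ifs <;> norm_num] at e3
    have e4 : D.Φ (BB cl i) 0 0 = D.Φ (BB cl i) 1 1 := ext_R fun y => by
      have := e3 y (mem_univ _)
      rw [hU] at this
      simp only [Dat.coeff_Φ, hB, hal, hbe]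
      split_ifs at this ⊢ <;> first | rfl | norm_num at this
    have e5 := (h.tau htr (hinv i) (by rw [hl, e]; simp)).2.2.2
    rw [← e4] at e5
    have e6 : hev (D.Φ (BB cl i) 0 0) * hev (1 - 2 * D.Φ E 0 0) = 0 := by
      rw [← map_mul, ← map_zero hev]; congr 1; linear_combination e5
    rcases mul_eq_zero.1 e6 with e7 | e7
    · have := hev0 _ e7 0
      rw [Dat.coeff_Φ, hB, hal, (hal0 0).2 rfl, if_neg hi.symm] at this
      exact F4 i hi (by rw [← F0, Dat.r, ← this]; simp)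
    · have e8 : ∀ y, y ≠ 0 → E (D.e (0, 0)) (D.e (0, y)) = 0 := fun y hy => by
        have := hev0 _ e7 y
        rw [map_sub, map_mul, map_one, map_ofNat, ← Dat.r, h.r0, two_mul, AddMonoidAlgebra.coeff_sub,
          AddMonoidAlgebra.coeff_add] at this
        simp only [Finsupp.sub_apply, Finsupp.add_apply, coeff_one', if_neg hy, Dat.coeff_Φ] at this
        have hp0 : (p : ℚ) ≠ 0 := by exact_mod_cast hp.out.ne_zero
        have := (mul_eq_zero.1 (this.trans (by norm_num))).resolve_left hp0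
        linarith
      have e9 : ∀ y, E (D.e (0, 0)) (D.e (1, y)) = 0 := fun y => by
        have hj : cl (D.e (0, 0)) (D.e (1, y)) ≠ i₀ := by simp [h0]
        obtain ⟨z, -, hz⟩ := exists_ne_zero_of_sum_ne_zero ((F1 _).trans_ne (F4 _ hj))
        rw [hU] at hz
        by_cases a : al z = cl (D.e (0, 0)) (D.e (1, y))
        · rw [← hcc _ _ _ _ ((hal z).trans a)]
          exact e8 z fun e => hj (by rw [← a, hal0, e])
        · have b : be z = cl (D.e (0, 0)) (D.e (1, y)) := by by_contra b; simp [a, b] at hz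
          have hz0 : z ≠ 0 := fun e => hj (by rw [← b, hbe0, e])
          have := Dat.Idem.anti htr hz0
          rw [e8 z hz0, zero_add] at this
          rw [← hcc _ _ _ _ ((hbe z).trans b), this]
      have := h.r1
      rw [Dat.r_eq] at this
      norm_num [e9] at this
  have hkq : ∀ i, (k i : ℚ) ≠ 0 := fun i => by exact_mod_cast (hkpos i).ne'
  have F6 : ∀ y, y ≠ 0 → al y ≠ be y := fun y hy e => by
    have e1 := Dat.Idem.anti htr hy
    rw [← hcc _ _ _ _ ((hal y).trans (e.trans (hbe y).symm))] at e1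
    have e2 := hc (D.e (0, 0)) (D.e (0, y))
    rw [show E (D.e (0, 0)) (D.e (0, y)) = 0 by linarith, hal] at e2
    exact F5 (al y) (by simpa [hal0] using hy) (by exact_mod_cast (show (l (al y) : ℚ) = 0 by linarith))
  have F7 : ∀ i, i ≠ i₀ → (k i : ℚ) = l i * (2 * l i + 1) := fun i hi => by
    have : ∑ y, U i y ^ 2 = ∑ y, U i y := sum_congr rfl fun y _ => by
      rw [hU]
      split_ifs with a b b
      · exact absurd (a.trans b.symm) (F6 y fun e => hi (by rw [← a, hal0, e]))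
      all_goals norm_num
    rw [F1, F2 i hi] at this
    linarith
  have F8 : ∀ u w, u ≠ w → 2 * (2 * (l (cl u w) : ℚ) + 1) * E u w = 1 := fun u w huw => by
    have hi : cl u w ≠ i₀ := by simpa [h0] using huw
    have e := hc u w
    rw [F7 _ hi] at e
    have : (l (cl u w) : ℚ) ≠ 0 := by exact_mod_cast F5 _ hi
    apply mul_left_cancel₀ this
    linear_combination 2 * e
  have F9 : ∀ y, y ≠ 0 → (l (be y) : ℚ) = -1 - l (al y) := fun y hy => by
    have e1 := F8 (D.e (0, 0)) (D.e (0, y)) (by simpa using hy.symm)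
    have e2 := F8 (D.e (1, 0)) (D.e (1, y)) (by simpa using hy.symm)
    have e3 := Dat.Idem.anti htr hy
    rw [hal] at e1
    rw [hbe] at e2
    linear_combination (-(2 * (l (be y) : ℚ) + 1) / 2) * e1 - ((2 * (l (al y) : ℚ) + 1) / 2) * e2 +
      (2 * (l (al y) : ℚ) + 1) * (2 * (l (be y) : ℚ) + 1) * e3
  have G1 : ∑ i ∈ univ.erase i₀, (2 * (l i : ℚ) + 1) = 0 := by
    have e1 : ∀ i ∈ univ.erase i₀, (2 * (l i : ℚ) + 1) =
        ∑ y, U i y * if i = i₀ then 0 else (2 * (l i : ℚ) + 1) / (k i + l i) := fun i hi => by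
      have hi := ne_of_mem_erase hi
      rw [← sum_mul, F1, if_neg hi, mul_div_cancel₀ _ (F4 i hi)]
    rw [sum_congr rfl e1, sum_erase _ (by simp), sum_comm]
    refine sum_eq_zero fun y _ => ?_
    simp only [hU, add_mul, sum_add_distrib, ite_mul, one_mul, zero_mul, sum_ite_eq, mem_univ, if_true, hal0, hbe0]
    split_ifs with hy
    · simp
    · rw [F7 _ (by simpa [hal0] using hy), F7 (be y) (by simpa [hbe0] using hy), F9 y hy]
      rw [show (-1 - (l (al y) : ℚ)) * (2 * (-1 - l (al y)) + 1) + (-1 - l (al y)) =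
        l (al y) * (2 * l (al y) + 1) + l (al y) by ring]
      ring
  have G2 : #(univ.erase i₀) = 2 := by
    have e1 : ∑ i ∈ univ.erase i₀, (l i : ℚ) = -1 := by
      have := add_sum_erase univ l (mem_univ i₀)
      rw [hsuml, hl0] at this
      exact_mod_cast (show ∑ i ∈ univ.erase i₀, l i = -1 by omega)
    rw [sum_add_distrib, ← mul_sum, e1] at G1
    simp only [sum_const, nsmul_eq_mul, mul_one] at G1
    exact_mod_cast (show (#(univ.erase i₀) : ℚ) = 2 by linarith)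
  have h1 : (1 : ZMod p) ≠ 0 := one_ne_zero
  have ha1 : al 1 ≠ i₀ := by simp [hal0]
  have hb1 : be 1 ≠ i₀ := by simp [hbe0]
  have G3 : ({al 1, be 1} : Finset Q) = univ.erase i₀ :=
    eq_of_subset_of_card_le (by simp [insert_subset_iff, ha1, hb1]) (by rw [G2, card_pair (F6 1 h1)])
  have G4 : ∀ q, q = i₀ ∨ q = al 1 ∨ q = be 1 := fun q => by
    by_cases hq : q = i₀
    · exact .inl hq
    · have : q ∈ univ.erase i₀ := by simp [hq]
      rw [← G3] at this
      exact .inr (by simpa using this)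
  have G5 : (1 : ℤ) + k (al 1) + k (be 1) = 2 * p := by
    rw [← add_sum_erase univ k (mem_univ i₀), ← G3, sum_pair (F6 1 h1), hk0] at hsumk
    exact_mod_cast (show 1 + k (al 1) + k (be 1) = 2 * p by omega)
  have H1 : (k (al 1) : ℤ) = l (al 1) * (2 * l (al 1) + 1) := by exact_mod_cast F7 _ ha1
  have H2 : (k (be 1) : ℤ) = l (be 1) * (2 * l (be 1) + 1) := by exact_mod_cast F7 _ hb1
  have H3 : l (be 1) = -1 - l (al 1) := by exact_mod_cast F9 1 h1
  have H4 := F5 _ ha1
  have H5 := F5 _ hb1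
  simp only [← hk]
  rcases lt_or_gt_of_ne H4 with e | e
  · obtain ⟨a, ha⟩ := Int.eq_ofNat_of_zero_le (show 0 ≤ l (be 1) by omega)
    rw [show l (al 1) = -1 - a by omega] at H1
    rw [ha] at H2
    refine ⟨be 1, al 1, (F6 1 h1).symm, hb1, ha1, fun q => by have := G4 q; tauto, a, by omega, ?_, ?_, ?_⟩ <;>
      zify <;> nlinarith
  · obtain ⟨a, ha⟩ := Int.eq_ofNat_of_zero_le e.le
    rw [show l (be 1) = -1 - a by omega] at H2
    rw [ha] at H1
    refine ⟨al 1, be 1, F6 1 h1, ha1, hb1, G4, a, by omega, ?_, ?_, ?_⟩ <;> zify <;> nlinarith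

theorem trace_one [IsPreprimitive G α] {D : Dat G α p} {E : Matrix α α ℚ} (h : D.Idem E)
    (h2 : ¬IsMultiplyPretransitive G α 2) : D.Φ E 0 0 + D.Φ E 1 1 = 1 := by
  classical
  obtain ⟨ev, hev⟩ := exists_ev (p := p)
  have hp0 : (p : ℚ) ≠ 0 := by exact_mod_cast hp.out.ne_zero
  obtain ⟨r10, r11⟩ := D.r_symm h.inv
  rw [h.r1] at r10
  rw [h.r0] at r11
  have hr : ∀ a b : Fin 2, D.r E a b = if a = b then 1 / 2 else -1 / 2 := fun a b => by
    fin_cases a <;> fin_cases b <;> simp [h.r0, h.r1, r10, r11]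
  have q := fun a c => congrArg ev (h.ΦΦ a c)
  simp only [map_add, map_mul] at q
  by_cases ht : ev (D.Φ E 0 0) + ev (D.Φ E 1 1) = 1
  · rw [← sub_eq_zero]
    refine ext_R fun y => ?_
    have := hev (D.Φ E 0 0 + D.Φ E 1 1 - 1) (by simp [ht]) y
    rw [map_sub, map_add, ← Dat.r, ← Dat.r, h.r0, r11, map_one] at this
    exact (mul_eq_zero.1 (this.trans (by norm_num))).resolve_left hp0
  exfalso
  have ht' := sub_ne_zero.2 ht
  have b0 : ev (D.Φ E 0 1) = 0 := (mul_eq_zero.1 (by linear_combination q 0 1)).resolve_right ht'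
  have c0 : ev (D.Φ E 1 0) = 0 := (mul_eq_zero.1 (by linear_combination q 1 0)).resolve_right ht'
  have a0 := q 0 0
  have d0 := q 1 1
  rw [b0] at a0 d0
  have a1 : ev (D.Φ E 0 0) = 0 ∨ ev (D.Φ E 0 0) = 1 :=
    (mul_eq_zero.1 (show ev (D.Φ E 0 0) * (ev (D.Φ E 0 0) - 1) = 0 by linear_combination a0)).imp_right sub_eq_zero.1
  have d1 : ev (D.Φ E 1 1) = ev (D.Φ E 0 0) := by
    rcases (mul_eq_zero.1 (show ev (D.Φ E 1 1) * (ev (D.Φ E 1 1) - 1) = 0 by linear_combination d0)).imp_right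
      sub_eq_zero.1 with e | e <;> rcases a1 with e' | e' <;> simp_all
  rcases a1 with a1 | a1
  · have hall : ∀ a b, ev (D.Φ E a b) = 0 := fun a b => by
      fin_cases a <;> fin_cases b <;> simp [a1, b0, c0, d1]
    have hE : ∀ a b x y, p * E (D.e (a, x)) (D.e (b, y)) = if a = b then 1 / 2 else -1 / 2 := fun a b x y => by
      rw [D.shift h.inv, ← hr]; exact hev _ (hall a b) _
    rcases H2.Pm.prim_block (G := G) (B := {u | (D.e.symm u).1 = 0}) (fun g x hx hgx y hy => by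
      obtain ⟨⟨a, x'⟩, e1⟩ := D.e.surjective (g • x)
      obtain ⟨⟨b, y'⟩, e2⟩ := D.e.surjective (g • y)
      obtain ⟨⟨a', x⟩, rfl⟩ := D.e.surjective x
      obtain ⟨⟨b', y⟩, rfl⟩ := D.e.surjective y
      simp only [← e1, ← e2, Set.mem_setOf_eq, Equiv.symm_apply_apply] at hx hgx hy ⊢
      subst hx hgx hy
      have := hE 0 b x' y'
      rw [e1, e2, h.inv g, hE] at this
      by_contra hb
      rw [if_pos rfl, if_neg (Ne.symm hb)] at this
      norm_num at this) with e | e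
    · simpa using e (x := D.e (0, 0)) (y := D.e (0, 1)) (by simp) (by simp)
    · simpa using e.ge (Set.mem_univ (D.e (1, 0)))
  · have hE : ∀ u w, u ≠ w → p * E u w = -1 / 2 := fun u w huw => by
      obtain ⟨⟨a, x⟩, rfl⟩ := D.e.surjective u
      obtain ⟨⟨b, y⟩, rfl⟩ := D.e.surjective w
      rw [D.shift h.inv]
      by_cases hab : a = b
      · subst hab
        have hy : y - x ≠ 0 := fun e => huw (by rw [sub_eq_zero.1 e])
        have := hev (D.Φ E a a - 1) (by fin_cases a <;> simp [a1, d1]) (y - x)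
        rw [map_sub aug, map_one, ← Dat.r, hr, AddMonoidAlgebra.coeff_sub, Finsupp.sub_apply, coeff_one', if_neg hy,
          Dat.coeff_Φ] at this
        norm_num at this ⊢
        exact this
      · have := hev (D.Φ E a b) (by fin_cases a <;> fin_cases b <;> simp_all) (y - x)
        rwa [← Dat.r, hr, if_neg hab] at this
    have hd : ∀ u, p * E u u = p - 1 / 2 := fun u => by
      have := hev (D.Φ E 0 0 - 1) (by simp [a1]) 0
      rw [map_sub, map_one, ← Dat.r, h.r0, AddMonoidAlgebra.coeff_sub, Finsupp.sub_apply, coeff_one', if_pos rfl,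
        Dat.coeff_Φ, h.inv.diag _ u] at this
      linarith
    have key : ∀ M : Matrix α α ℚ, Inv G M → ∀ u w, u ≠ w → p * M u w = (∑ y, M u y - D.lam M) / 2 := fun M hM u w huw => by
      have e := congrFun (congrFun (h.mul M hM) u) w
      rw [Matrix.mul_apply, Matrix.smul_apply, smul_eq_mul] at e
      have e1 : ∀ y, p * (M u y * E y w) = (if y = w then p * M u w else 0) - M u y / 2 := fun y => by
        split_ifs with hy
        · subst hy; linear_combination M u y * hd y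
        · linear_combination M u y * hE y w hy
      have e2 := congrArg ((p : ℚ) * ·) e
      simp only [mul_sum, e1, sum_sub_distrib, sum_ite_eq', mem_univ, if_true, ← sum_div] at e2
      linear_combination e2 + D.lam M * hE u w huw
    refine h2 (is_two_pretransitive_iff.2 fun {a b c d} hab hcd => ?_)
    let M : Matrix α α ℚ := Matrix.of fun u w => if ∃ g : G, g • a = u ∧ g • b = w then 1 else 0
    have hM : Inv G M := fun g u w => by
      simp only [M, Matrix.of_apply]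
      refine if_congr ⟨?_, ?_⟩ rfl rfl
      · rintro ⟨k, e1, e2⟩
        exact ⟨g⁻¹ * k, by simp [mul_smul, e1], by simp [mul_smul, e2]⟩
      · rintro ⟨k, rfl, rfl⟩
        exact ⟨g * k, mul_smul _ _ _, mul_smul _ _ _⟩
    have e := (key M hM a b hab).trans (((hM.row a c) ▸ key M hM c d hcd).symm)
    have e := mul_left_cancel₀ hp0 e
    simp only [M, Matrix.of_apply] at e
    rw [if_pos ⟨1, one_smul _ _, one_smul _ _⟩] at e
    by_contra hn
    rw [if_neg hn] at e
    exact one_ne_zero e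

theorem exists_dat (hα : Fintype.card α = 2 * p) {t : G} (ho : orderOf t = p) (ht : ∀ u : α, t • u ≠ u) :
    Nonempty (Dat G α p) := by
  classical
  let φ : ZMod p → G := fun x => t ^ x.val
  have hadd : ∀ x y, φ (x + y) = φ x * φ y := fun x y => by
    simp only [φ]; rw [ZMod.val_add, ← pow_add, ← pow_mod_orderOf t (x.val + y.val), ho]
  have h0 : φ 0 = 1 := by simp [φ]
  have h1 : φ 1 = t := by simp [φ, ZMod.val_one]
  have hsub : ∀ x y (u w : α), φ x • u = φ y • w → φ (-y + x) • u = w := fun x y u w e => by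
    rw [hadd, mul_smul, e, ← mul_smul, ← hadd, neg_add_cancel, h0, one_smul]
  have hfix : ∀ x (u : α), φ x • u = u → x = 0 := fun x u e => by
    by_contra hx
    obtain ⟨m, hm⟩ := exists_pow_eq_self_of_coprime (x := t) (n := x.val) (by
      rw [ho]; exact (Nat.coprime_of_lt_prime (by simpa using hx) (ZMod.val_lt x) hp.out).symm)
    exact ht u (hm ▸ (stabilizer G u).pow_mem e m)
  have hpos := hp.out.pos
  obtain ⟨γ⟩ : Nonempty α := Fintype.card_pos_iff.1 (by omega)
  obtain ⟨δ, -, hδ⟩ : ∃ δ ∈ (univ : Finset α), δ ∉ univ.image fun x => φ x • γ :=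
    exists_mem_notMem_of_card_lt_card (card_image_le.trans_lt (by simp [hα]; omega))
  simp only [mem_image, mem_univ, true_and, not_exists] at hδ
  let f : Fin 2 × ZMod p → α := fun x => φ x.2 • if x.1 = 0 then γ else δ
  have hf : Function.Injective f := by
    rintro ⟨a, x⟩ ⟨b, y⟩ e
    have e1 := hsub _ _ _ _ e
    have e2 := hsub _ _ _ _ e.symm
    fin_cases a <;> fin_cases b
    · exact Prod.ext rfl (neg_add_eq_zero.1 (hfix _ _ e1)).symm
    · exact absurd e1 (hδ _)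
    · exact absurd e2 (hδ _)
    · exact Prod.ext rfl (neg_add_eq_zero.1 (hfix _ _ e1)).symm
  refine ⟨⟨Equiv.ofBijective f ((Fintype.bijective_iff_injective_and_card f).2 ⟨hf, by simp [hα]⟩), t, fun a x => ?_⟩⟩
  simp only [Equiv.ofBijective_apply, f]
  rw [add_comm, hadd, h1, mul_smul]

theorem exists_cl [IsPretransitive G α] (a₀ : α) : ∃ cl : α → α → orbitRel.Quotient (stabilizer G a₀) α,
    (∀ u w u' w', cl u w = cl u' w' ↔ ∃ g : G, g • u = u' ∧ g • w = w') ∧ ∀ w, cl a₀ w = Quotient.mk _ w := by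
  choose s hs using fun u => exists_smul_eq G u a₀
  refine ⟨fun u w => Quotient.mk _ (s u • w), fun u w u' w' => ?_, fun w => Quotient.sound ⟨⟨s a₀, hs a₀⟩, rfl⟩⟩
  rw [Quotient.eq]
  constructor
  · rintro ⟨⟨k, hk⟩, e⟩
    refine ⟨(s u')⁻¹ * k⁻¹ * s u, ?_, ?_⟩
    · rw [mul_smul, hs, mul_smul, (stabilizer G a₀).inv_mem hk, inv_smul_eq_iff, hs]
    · rw [mul_smul, ← e]; simp [mul_smul, Subgroup.smul_def]
  · rintro ⟨g, rfl, rfl⟩
    refine ⟨⟨s u * g⁻¹ * (s (g • u))⁻¹, ?_⟩, by simp [mul_smul, Subgroup.smul_def]⟩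
    rw [mem_stabilizer_iff, mul_smul, mul_smul, inv_smul_eq_iff.2 (hs (g • u)).symm, inv_smul_smul, hs]

end Cfsg.Agent.H25.W2
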