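import Cfsg.Agent.H25.OrderType
import Cfsg.Agent.H25.Misc1
import Cfsg.Agent.H26.Frob2
import Cfsg.Agent.H1.ThompsonFPF
import Cfsg.Agent.H3.SylowIn
import Cfsg.Agent.H2.Schmidt
import Cfsg.Agent.H4.Burnside
import Cfsg.Agent.S3742
import Cfsg.Agent.S0044

/-! Order type of Frobenius groups. -/

set_option autoImplicit false

namespace Cfsg.Agent.H25
open Cfsg Subgroup
open scoped commutatorElement Pointwise

universe u v

variable {G : Type u} [Group G] [Finite G]

theorem le_centralizer_of_rank_one_two {p : ℕ} [hp : Fact p.Prime] (h5 : 5 ≤ p) {P Q : Subgroup G}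
    (hP : IsPGroup p P) (hPQ : P ≤ normalizer (Q : Set G)) (hQ : IsPGroup 2 Q)
    (huniq : ∀ x y : Q, orderOf x = 2 → y ^ 2 = 1 → y ∈ zpowers x) :
    P ≤ centralizer (Q : Set G) := by
  have hcyc : ∀ A : Subgroup G, A ≤ Q → IsCyclic A → P ≤ normalizer (A : Set G) →
      P ≤ centralizer (A : Set G) := fun A hA _ h =>
    le_centralizer_of_isCyclic_of_lt hP h (fun r hr hd => by
      obtain ⟨k, hk⟩ := (hQ.to_le hA).exists_card_eq
      rw [hk] at hd
      have := (Nat.prime_dvd_prime_iff_eq hr Nat.prime_two).1 (hr.dvd_of_dvd_pow hd)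
      omega)
  by_cases h8 : Nat.card Q = 8
  · rcases H1.isCyclic_or_quaternion hQ huniq with h | ⟨-, n, hn, ⟨e⟩⟩
    · exact hcyc Q le_rfl h hPQ
    have h1 : n = 1 := by
      have := Nat.card_congr e.toEquiv
      rw [h8, Nat.card_eq_fintype_card, QuaternionGroup.card] at this
      exact Nat.pow_right_injective le_rfl (by omega : 2 ^ n = 2 ^ 1)
    subst h1
    obtain ⟨e2⟩ := Cfsg.Agent.S3742.result
    have hc : Nat.card (MulAut Q) = 24 := by
      rw [Nat.card_congr ((MulAut.congr e).trans e2).toEquiv, Nat.card_eq_fintype_card]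
      rfl
    intro x hx q hq
    obtain ⟨k, hk⟩ := hP ⟨x, hx⟩
    have h2 : H1.conjHom hPQ ⟨x, hx⟩ = 1 := by
      rw [← orderOf_eq_one_iff]
      refine Nat.eq_one_of_dvd_coprimes (Nat.Coprime.pow_left k
        ((Nat.Prime.coprime_iff_not_dvd hp.out).2 fun h => ?_)) (orderOf_dvd_of_pow_eq_one (by
          rw [← map_pow, hk, map_one])) (hc ▸ _root_.orderOf_dvd_natCard _)
      have h3 : p ∣ 2 ^ 3 * 3 := h
      rcases (Nat.Prime.dvd_mul hp.out).1 h3 with h | h
      · have := Nat.le_of_dvd two_pos (hp.out.dvd_of_dvd_pow h); omega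
      · have := Nat.le_of_dvd three_pos h; omega
    exact (H1.conjHom_eq_self_iff hPQ ⟨x, hx⟩ ⟨q, hq⟩).1 (by rw [h2]; rfl)
  rcases H1.isCyclic_or_quaternion_gens hQ huniq with h | ⟨-, n, a, b, hn, ha, hb, hab, hbb, hgen⟩
  · exact hcyc Q le_rfl h hPQ
  have hidx : (zpowers a).index = 2 := by
    rw [index_eq_two_iff']
    refine ⟨b⁻¹, fun c => ?_⟩
    by_cases h : c ∈ zpowers a
    · refine Or.inr ⟨h, fun h' => hb ?_⟩
      exact inv_mem_iff.1 (((zpowers a).mul_mem_cancel_right h).1 h')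
    · exact Or.inl ⟨hgen c h, h⟩
  have hn2 : 2 ≤ n := by
    by_contra hc
    obtain rfl : n = 1 := by omega
    apply h8
    rw [← (zpowers a).card_mul_index, hidx, Nat.card_zpowers, ha]; rfl
  have h4 : ∀ c : Q, c ∉ zpowers a → c ^ 4 = 1 := by
    intro c hc
    obtain ⟨i, hi⟩ := hgen c hc
    have h1 : c = b * a ^ i := by simp only at hi; rw [hi]; group
    have h2 : b * a ^ i * b⁻¹ = (a ^ i)⁻¹ := by rw [← conj_zpow, hab, inv_zpow]
    have h3 : c ^ 2 = b * b := by
      rw [h1, sq]
      calc b * a ^ i * (b * a ^ i) = b * a ^ i * b⁻¹ * (b * b) * a ^ i := by group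
        _ = b * b := by rw [h2, hbb, ← zpow_natCast]; group
    rw [show 4 = 2 * 2 from rfl, pow_mul, h3, hbb, ← pow_mul, mul_comm, ← ha, pow_orderOf_eq_one]
  have hm : ∀ c : Q, c ∈ zpowers a ↔ (c : G) ∈ zpowers (a : G) := fun c =>
    ⟨fun ⟨i, hi⟩ => ⟨i, congrArg Subtype.val hi⟩, fun ⟨i, hi⟩ => ⟨i, Subtype.ext hi⟩⟩
  have hA : P ≤ normalizer ((zpowers (a : G) : Subgroup G) : Set G) := by
    intro g hg
    apply H3.mem_normalizer_of_conj_mem
    rintro _ ⟨i, rfl⟩
    simp only
    rw [← conj_zpow]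
    refine zpow_mem ((hm ⟨_, H1.conj_mem_of_le_normalizer hPQ hg a.2⟩).1 ?_) i
    by_contra hc
    have h1 : (g * a * g⁻¹) ^ 4 = 1 := congrArg Subtype.val (h4 _ hc)
    rw [conj_pow, mul_inv_eq_one, mul_eq_left, ← orderOf_dvd_iff_pow_eq_one, orderOf_coe, ha] at h1
    have h2 := Nat.le_of_dvd (by norm_num) h1
    have h3 := Nat.pow_le_pow_right two_pos hn2
    omega
  refine H1.le_centralizer_of_commutator_le (N := zpowers (a : G)) ?_ ?_
    (hcyc _ (zpowers_le.2 a.2) inferInstance hA)
  · exact H2.coprime_card_of_isPGroup_of_ne (q := 2) (by omega) hP (hQ.to_le (zpowers_le.2 a.2))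
  · rw [commutator_le]
    intro c hc g hg
    have h1 : ⁅c, g⁆ = (((⟨c, hc⟩ : Q) * ⟨_, H1.conj_mem_of_le_normalizer hPQ hg (inv_mem hc)⟩ : Q) : G) := by
      simp [commutatorElement_def, mul_assoc]
    rw [h1, ← hm, mul_mem_iff_of_index_two hidx, hm, hm]
    show c ∈ _ ↔ g * c⁻¹ * g⁻¹ ∈ _
    rw [← mem_normalizer_iff.1 (hA hg), inv_mem_iff]

/-- solvable groups whose abelian subgroups of prime power order are cyclic -/
def RankOneSolv (G : Type u) [Group G] : Prop :=
  Group.IsSolvable G ∧ ∀ r : ℕ, r.Prime → ∀ A : Subgroup G, IsPGroup r A → IsMulCommutative A →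
    IsCyclic A

theorem RankOneSolv.uniq (h : RankOneSolv G) {r : ℕ} [hr : Fact r.Prime] {R : Subgroup G}
    (hR : IsPGroup r R) (x y : R) (hx : orderOf x = r) (hy : y ^ r = 1) : y ∈ zpowers x := by
  refine H1.unique_order_p_of_forall_abelian_isCyclic hR (fun A hA => ?_) x y hx hy
  have := h.2 r hr.out (A.map R.subtype) (hR.to_le (map_subtype_le _)) inferInstance
  exact isCyclic_of_surjective _ (A.equivMapOfInjective _ R.subtype_injective).symm.surjective

theorem RankOneSolv.sylow_normal (h : RankOneSolv G) {p : ℕ} [hp : Fact p.Prime] (h5 : 5 ≤ p)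
    (hmax : ∀ r : ℕ, r.Prime → r ∣ Nat.card G → r ≤ p) (P : Sylow p G) :
    (P : Subgroup G).Normal := by
  have hcyc : IsCyclic (P : Subgroup G) := by
    rcases H1.isCyclic_or_quaternion P.isPGroup' (h.uniq P.isPGroup') with h | ⟨h, -⟩
    · exact h
    · omega
  haveI := h.1
  have h1 : (P : Subgroup G) ≤ centralizer (fittingSubgroup G : Set G) := by
    rw [le_centralizer_iff, H1.fittingSubgroup_eq_iSup_pCore]
    refine iSup_le fun r => ?_
    haveI := Fact.mk r.2
    have hn : (P : Subgroup G) ≤ normalizer (pCore (r : ℕ) G : Set G) := by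
      rw [normalizer_eq_top]; exact le_top
    by_cases hrp : (r : ℕ) = p
    · rw [hrp]
      exact (H1.pCore_le_sylow P).trans (le_centralizer_iff_isMulCommutative.2 inferInstance)
    rw [← le_centralizer_iff]
    have hR := H1.isPGroup_pCore (r : ℕ) G
    rcases H1.isCyclic_or_quaternion hR (h.uniq hR) with hc | ⟨h2, -⟩
    · refine le_centralizer_of_isCyclic_of_lt P.isPGroup' hn (fun q hq hd => ?_)
      have h3 := hmax q hq (hd.trans (card_subgroup_dvd_card _))
      obtain ⟨k, hk⟩ := hR.exists_card_eq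
      rw [hk] at hd
      have := (Nat.prime_dvd_prime_iff_eq hq r.2).1 (hq.dvd_of_dvd_pow hd)
      omega
    · have hR' := hR
      have hu := h.uniq hR
      rw [h2] at hR' hu hn ⊢
      exact le_centralizer_of_rank_one_two h5 P.isPGroup' hn hR' hu
  have h2 := (H1.le_map_pCore_of_isNilpotent (H1.isNilpotent_fittingSubgroup G) P.isPGroup'
    (h1.trans Cfsg.Agent.S0044.result)).trans (H1.map_subtype_pCore_le _)
  rw [le_antisymm h2 (H1.pCore_le_sylow P)]
  infer_instance

theorem RankOneSolv.quotient (h : RankOneSolv G) (N : Subgroup G) [N.Normal]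
    (hN : (Nat.card N).Coprime N.index) : RankOneSolv (G ⧸ N) := by
  haveI := h.1
  refine ⟨inferInstance, fun r hr A hA hc => ?_⟩
  haveI := Fact.mk hr
  by_cases hA0 : A = ⊥
  · rw [hA0]; infer_instance
  let π := QuotientGroup.mk' N
  obtain ⟨R, hR⟩ := H3.exists_sylowIn r (A.comap π)
  have h1 := hR.map π
  rw [map_comap_eq_self_of_surjective (QuotientGroup.mk'_surjective N)] at h1
  have h2 : A = R.map π := h1.eq_of_le hA le_rfl h1.1
  have hr1 : r ∣ N.index := by
    obtain ⟨k, hk⟩ := hA.exists_card_eq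
    have h3 : k ≠ 0 := by rintro rfl; exact hA0 (card_eq_one.1 hk)
    exact (dvd_pow_self r h3).trans (hk ▸ card_subgroup_dvd_card A)
  have h3 : ∀ x ∈ R, π x = 1 → x = 1 := by
    intro x hx h
    obtain ⟨k, hk⟩ := hR.2 ⟨x, hx⟩
    rw [← orderOf_eq_one_iff]
    exact Nat.eq_one_of_dvd_coprimes ((hN.coprime_dvd_right hr1).pow_right k)
      (orderOf_dvd_natCard N ((QuotientGroup.eq_one_iff _).1 h))
      (orderOf_dvd_of_pow_eq_one (congrArg Subtype.val hk))
  have h4 : IsMulCommutative R := ⟨⟨fun x y => Subtype.ext (by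
    rw [coe_mul, coe_mul, ← commutatorElement_eq_one_iff_mul_comm]
    refine h3 _ (mul_mem (mul_mem (mul_mem x.2 y.2) (inv_mem x.2)) (inv_mem y.2)) ?_
    rw [map_commutatorElement, commutatorElement_eq_one_iff_mul_comm]
    exact congrArg Subtype.val (hc.is_comm.comm ⟨π x, h1.1 ⟨_, x.2, rfl⟩⟩ ⟨π y, h1.1 ⟨_, y.2, rfl⟩⟩))⟩⟩
  have := h.2 r hr R hR.2 h4
  rw [h2]
  exact isCyclic_of_surjective _ (π.subgroupMap_surjective R)

theorem RankOneSolv.towerCount (h : RankOneSolv G) : TowerCount 5 G :=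
  towerCount_of_class 5 (fun G _ => RankOneSolv G) (fun G _ _ hG p _ h5 hmax P =>
    ⟨hG.sylow_normal h5 hmax P, @RankOneSolv.quotient _ _ _ hG _ (hG.sylow_normal h5 hmax P)
      P.card_coprime_index⟩) G h

theorem isSolvable_of_towerCount_five (h : TowerCount 5 G) : Group.IsSolvable G := by
  refine isSolvable_of_towerCount 5 (fun K _ _ h => ?_) G h
  refine H4.burnside_pq (p := 2) (q := 3) (a := (Nat.card K).factorization 2)
    (b := (Nat.card K).factorization 3) Nat.prime_two Nat.prime_three ?_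
  have h0 : Nat.card K ≠ 0 := Nat.card_pos.ne'
  refine Nat.eq_of_factorization_eq h0 (by positivity) (fun r => ?_)
  rw [Nat.factorization_mul (by positivity) (by positivity), Nat.prime_two.factorization_pow,
    Nat.prime_three.factorization_pow, Finsupp.add_apply, Finsupp.single_apply, Finsupp.single_apply]
  by_cases h2 : 2 = r
  · subst h2; simp
  by_cases h3 : 3 = r
  · subst h3; simp
  rw [if_neg h2, if_neg h3]
  by_cases hr : r.Prime
  · refine Nat.factorization_eq_zero_of_not_dvd (fun hd => ?_)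
    have h4 := h r hr hd
    have h5 := hr.two_le
    interval_cases r <;> first | omega | exact absurd hr (by norm_num)
  · exact Nat.factorization_eq_zero_of_not_prime _ hr

/-- elements outside `N` have order prime to `|N|` -/
def OutCop (N : Subgroup G) : Prop := ∀ x, x ∉ N → (orderOf x).Coprime (Nat.card N)

theorem OutCop.coprime_index {N : Subgroup G} [N.Normal] (h : OutCop N) :
    (Nat.card N).Coprime N.index := by
  refine Nat.Coprime.symm (Nat.coprime_of_dvd fun r hr h1 h2 => ?_)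
  haveI := Fact.mk hr
  obtain ⟨y, hy⟩ := exists_prime_orderOf_dvd_card' (G := G ⧸ N) r h1
  obtain ⟨x, rfl⟩ := QuotientGroup.mk'_surjective N y
  have hx : x ∉ N := fun hx => by
    rw [show QuotientGroup.mk' N x = 1 from (QuotientGroup.eq_one_iff _).2 hx, orderOf_one] at hy
    exact hr.one_lt.ne hy
  exact hr.one_lt.ne' (Nat.eq_one_of_dvd_coprimes (h x hx) (hy ▸ orderOf_map_dvd _ x) h2)

theorem OutCop.fpf {N H : Subgroup G} (h : OutCop N) (hd : Disjoint N H) :
    ∀ a ∈ H, a ≠ 1 → N ⊓ centralizer {a} = ⊥ := by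
  intro a ha ha1
  rw [eq_bot_iff]
  rintro n ⟨hn, hc⟩
  have haN : a ∉ N := fun h => ha1 (disjoint_def.1 hd h ha)
  have hc' : Commute n a := mem_centralizer_singleton_iff.1 hc
  have h1 := h (n * a) (fun h => haN ((N.mul_mem_cancel_left hn).1 h))
  rw [hc'.orderOf_mul_eq_mul_orderOf_of_coprime
    ((h a haN).symm.coprime_dvd_left (orderOf_dvd_natCard N hn))] at h1
  exact orderOf_eq_one_iff.1 (Nat.eq_one_of_dvd_coprimes h1 (dvd_mul_right _ _)
    (orderOf_dvd_natCard N hn))

theorem OutCop.orderOf_mk {N : Subgroup G} [N.Normal] (h : OutCop N) (x : G) :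
    orderOf (x : G ⧸ N) = if orderOf x ∣ Nat.card N then 1 else orderOf x := by
  by_cases hx : x ∈ N
  · rw [if_pos (orderOf_dvd_natCard N hx), (QuotientGroup.eq_one_iff _).2 hx, orderOf_one]
  · rw [if_neg (fun hd => hx (by
      rw [orderOf_eq_one_iff.1 ((h x hx).eq_one_of_dvd hd)]; exact one_mem _))]
    exact Nat.dvd_antisymm (orderOf_map_dvd (QuotientGroup.mk' N) x)
      ((h x hx).dvd_of_dvd_mul_right (orderOf_dvd_orderOf_mk_mul_card N x))

theorem orderType_quotient {F : Type v} [Group F] [Finite F] {K : Subgroup F} [K.Normal]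
    {N : Subgroup G} [N.Normal] (hK : OutCop K) (hN : OutCop N) (hc : Nat.card K = Nat.card N)
    (hT : ∀ m : ℕ, Nat.card {g : F // orderOf g = m} = Nat.card {h : G // orderOf h = m}) (m : ℕ) :
    Nat.card {g : F ⧸ K // orderOf g = m} = Nat.card {h : G ⧸ N // orderOf h = m} := by
  refine Nat.eq_of_mul_eq_mul_left (Nat.card_pos (α := K)) ?_
  rw [← card_comap_pred K (fun g => orderOf g = m), hc, ← card_comap_pred N (fun g => orderOf g = m)]
  simp only [hK.orderOf_mk, hN.orderOf_mk, hc]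
  exact card_orderOf_pred_eq hT (fun k => (if k ∣ Nat.card N then 1 else k) = m)

theorem OutCop.isNilpotent {N : Subgroup G} [N.Normal] (h : OutCop N) (hN : N ≠ ⊤) :
    Group.IsNilpotent N := by
  obtain ⟨H, hH⟩ := exists_right_complement'_of_coprime h.coprime_index
  have hH0 : H ≠ ⊥ := fun h0 => hN (by
    have := hH.sup_eq_top; rwa [h0, sup_bot_eq] at this)
  obtain ⟨y, hy, hy'⟩ := H1.exists_prime_orderOf_mem hH0
  exact H1.isNilpotent_of_fpf (by rw [normalizer_eq_top]; trivial) hy'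
    (h.fpf hH.disjoint y hy (fun h => by rw [h, orderOf_one] at hy'; exact Nat.not_prime_one hy'))

theorem solvable_of_orderType_outCop {F : Type v} [Group F] [Finite F] {K : Subgroup F} [K.Normal]
    {N : Subgroup G} [N.Normal] (hK : OutCop K) (hN : OutCop N) (hc : Nat.card K = Nat.card N)
    (hK0 : K ≠ ⊥) (hN1 : N ≠ ⊤)
    (hT : ∀ m : ℕ, Nat.card {g : F // orderOf g = m} = Nat.card {h : G // orderOf h = m})
    (hF : Group.IsSolvable F) : Group.IsSolvable G := by
  obtain ⟨H, hH⟩ := exists_right_complement'_of_coprime hK.coprime_index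
  have e := hH.symm.QuotientMulEquiv
  have h1 : RankOneSolv (F ⧸ K) := by
    refine ⟨inferInstance, fun r hr A hA hc => ?_⟩
    let f : F ⧸ K →* F := H.subtype.comp e.toMonoidHom
    have hf : Function.Injective f := H.subtype_injective.comp e.injective
    have := H1.isCyclic_of_fpf (A := A.map f) hK0 (by rw [normalizer_eq_top]; exact le_top)
      (fun a ha => hK.fpf hH.disjoint a (by obtain ⟨y, -, rfl⟩ := ha; exact (e y).2))
    exact isCyclic_of_surjective _ (A.equivMapOfInjective _ hf).symm.surjective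
  have h2 := isSolvable_of_towerCount_five
    (h1.towerCount.of_orderType (orderType_quotient hK hN hc hT))
  have h3 := hN.isNilpotent hN1
  exact (Group.isSolvable_iff_subgroup_quotient N).2 ⟨inferInstance, h2⟩

end Cfsg.Agent.H25
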