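import Cfsg.Agent.H25.GK4

/-! Index bounds from centralizers of hyperplanes; bounded derived subgroups. -/

set_option autoImplicit false
set_option linter.style.haveILetI false

namespace Cfsg.Agent.H25.GK

open Subgroup Cfsg.Agent.H20 Cfsg.Agent.H21
open scoped commutatorElement IsMulCommutative

universe u

theorem card_le_of_center {K : Type*} [Group K] [Finite K] {s : Set K} (hs : closure s = ⊤)
    {d e k : ℕ} (hd : Nat.card s ≤ d) (he : 0 < e) (h : ∀ y ∈ s, y ^ e = 1)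
    (hk : (center K).index ≤ k) : Nat.card K ≤ (k * e) ^ (k * d) * k := by
  have h1 : ∀ g : center K, g ^ ((center K).index * e) = 1 := fun g => by
    have : (⊤ : Subgroup K) ≤ ((powMonoidHom e).comp (MonoidHom.transferCenterPow K)).ker := by
      rw [← hs]
      exact (closure_le _).2 fun y hy => by
        rw [SetLike.mem_coe, MonoidHom.mem_ker, MonoidHom.comp_apply, powMonoidHom_apply, ← map_pow,
          h y hy, map_one]
    have h2 := congrArg Subtype.val (this (mem_top g.1))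
    apply Subtype.ext
    simpa [pow_mul] using h2
  have h2 := card_dvd_exponent_pow_rank' (center K) h1
  have h3 : Group.rank K ≤ d := by
    have := rank_closure_finite_le_nat_card s
    rw [Group.rank_congr ((MulEquiv.subgroupCongr hs).trans topEquiv)] at this
    exact this.trans hd
  have h4 := (rank_le_index_mul_rank (center K)).trans (Nat.mul_le_mul hk h3)
  have h5 : 0 < (center K).index := Nat.pos_of_ne_zero index_ne_zero_of_finite
  rw [← card_mul_index (center K)]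
  refine Nat.mul_le_mul ((Nat.le_of_dvd (by positivity) h2).trans ?_) hk
  exact (Nat.pow_le_pow_left (Nat.mul_le_mul_right e hk) _).trans
    (Nat.pow_le_pow_right (Nat.mul_pos (h5.trans_le hk) he) h4)

variable {X : Type u} [Group X] [Finite X] {p : ℕ} {A G : Subgroup X}

theorem relIndex_cent1_le {K T : Subgroup X} {y : X} (h : ∀ c ∈ K, ⁅c, y⁆ ∈ T) :
    (C₁⟦y⟧).relIndex K ≤ ♯T := by
  let f : K ⧸ (C₁⟦y⟧).subgroupOf K → T := fun x => ⟨_, h _ x.out.2⟩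
  refine Nat.card_le_card_of_injective f fun a b e => ?_
  have e' : ⁅(a.out : X), y⁆ = ⁅(b.out : X), y⁆ := congrArg Subtype.val e
  rw [← a.out_eq, ← b.out_eq]
  refine QuotientGroup.eq.2 (mem_centralizer_singleton_iff.2 ?_)
  simp only [commutatorElement_def, mul_left_inj] at e'
  show (a.out : X)⁻¹ * b.out * y = y * ((a.out : X)⁻¹ * b.out)
  calc (a.out : X)⁻¹ * b.out * y = (a.out : X)⁻¹ * (b.out * y * (b.out : X)⁻¹) * b.out := by group
    _ = _ := by rw [← e']; group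

theorem relIndex_iInf_le_pow {ι : Type*} [Finite ι] {f : ι → Subgroup X} {L : Subgroup X} {n t : ℕ}
    (h : ∀ i, (f i).relIndex L ≤ n) (hn : 0 < n) (ht : Nat.card ι ≤ t) :
    (⨅ i, f i).relIndex L ≤ n ^ t := by
  haveI := Fintype.ofFinite ι
  refine (relIndex_iInf_le f).trans ((Finset.prod_le_pow_card _ _ n fun i _ => h i).trans ?_)
  rw [Finset.card_univ, ← Nat.card_eq_fintype_card]
  exact Nat.pow_le_pow_right hn ht

variable [hp : Fact p.Prime]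

theorem Amb.idx_nil (h : Amb p A G) {P : Subgroup X} (hP : Group.IsNilpotent P) (hPG : P ≤ G)
    (hAP : A ≤ N⟦P⟧) (n : ℕ) : ∀ R ≤ P, A ≤ N⟦R⟧ → R.relIndex P = n →
    R.relIndex P ∣ ∏ C ∈ (Set.toFinite (C0 p A G)).toFinset, R.relIndex (P ⊓ C) := by
  induction n using Nat.strong_induction_on with
  | _ n ih =>
  intro R hR hA hn
  rcases hR.eq_or_lt with rfl | hlt
  · rw [relIndex_self]; exact one_dvd _
  have h1 := lt_inf_norm_of_nilpotent hP hlt
  obtain ⟨C, hC, h2⟩ : ∃ C ∈ C0 p A G, ¬ (P ⊓ N⟦R⟧) ⊓ C ≤ R := by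
    by_contra! h2
    exact h1.not_ge (h.gen (inf_le_left.trans hPG) (norm_inf_norm hAP hA) h2)
  set U := (P ⊓ N⟦R⟧) ⊓ C with hU
  have hUR : U ≤ N⟦R⟧ := inf_le_left.trans inf_le_right
  have h3 : U ⊔ R ≤ P := sup_le (inf_le_left.trans inf_le_left) hR
  have h4 := relIndex_mul_relIndex R (U ⊔ R) P le_sup_right h3
  have h5 : R.relIndex (U ⊔ R) = R.relIndex U := relIndex_sup_of_norm (Or.inl hUR)
  have h6 : R.relIndex U ≠ 1 := fun e => h2 (relIndex_eq_one.1 e)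
  have h7 := ih ((U ⊔ R).relIndex P) (by
      have := relIndex_pos (U ⊔ R) P
      have := relIndex_pos R U
      rw [← hn, ← h4, h5]
      have : 2 ≤ R.relIndex U := by omega
      nlinarith) (U ⊔ R) h3
    (norm_sup (norm_inf (norm_inf_norm hAP hA) (h.good0.inv C hC)) hA) rfl
  have h8 : ∀ D : Subgroup X, R.relIndex ((U ⊔ R) ⊓ (P ⊓ D)) * (U ⊔ R).relIndex (P ⊓ D) =
      R.relIndex (P ⊓ D) := fun D => by
    rw [relIndex_inf_mul_relIndex, inf_eq_left.2 le_sup_right]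
  rw [← h4, ← Finset.prod_congr rfl fun D _ => h8 D, Finset.prod_mul_distrib]
  refine mul_dvd_mul (dvd_trans ?_ (Finset.dvd_prod_of_mem _ ((Set.Finite.mem_toFinset _).2 hC))) h7
  rw [h5]
  exact relIndex_dvd_of_norm (le_inf le_sup_left (inf_le_inf_right _ inf_le_left)) hUR

theorem Amb.idx (h : Amb p A G) {H : Subgroup X} (hH : H ≤ G) (hA : A ≤ N⟦H⟧) :
    H.relIndex G ∣ ∏ C ∈ (Set.toFinite (C0 p A G)).toFinset, H.relIndex C := by
  have hAp := isPGroup_of_elem h.ea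
  have hs : Group.IsSolvable A := sol_of_pgroup hAp
  have hc : (♯G).Coprime (♯A) := (coprime_of_isPGroup hAp h.cop).symm
  rw [Nat.dvd_iff_prime_pow_dvd_dvd]
  intro r j hr hd
  haveI := Fact.mk hr
  obtain ⟨R, hR, hAR⟩ := exists_inv_sylow r hA (coprime_of_le hc hH le_rfl) (Or.inl hs)
  have hRp := isPi_singleton_iff.1 hR.isPi
  obtain ⟨P, hP, hAP, hRP⟩ := exists_inv_sylow_ge h.norm hc (Or.inl hs) hRp (hR.le.trans hH) hAR
  have hPp := isPi_singleton_iff.1 hP.isPi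
  have h1 : r ^ j ∣ R.relIndex P := by
    have := hd.mul_left (R.relIndex H)
    rw [relIndex_mul_relIndex _ _ _ hR.le hH, ← relIndex_mul_relIndex _ _ _ hRP hP.le] at this
    exact (PiNat.prime_pow (π := {r}) hr rfl j).dvd_of_dvd_mul_right hP.piNat this
  refine (h1.trans (h.idx_nil hPp.isNilpotent hP.le hAP _ R hRP hAR rfl)).trans
    (Finset.prod_dvd_prod_of_dvd _ _ fun C hC => ?_)
  obtain ⟨B, hB, -, rfl⟩ := (Set.Finite.mem_toFinset _).1 hC
  have h2 := relIndex_inf_mul_relIndex R P (G ⊓ C⟦B⟧)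
  have h3 := relIndex_inf_mul_relIndex R H (G ⊓ C⟦B⟧)
  rw [inf_eq_left.2 hRP] at h2
  rw [inf_eq_left.2 hR.le, ← h2, ← inf_assoc, inf_eq_left.2 hH] at h3
  have h4 := (inv_sylow_inf_cent (hB.trans hA) (coprime_of_le hc hH hB)
    (Or.inl (sol_of_le hs hB)) hR (hB.trans hAR)).piNat
  have h5 : (R ⊓ C⟦B⟧).relIndex (H ⊓ C⟦B⟧) = R.relIndex (H ⊓ C⟦B⟧) := by
    rw [← inf_relIndex_right R, ← inf_assoc, inf_eq_left.2 hR.le]
  rw [h5] at h4
  exact ((hP.isPi.inf_left _).relIndex R).dvd_of_dvd_mul_left h4 ⟨_, h3⟩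

theorem Amb.idx_le (h : Amb p A G) {H : Subgroup X} (hH : H ≤ G) (hA : A ≤ N⟦H⟧) {n : ℕ}
    (hn : 0 < n) (hC : ∀ C ∈ C0 p A G, H.relIndex C ≤ n) : H.relIndex G ≤ n ^ 2 ^ ♯A := by
  refine (Nat.le_of_dvd (Finset.prod_pos fun _ _ => relIndex_pos _ _) (h.idx hH hA)).trans
    ((Finset.prod_le_pow_card _ _ n fun C hC' => hC C ((Set.Finite.mem_toFinset _).1 hC')).trans ?_)
  rw [← Set.ncard_eq_toFinset_card]
  exact Nat.pow_le_pow_right hn h.good0.card

/-- The bound for the derived subgroup. -/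
def db (s m : ℕ) : ℕ :=
  let n := (m ^ s) ^ 2 ^ s
  let k := ((n * n) ^ m) ^ s
  (k * m.factorial) ^ (k * (s * m)) * k

theorem Amb.der_le (h : Amb p A G) (hA : ♯A = p ^ 3) {m : ℕ}
    (hm : ∀ a ∈ A, a ≠ 1 → ♯(⁅G ⊓ C₁⟦a⟧, G ⊓ C₁⟦a⟧⁆) ≤ m) : ♯(⁅G, G⁆) ≤ db (p ^ 3) m := by
  classical
  rw [← hA]
  have hm0 : 0 < m := by
    obtain ⟨a, ha, ha1⟩ := H10.exists_ne_one_of_ne_bot h.ne
    exact Nat.card_pos.trans_le (hm a ha ha1)
  have h1 : ∀ C₁ ∈ C0 p A G, ∀ C₂ ∈ C0 p A G, ∃ a ∈ A, a ≠ 1 ∧ C₁ ≤ G ⊓ C₁⟦a⟧ ∧ C₂ ≤ G ⊓ C₁⟦a⟧ := by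
    rintro _ ⟨B, hB, e, rfl⟩ _ ⟨B', hB', e', rfl⟩
    obtain ⟨a, ha, ha', ha1⟩ := H10.exists_mem_hyperplanes hA.ge hB e hB' e'
    exact ⟨a, hB ha, ha1, inf_le_inf_left _ (cent_le_cent1 ha), inf_le_inf_left _ (cent_le_cent1 ha')⟩
  set n := (m ^ ♯A) ^ 2 ^ ♯A with hn
  have hn0 : 0 < n := by positivity
  have h2 : ∀ C ∈ C0 p A G, ∀ x ∈ C, (C₁⟦x⟧).relIndex G ≤ n := fun C hC x hx => by
    have h3 := h.idx_le (H := G ⊓ ⨅ a : A, C₁⟦a * x * (a : X)⁻¹⟧) inf_le_left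
      (norm_inf h.norm fun b hb => mem_norm_of_forall fun y hy => mem_iInf.2 fun a => by
        have := mem_centralizer_singleton_iff.1 (mem_iInf.1 hy ⟨b⁻¹ * a, mul_mem (inv_mem hb) a.2⟩)
        refine mem_centralizer_singleton_iff.2 ?_
        calc b * y * b⁻¹ * (a * x * (a : X)⁻¹) = b * (y * (b⁻¹ * a * x * (b⁻¹ * a)⁻¹)) * b⁻¹ := by group
          _ = _ := by rw [this]; group)
      (n := m ^ ♯A) (by positivity) fun C' hC' => by
        obtain ⟨a, ha, ha1, h4, h5⟩ := h1 C hC C' hC'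
        rw [← inf_relIndex_right, inf_right_comm, inf_eq_right.2 (h5.trans inf_le_left), inf_comm,
          inf_relIndex_right]
        exact relIndex_iInf_le_pow (fun b => (relIndex_cent1_le fun c hc => commutator_mem_commutator
          (h5 hc) (h4 ((mem_normalizer_iff.1 (h.good0.inv C hC b.2) x).1 hx))).trans (hm a ha ha1))
          hm0 le_rfl
    refine (relIndex_le_of_le_left (inf_le_right.trans ((iInf_le _ 1).trans (by simp)))
      (relIndex_ne_zero _ _)).trans h3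
  have h3 : ∀ g ∈ G, ∀ x, (C₁⟦g * x * g⁻¹⟧).relIndex G = (C₁⟦x⟧).relIndex G := fun g hg x => by
    rw [← relIndex_cj g C₁⟦x⟧, cj_cent1, cj_eq_of_mem hg]
  have h4 : ∀ a ∈ A, a ≠ 1 → (C⟦⁅G ⊓ C₁⟦a⟧, G ⊓ C₁⟦a⟧⁆⟧).relIndex G ≤ (n * n) ^ m := fun a ha ha1 => by
    set Y := G ⊓ C₁⟦a⟧ with hY
    let S : Set X := {t | t ∈ ⁅Y, Y⁆ ∧ (C₁⟦t⟧).relIndex G ≤ n * n}
    have hYS : Y ≤ N⟦closure S⟧ := norm_closure fun y hy t ht =>
      ⟨(mem_normalizer_iff.1 (norm_der le_normalizer hy) t).1 ht.1, (h3 y hy.1 t).trans_le ht.2⟩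
    have hY2 : Y = sSup {D | ∃ C ∈ C0 p A G, D = Y ⊓ C} := le_antisymm
      (h.gen inf_le_left (norm_inf h.norm (norm_cent1 (le_cent1_iff.2 (comm_iff_le_cent.1 h.ea.1 ha))))
        fun C hC => le_sSup ⟨C, hC, rfl⟩) (sSup_le (by rintro _ ⟨C, -, rfl⟩; exact inf_le_left))
    have h5 : ⁅Y, Y⁆ ≤ closure S := by
      conv_lhs => rw [hY2]
      refine comm_sSup_left (hY2 ▸ hYS) ?_
      rintro _ ⟨C, hC, rfl⟩
      rw [commutator_comm]
      refine comm_sSup_left (hY2 ▸ hYS) ?_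
      rintro _ ⟨C', hC', rfl⟩
      refine commutator_le.2 fun x hx y hy => subset_closure ⟨commutator_mem_commutator hx.1 hy.1, ?_⟩
      refine (relIndex_le_of_le_left (H := C₁⟦x * y * x⁻¹⟧ ⊓ C₁⟦y⟧) ?_ (relIndex_ne_zero _ _)).trans
        (relIndex_inf_le.trans (Nat.mul_le_mul ((h3 x hx.1.1 y).trans_le (h2 C hC y hy.2))
          (h2 C hC y hy.2)))
      intro z hz
      rw [mem_cent1_comm]
      exact mul_mem (mem_cent1_comm.1 hz.1) (inv_mem (mem_cent1_comm.1 hz.2))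
    refine (relIndex_le_of_le_left (H := ⨅ t : S, C₁⟦t.1⟧) ?_ (relIndex_ne_zero _ _)).trans
      (relIndex_iInf_le_pow (fun t => t.2.2) (by positivity) ?_)
    · refine le_centralizer_iff.1 (h5.trans ((closure_le _).2 fun t ht => ?_))
      exact le_cent1_iff.1 (iInf_le (fun t : S => C₁⟦t.1⟧) ⟨t, ht⟩)
    · exact (Nat.card_le_card_of_injective (fun t : S => (⟨t.1, t.2.1⟩ : ↥⁅Y, Y⁆))
        fun a b e => Subtype.ext (congrArg (fun z : ↥⁅Y, Y⁆ => z.1) e)).trans (hm a ha ha1)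
  let T : {a : A // a ≠ 1} → Subgroup X := fun a => ⁅G ⊓ C₁⟦a.1.1⟧, G ⊓ C₁⟦a.1.1⟧⁆
  have hT : ∀ a, ♯(T a) ≤ m := fun a => hm _ a.1.2 fun e => a.2 (Subtype.ext e)
  have h5 : ⁅G, G⁆ ≤ ⨆ a, T a := by
    conv_lhs => rw [← h.sSup0, ← h.good0.sSup_star h h.good0 star_le le_rfl]
    refine sSup_le ?_
    rintro _ ⟨C₁, hC₁, C₂, hC₂, C, -, rfl⟩
    obtain ⟨a, ha, ha1, h4, h5⟩ := h1 C₁ hC₁ C₂ hC₂
    exact inf_le_left.trans ((commutator_mono h4 h5).trans
      (le_iSup T ⟨⟨a, ha⟩, fun e => ha1 (congrArg Subtype.val e)⟩))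
  have hTG : ∀ a, T a ≤ ⁅G, G⁆ := fun a => commutator_mono inf_le_left inf_le_left
  have hcard : Nat.card {a : A // a ≠ 1} ≤ ♯A := Nat.card_le_card_of_injective _ Subtype.val_injective
  refine card_le_of_center (s := {y : ↥⁅G, G⁆ | ∃ a, y.1 ∈ T a}) ?_ ?_ (Nat.factorial_pos m) ?_ ?_
  · rw [← map_subtype_inj, ← MonoidHom.range_eq_map, subtype_range]
    refine le_antisymm (map_subtype_le _) (h5.trans (iSup_le fun a y hy => ?_))
    exact ⟨⟨y, hTG a hy⟩, subset_closure ⟨a, hy⟩, rfl⟩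
  · haveI := Fintype.ofFinite {a : A // a ≠ 1}
    have h6 : Nat.card (Σ a, T a) ≤ ♯A * m := by
      rw [Nat.card_sigma]
      refine (Finset.sum_le_card_nsmul _ _ m fun a _ => hT a).trans ?_
      rw [Finset.card_univ, ← Nat.card_eq_fintype_card, smul_eq_mul]
      exact Nat.mul_le_mul_right _ hcard
    refine (Nat.card_le_card_of_surjective (fun x : Σ a, T a =>
      (⟨⟨x.2.1, hTG _ x.2.2⟩, x.1, x.2.2⟩ : {y : ↥⁅G, G⁆ | ∃ a, y.1 ∈ T a})) ?_).trans h6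
    rintro ⟨y, a, ha⟩
    exact ⟨⟨a, y.1, ha⟩, rfl⟩
  · rintro y ⟨a, ha⟩
    apply Subtype.ext
    rw [coe_pow, coe_one]
    exact orderOf_dvd_iff_pow_eq_one.1 ((orderOf_dvd_natCard _ ha).trans
      (Nat.dvd_factorial Nat.card_pos (hT a)))
  · have h6 := relIndex_iInf_le_pow (L := G) (f := fun a => C⟦T a⟧)
      (fun a => h4 _ a.1.2 fun e => a.2 (Subtype.ext e)) (by positivity) hcard
    refine le_trans ?_ ((relIndex_le_of_le_right (H21.der_le G) (relIndex_ne_zero _ _)).trans h6)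
    refine Nat.le_of_dvd (relIndex_pos _ _) (index_dvd_of_le fun z hz => mem_center_iff.2 fun y => ?_)
    have : (⨆ a, T a) ≤ C₁⟦z.1⟧ := iSup_le fun a => le_cent1_iff.2 (mem_iInf.1 hz a)
    exact Subtype.ext (mem_centralizer_singleton_iff.1 (this (h5 y.2)))

end Cfsg.Agent.H25.GK
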