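/-
Quadratic elements in `p`-minimal configurations: the torus of the `SL₂(p)` generated by two quadratic elements.
-/
import Cfsg.Agent.H23.PSt1
import Cfsg.Agent.H21.Base5

set_option autoImplicit false
set_option linter.style.haveILetI false

namespace Cfsg.Agent.H25.Gl

open Subgroup Cfsg.Agent.H9 Cfsg.Agent.H23.PS Matrix
open scoped MatrixGroups TensorProduct commutatorElement

universe u

variable {p : ℕ} [hp : Fact p.Prime]

theorem dickson' (hp2 : p ≠ 2) (μ : AlgebraicClosure (ZMod p)) (hμ : μ ≠ 0) :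
    ∃ g ∈ closure ({uMat μ, lMat 1} : Set SL(2, AlgebraicClosure (ZMod p))),
      ∃ m : ZMod p, m ≠ 0 ∧ μ ^ 2 * g 1 0 ^ 2 = algebraMap _ _ m ∧
        (g = lMat 1 ∨ ∃ v ∈ closure ({uMat μ, lMat 1} : Set SL(2, AlgebraicClosure (ZMod p))),
          v 1 0 = 0 ∧ g * v * g⁻¹ = lMat 1) := by
  have hfin : Finite (Subfield.closure ({μ} : Set (AlgebraicClosure (ZMod p)))) := by
    have h1 : FiniteDimensional (ZMod p) (IntermediateField.adjoin (ZMod p) {μ}) :=
      IntermediateField.adjoin.finiteDimensional (Algebra.IsIntegral.isIntegral μ)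
    have h2 : Finite (IntermediateField.adjoin (ZMod p) {μ}) := Module.finite_of_finite (ZMod p)
    have h3 : Subfield.closure ({μ} : Set (AlgebraicClosure (ZMod p))) ≤
        (IntermediateField.adjoin (ZMod p) {μ}).toSubfield :=
      Subfield.closure_le.2 (IntermediateField.subset_adjoin _ _)
    exact Finite.of_injective _ (Subfield.inclusion h3).injective
  set F := Subfield.closure ({μ} : Set (AlgebraicClosure (ZMod p)))
  let μ' : F := ⟨μ, Subfield.subset_closure rfl⟩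
  have hμ' : μ' ≠ 0 := fun e => hμ (congrArg Subtype.val e)
  have hgen : ∀ E : Subfield F, μ' ∈ E → E = ⊤ := by
    intro E hE
    have : F ≤ E.map F.subtype := Subfield.closure_le.2 (by rintro _ rfl; exact ⟨μ', hE, rfl⟩)
    rw [eq_top_iff]
    intro x _
    obtain ⟨y, hy, e⟩ := this x.2
    exact (Subtype.ext e : y = x) ▸ hy
  have hl : lMat (1 : AlgebraicClosure (ZMod p)) ∈
      closure ({uMat μ, lMat 1} : Set SL(2, AlgebraicClosure (ZMod p))) :=
    subset_closure (by simp)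
  rcases closure_upper_lower_eq_top p hp2 hμ' hgen with h | h | h
  · let g : SL(2, F) := ⟨!![0, -μ'; μ'⁻¹, 0], by simp [det_fin_two, hμ']⟩
    have e1 : SpecialLinearGroup.map F.subtype (uMat μ') = uMat μ := H12.map_upper F.subtype μ'
    have e2 : SpecialLinearGroup.map F.subtype (lMat 1) = lMat 1 := H12.map_lower F.subtype 1
    have hg : ∀ g : SL(2, F), SpecialLinearGroup.map F.subtype g ∈
        closure ({uMat μ, lMat 1} : Set SL(2, AlgebraicClosure (ZMod p))) := by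
      intro g
      have : SpecialLinearGroup.map F.subtype g ∈ (closure
        ({uMat μ', lMat 1} : Set SL(2, F))).map (SpecialLinearGroup.map F.subtype) := ⟨g, h ▸ mem_top g, rfl⟩
      rwa [MonoidHom.map_closure, Set.image_pair, e1, e2] at this
    refine ⟨_, hg g, 1, one_ne_zero, ?_, Or.inr ⟨_, hg (uMat (-μ' ^ 2)), ?_, ?_⟩⟩
    · have : SpecialLinearGroup.map F.subtype g 1 0 = μ⁻¹ := rfl
      rw [this, map_one, ← mul_pow, mul_inv_cancel₀ hμ, one_pow]
    · rfl
    · rw [← map_inv, ← map_mul, ← map_mul, ← e2]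
      congr 1
      rw [mul_inv_eq_iff_eq_mul]
      have g00 : g 0 0 = 0 := rfl
      have g01 : g 0 1 = -μ' := rfl
      have g10 : g 1 0 = μ'⁻¹ := rfl
      have g11 : g 1 1 = 0 := rfl
      apply sl2_ext <;> rw [sl2_mul_apply, sl2_mul_apply] <;>
        simp only [g00, g01, g10, g11, uMat_00, uMat_01, uMat_10, uMat_11, lMat_00, lMat_01, lMat_10, lMat_11] <;>
        field_simp <;> ring
  · refine ⟨_, hl, 1, one_ne_zero, ?_, Or.inl rfl⟩
    have := congrArg Subtype.val h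
    simpa [μ'] using this
  · refine ⟨_, hl, -1, neg_ne_zero.2 one_ne_zero, ?_, Or.inl rfl⟩
    have := congrArg Subtype.val h
    simpa [μ'] using this

variable {W : Type*} [AddCommGroup W] [Module (ZMod p) W] {H : Type*} [Group H]

theorem exists_SL2' [Finite W] (ρ : H →* Module.End (ZMod p) W) {a b : H}
    (hH : closure {a, b} = ⊤) (ha : Quad ρ a) (hb : Quad ρ b)
    (hnp : ∃ g : H, ∀ k, ρ (g ^ p ^ k) ≠ 1) :
    ∃ (μ : AlgebraicClosure (ZMod p)) (φ : H →* SL(2, AlgebraicClosure (ZMod p))), μ ≠ 0 ∧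
      φ a = uMat μ ∧ φ b = lMat 1 ∧ (∀ g, ρ g = 1 → φ g = 1) ∧
      ∀ (r : H) (m : ZMod p), μ ^ 2 * φ r 1 0 ^ 2 = algebraMap _ _ m → ∃ w, w ≠ 0 ∧
        ((ρ a - 1) * (ρ (r * a * r⁻¹) - 1) + (ρ (r * a * r⁻¹) - 1) * (ρ a - 1)) w = (-m) • w := by
  set K := AlgebraicClosure (ZMod p)
  haveI : Module.Finite (ZMod p) W := Module.Finite.of_finite
  let β : Module.End (ZMod p) W →ₐ[ZMod p] Module.End K (K ⊗[ZMod p] W) :=
    Module.End.baseChangeHom (ZMod p) K W
  have hβ : Function.Injective β := LinearMap.baseChangeHom_injective (ZMod p) W K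
  let ρK : H →* Module.End K (K ⊗[ZMod p] W) := (β : _ →* _).comp ρ
  have hρK : ∀ g, ρK g = β (ρ g) := fun _ => rfl
  have hρK1 : ∀ g, ρK g - 1 = β (ρ g - 1) := fun g => by rw [map_sub, map_one, hρK]
  have hq : ∀ g, Quad ρ g → (ρK g - 1) * (ρK g - 1) = 0 := by
    intro g hg
    rw [hρK1, ← map_mul, hg, map_zero]
  have hz : ¬ IsNilpotent ((ρK a - 1) * (ρK b - 1) + (ρK b - 1) * (ρK a - 1)) := by
    intro h
    rw [hρK1, hρK1, ← map_mul, ← map_mul, ← map_add, IsNilpotent.map_iff hβ] at h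
    obtain ⟨g, hg⟩ := hnp
    obtain ⟨k, hk⟩ := pow_eq_one_of_isNilpotent_sub_one (p := p)
      (isNilpotent_sub_one_of_quadratic ρ hH ha hb h g)
    exact hg k (by rw [map_pow, hk])
  obtain ⟨μ, φ, ι, hμ, hι, h1, h2, h3⟩ := exists_hom_SL2_of_isAlgClosed ρK hH (hq a ha) (hq b hb) hz
  have hsub : ∀ g c, (ρK g - 1) (ι c) = ι (((φ g : Matrix (Fin 2) (Fin 2) K) - 1) *ᵥ c) := by
    intro g c
    rw [LinearMap.sub_apply, h3, Matrix.sub_mulVec, map_sub, Matrix.one_mulVec]; rfl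
  have hmat : ∀ M : Matrix (Fin 2) (Fin 2) K, (∀ c, ι (M *ᵥ c) = 0) → M = 0 := by
    intro M hM
    ext i j
    have := congrFun (hι ((hM (Pi.single j 1)).trans (map_zero ι).symm)) i
    simpa using this
  refine ⟨μ, φ, hμ, h1, h2, ?_, ?_⟩
  · intro g hg
    apply Subtype.ext
    rw [← sub_eq_zero]
    apply hmat
    intro c
    have := hsub g c
    rw [hρK1, hg, sub_self, map_zero] at this
    exact this.symm
  · intro r m hr
    have hb' : Quad ρ (r * a * r⁻¹) := ha.conj r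
    set b' := r * a * r⁻¹ with hb'def
    have hφ : ∀ g, Quad ρ g → φ g 0 0 + φ g 1 1 = 2 := by
      intro g hg
      apply sl2_trace_of_quadratic
      apply hmat
      intro c
      rw [← Matrix.mulVec_mulVec, ← hsub, ← hsub, ← Module.End.mul_apply, hq g hg]; rfl
    have htr : (φ a * φ b') 0 0 + (φ a * φ b') 1 1 = 2 - algebraMap _ _ m := by
      rw [hb'def, map_mul, map_mul, map_inv, h1, trace_uMat_mul_conj, hr]
    have hX := hφ a ha
    have hY := hφ b' hb'
    have hanti := mat2_anticomm (X := (φ a : Matrix (Fin 2) (Fin 2) K) - 1)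
      (Y := (φ b' : Matrix (Fin 2) (Fin 2) K) - 1) (by simp; linear_combination hX)
      (by simp; linear_combination hY)
    have hs : (((φ a : Matrix (Fin 2) (Fin 2) K) - 1) * ((φ b' : Matrix (Fin 2) (Fin 2) K) - 1)) 0 0 +
        (((φ a : Matrix (Fin 2) (Fin 2) K) - 1) * ((φ b' : Matrix (Fin 2) (Fin 2) K) - 1)) 1 1 =
        algebraMap _ _ (-m) := by
      simp only [sl2_mul_apply] at htr
      simp [Matrix.mul_apply, Fin.sum_univ_two]
      linear_combination htr - hX - hY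
    rw [hs] at hanti
    set z := (ρ a - 1) * (ρ b' - 1) + (ρ b' - 1) * (ρ a - 1) with hzdef
    have hzK : ∀ c, β (z - algebraMap _ _ (-m)) (ι c) = 0 := by
      intro c
      rw [map_sub, hzdef, map_add, map_mul β, map_mul β, ← hρK1, ← hρK1,
        LinearMap.sub_apply, LinearMap.add_apply, Module.End.mul_apply, Module.End.mul_apply,
        hsub, hsub, hsub, hsub, Matrix.mulVec_mulVec, Matrix.mulVec_mulVec, ← map_add,
        ← Matrix.add_mulVec, hanti, AlgHom.commutes, Matrix.smul_mulVec, Matrix.one_mulVec, map_smul]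
      rw [Module.algebraMap_end_apply, algebraMap_smul, sub_self]
    have hnu : ¬ IsUnit (z - algebraMap _ _ (-m)) := by
      intro hu
      have hu' := (Module.End.isUnit_iff _).mp (hu.map β)
      have := hι (hu'.1 ((hzK (Pi.single 0 1)).trans (hzK 0).symm))
      simpa using congrFun this 0
    rw [LinearMap.isUnit_iff_ker_eq_bot] at hnu
    obtain ⟨w, hw, hw0⟩ := Submodule.exists_mem_ne_zero_of_ne_bot hnu
    rw [LinearMap.mem_ker, LinearMap.sub_apply, sub_eq_zero] at hw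
    exact ⟨w, hw0, hw⟩

/-- The configuration given by the `L`-lemma for a cyclic subgroup. -/
structure LH (p : ℕ) {L : Type*} [Group L] (L0 O : Subgroup L) (a : L) : Prop where
  ne : L0 ≠ ⊤
  nO : O.Normal
  pO : IsPGroup p O
  pa : ∃ k, a ^ p ^ k = 1
  np : ¬ IsPGroup p L
  max : ∀ K : Subgroup L, a ∈ K → O ≤ K → K ≠ ⊤ → K ≤ L0
  gen : ∀ x, x ∉ L0 → closure {a, x * a * x⁻¹} ⊔ O = ⊤

variable {L : Type*} [Group L] [Finite L] {L0 O : Subgroup L} {a : L}

theorem pow_quad {ρ : H →* Module.End (ZMod p) W} {g : H} (h : Quad ρ g) (t : ZMod p) :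
    ρ (g ^ t.val) = 1 + t • (ρ g - 1) := by
  have : ∀ n : ℕ, ρ (g ^ n) = 1 + (n : ZMod p) • (ρ g - 1) := by
    intro n
    induction n with
    | zero => simp
    | succ n ih =>
      have h' : (ρ g - 1) * (ρ g - 1) = 0 := h
      rw [pow_succ, map_mul, ih, Nat.cast_succ, add_smul, one_smul]
      have e : ρ g = 1 + (ρ g - 1) := by abel
      conv_lhs => rw [e]
      rw [add_sub_cancel_left, mul_add, add_mul, add_mul, smul_mul_assoc, smul_mul_assoc, h']
      simp only [mul_one, one_mul, smul_zero, add_zero]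
      abel
  rw [this, ZMod.natCast_zmod_val]

theorem LH.irr [Finite W] (h : LH p L0 O a) (hp2 : p ≠ 2) {ρ : L →* Module.End (ZMod p) W} (hi : Irr ρ)
    (ha : Quad ρ a) (hnp : ∃ g, ∀ k, ρ (g ^ p ^ k) ≠ 1) :
    (∀ g, ρ g = 1 → g ∈ L0) ∧ (∃ z ∈ L0, ∀ v, ρ z v = -v) ∧ ∀ l : ZMod p, l ≠ 0 → ∃ t ∈ L0, ∀ y, ρ a y = y →
      ∃ w, ρ a w = w + y ∧ ρ t y = l • y ∧ ρ t w = l⁻¹ • w := by
  haveI := h.nO
  obtain ⟨g0, hg0⟩ := hnp
  obtain ⟨v0, hv0⟩ : ∃ v : W, v ≠ 0 := by
    by_contra hc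
    push Not at hc
    exact hg0 0 (LinearMap.ext fun v => by rw [hc v, map_zero, map_zero])
  have hO : O ≤ ρ.ker := by
    obtain ⟨v, hv, h1⟩ := exists_fixed ρ hv0 O fun k hk => by
      obtain ⟨n, hn⟩ := h.pO ⟨k, hk⟩
      exact ⟨n, by rw [show k ^ p ^ n = 1 from congrArg Subtype.val hn, map_one]⟩
    let U : Submodule (ZMod p) W := ⨅ k : O, LinearMap.ker (ρ k - 1)
    have hU : ∀ v, v ∈ U ↔ ∀ k ∈ O, ρ k v = v := fun v => by
      simp [U, Submodule.mem_iInf, sub_eq_zero]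
    rcases hi U (fun g u hu => (hU _).2 fun k hk => by
      have := (hU u).1 hu _ (h.nO.conj_mem' k hk g)
      rw [← Module.End.mul_apply, ← map_mul, show k * g = g * (g⁻¹ * k * g) by group, map_mul,
        Module.End.mul_apply, this]) with h2 | h2
    · exact absurd (by rw [← Submodule.mem_bot (ZMod p), ← h2]; exact (hU v).2 h1) hv
    · exact fun k hk => LinearMap.ext fun v => (hU v).1 (h2 ▸ Submodule.mem_top) k hk
  obtain ⟨x, hx⟩ : ∃ x, x ∉ L0 := by
    by_contra hc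
    push Not at hc
    exact h.ne (eq_top_iff.2 fun x _ => hc x)
  have dec : ∀ r, r ∉ L0 → ∀ g, ∃ c ∈ closure {a, r * a * r⁻¹}, ρ c = ρ g := by
    intro r hr g
    obtain ⟨c, hc, o, ho, rfl⟩ := (mem_sup_of_normal_right).1 ((h.gen r hr).symm ▸ mem_top g)
    exact ⟨c, hc, by rw [map_mul, hO ho, mul_one]⟩
  set b := x * a * x⁻¹ with hb
  obtain ⟨c0, hc0, e0⟩ := dec x hx g0
  obtain ⟨μ, φ, hμ, h1, h2, h3, h4⟩ := exists_SL2' (ρ.comp (closure ({a, b} : Set L)).subtype)
    (closure_pair_subtype a b) ha (ha.conj x) ⟨⟨c0, hc0⟩, fun k => by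
      have := hg0 k
      rw [map_pow, ← e0, ← map_pow] at this
      exact this⟩
  let Bor : Subgroup SL(2, AlgebraicClosure (ZMod p)) :=
    { carrier := {g | g 1 0 = 0}
      one_mem' := by simp
      mul_mem' := fun {g k} hg hk => by
        simp only [Set.mem_setOf_eq] at hg hk ⊢
        rw [sl2_mul_apply, hg, hk]; simp
      inv_mem' := fun {g} hg => by
        simp only [Set.mem_setOf_eq] at hg ⊢
        rw [sl2_inv_10, hg, neg_zero] }
  have hN : (Bor.comap φ).map (closure ({a, b} : Set L)).subtype ⊔ ρ.ker ≤ L0 := by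
    refine h.max _ (mem_sup_left ⟨⟨a, subset_closure (by simp)⟩, ?_, rfl⟩) (hO.trans le_sup_right) fun e => ?_
    · show φ _ 1 0 = 0
      rw [h1]; rfl
    · obtain ⟨_, ⟨n, hn, rfl⟩, k, hk, e2⟩ := (mem_sup_of_normal_right).1 (e.symm ▸ mem_top b)
      have e3 : φ (n⁻¹ * ⟨b, subset_closure (by simp)⟩) = 1 := h3 _ (by
        show ρ ((n : L)⁻¹ * b) = 1
        have e5 : (n : L)⁻¹ * b = k := by rw [inv_mul_eq_iff_eq_mul]; exact e2.symm
        rw [e5]; exact hk)
      rw [map_mul, map_inv, h2, inv_mul_eq_one] at e3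
      have e4 : φ n 1 0 = 0 := hn
      rw [e3] at e4
      exact one_ne_zero e4
  have haL : a ∈ L0 := hN (mem_sup_left ⟨⟨a, subset_closure (by simp)⟩, by
    show φ _ 1 0 = 0
    rw [h1]; rfl, rfl⟩)
  have hbL : b ∉ L0 := fun hb0 => h.ne (top_le_iff.1 ((h.gen x hx).ge.trans (sup_le
    ((closure_le _).2 (by rintro _ (rfl | rfl) <;> assumption)) (hO.trans (le_sup_right.trans hN)))))
  obtain ⟨g, hg, m, hm, e1, e2⟩ := dickson' hp2 μ hμ
  rw [← h2, ← h1, ← range_eq_closure_of_pair _ (closure_pair_subtype a b)] at hg e2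
  obtain ⟨r, rfl, hr⟩ : ∃ r, φ r = g ∧ (r : L) ∉ L0 := by
    rcases e2 with e2 | ⟨_, ⟨v, rfl⟩, e2, e3⟩
    · exact ⟨_, e2.symm, hbL⟩
    · obtain ⟨r, rfl⟩ := hg
      refine ⟨r, rfl, fun hr => hbL ?_⟩
      have k1 : ((r * v * r⁻¹ : closure ({a, b} : Set L)) : L) ∈ L0 :=
        mul_mem (mul_mem hr (hN (mem_sup_left ⟨v, e2, rfl⟩))) (inv_mem hr)
      have k2 := hN (mem_sup_left ⟨(r * v * r⁻¹)⁻¹ * ⟨b, subset_closure (by simp)⟩, by
        show φ _ 1 0 = 0
        rw [map_mul, map_inv, map_mul, map_mul, map_inv, e3, inv_mul_cancel]; rfl, rfl⟩)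
      have := mul_mem k1 k2
      rwa [coe_subtype, ← coe_mul, mul_inv_cancel_left] at this
  obtain ⟨w0, hw0, hz⟩ := h4 r m e1
  set X := ρ a - 1 with hX
  set Y := ρ ((r : L) * a * (r : L)⁻¹) - 1 with hY
  have hz' : (X * Y + Y * X) w0 = (-m) • w0 := hz
  have hXX : X * X = 0 := ha
  have hYY : Y * Y = 0 := ha.conj r
  have hcomm : ∀ g, Commute (X * Y + Y * X) (ρ g) := by
    intro g
    obtain ⟨c, hc, e⟩ := dec r hr g
    rw [← e]
    refine commute_of_gen (ρ := ρ.comp (closure ({a, (r : L) * a * (r : L)⁻¹} : Set L)).subtype)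
      (closure_pair_subtype _ _) ?_ ?_ ⟨c, hc⟩
    · show Commute _ (ρ a)
      rw [show ρ a = 1 + X by rw [hX]; abel]
      refine (Commute.one_right _).add_right ?_
      show _ = _
      rw [add_mul, mul_add, mul_assoc Y, hXX, ← mul_assoc X X, hXX]; simp [mul_assoc]
    · show Commute _ (ρ ((r : L) * a * (r : L)⁻¹))
      rw [show ρ ((r : L) * a * (r : L)⁻¹) = 1 + Y by rw [hY]; abel]
      refine (Commute.one_right _).add_right ?_
      show _ = _
      rw [add_mul, mul_add, mul_assoc X, hYY, ← mul_assoc Y Y, hYY]; simp [mul_assoc]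
  set n := -m with hn
  have hn0 : n ≠ 0 := neg_ne_zero.2 hm
  have hZ : X * Y + Y * X = n • 1 := by
    rcases hi (LinearMap.ker (X * Y + Y * X - n • 1)) (fun g u hu => by
      rw [LinearMap.mem_ker, LinearMap.sub_apply, sub_eq_zero] at hu ⊢
      rw [← Module.End.mul_apply, (hcomm g).eq, Module.End.mul_apply, hu]; simp) with h5 | h5
    · refine absurd ?_ hw0
      rw [← Submodule.mem_bot (ZMod p), ← h5, LinearMap.mem_ker, LinearMap.sub_apply, hz']; simp
    · exact sub_eq_zero.1 (LinearMap.ker_eq_top.1 h5)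
  have hZ' : ∀ v, X (Y v) + Y (X v) = n • v := fun v => LinearMap.congr_fun hZ v
  have hX2 : ∀ v, X (X v) = 0 := fun v => LinearMap.congr_fun hXX v
  have hY2 : ∀ v, Y (Y v) = 0 := fun v => LinearMap.congr_fun hYY v
  let wt : ZMod p → L := fun t => a ^ t.val * ((r : L) * a * (r : L)⁻¹) ^ (-(t * n)⁻¹).val * a ^ t.val
  have hwt : ∀ t, t ≠ 0 → ∀ v, ρ (wt t) v = t • X v - (t * n)⁻¹ • Y v := by
    intro t ht v
    have k : X (Y (X v)) = n • X v := by
      have := hZ' (X v)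
      rwa [hX2, map_zero, add_zero] at this
    have k2 : X (Y v) = n • v - Y (X v) := eq_sub_of_add_eq (hZ' v)
    simp only [wt, map_mul ρ _ (a ^ _), map_mul ρ (a ^ _), pow_quad ha, pow_quad (ha.conj (r : L)), ← hX, ← hY,
      Module.End.mul_apply, LinearMap.add_apply, LinearMap.smul_apply, Module.End.one_apply, map_add, map_smul,
      hX2, k, k2]
    match_scalars <;> field_simp <;> ring
  have hh : ∀ l, l ≠ 0 → ∀ v, ρ (wt l * wt (-1)) v = (l * n⁻¹) • X (Y v) + (l⁻¹ * n⁻¹) • Y (X v) := by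
    intro l hl v
    rw [map_mul, Module.End.mul_apply, hwt l hl, hwt (-1) (by simp)]
    simp only [map_sub, map_smul, hX2, hY2]
    match_scalars <;> field_simp
  let K : Subgroup L :=
    { carrier := {g | ∀ v, X v = 0 ↔ X (ρ g v) = 0}
      one_mem' := fun v => by simp
      mul_mem' := fun {g k} hg hk v => by rw [map_mul, Module.End.mul_apply, ← hg, ← hk]
      inv_mem' := fun {g} hg v => by
        rw [hg (ρ g⁻¹ v), ← Module.End.mul_apply (ρ g), ← map_mul, mul_inv_cancel, map_one]; rfl }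
  have hK : K ≤ L0 := by
    refine h.max K (fun v => ?_) (fun o ho v => by rw [hO ho]; rfl) fun e => ?_
    · have : ρ a v = v + X v := by simp [hX]
      rw [this, map_add, hX2, add_zero]
    · rcases hi (LinearMap.ker X) (fun g u hu => ((e.symm ▸ mem_top g : g ∈ K) u).1 hu) with h5 | h5
      · have k1 : X v0 = 0 := by
          rw [← Submodule.mem_bot (ZMod p), ← h5]; exact hX2 v0
        exact hv0 (by rw [← Submodule.mem_bot (ZMod p), ← h5]; exact k1)
      · have k1 : ∀ v, X v = 0 := fun v => (h5.symm ▸ Submodule.mem_top : v ∈ LinearMap.ker X)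
        have := hZ' v0
        rw [k1, k1, map_zero, add_zero, eq_comm, smul_eq_zero] at this
        exact this.elim hn0 hv0
  have hK2 : ∀ l, l ≠ 0 → wt l * wt (-1) ∈ L0 := by
    intro l hl
    refine hK fun v => ?_
    have k : X (Y (X v)) = n • X v := by
      have := hZ' (X v)
      rwa [hX2, map_zero, add_zero] at this
    rw [hh l hl, map_add, map_smul, map_smul, hX2, k, smul_zero, zero_add, smul_smul, smul_eq_zero]
    have : l⁻¹ * n⁻¹ * n ≠ 0 := by simp [hl, hn0]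
    tauto
  refine ⟨fun g hg => hN (mem_sup_right hg), ⟨_, hK2 (-1) (by simp), fun v => ?_⟩, fun l hl => ⟨_, hK2 l hl, ?_⟩⟩
  · rw [hh _ (by simp), inv_neg_one, ← smul_add, hZ', smul_smul]
    simp [hn0]
  · intro y hy
    have k0 : X y = 0 := by simp [hX, hy]
    have k1 : X (Y y) = n • y := by
      have := hZ' y
      rwa [k0, map_zero, add_zero] at this
    refine ⟨n⁻¹ • Y y, ?_, ?_, ?_⟩
    · have : ∀ v, ρ a v = v + X v := fun v => by simp [hX]
      rw [this, map_smul, k1, smul_smul]; simp [hn0]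
    · rw [hh l hl, k0, k1, smul_smul]; simp [hn0]
    · rw [hh l hl]
      simp only [map_smul, hY2, map_zero, k1, smul_zero, zero_add, smul_smul]
      congr 1
      field_simp

open Cfsg.Agent.H20 Cfsg.Agent.H21 in
theorem LH.sylow (h : LH p L0 O a) : ∃ S, SylowOf p S ⊤ ∧ a ∈ S ∧ S ≤ L0 := by
  haveI := h.nO
  obtain ⟨k, hk⟩ := h.pa
  have h1 : IsPGroup p (zpowers a) := by
    rintro ⟨_, n, rfl⟩
    exact ⟨k, Subtype.ext (by
      show (a ^ n) ^ p ^ k = 1
      rw [← _root_.zpow_natCast, ← _root_.zpow_mul, mul_comm, _root_.zpow_mul, _root_.zpow_natCast, hk,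
        _root_.one_zpow])⟩
  obtain ⟨S, hS, h2⟩ := exists_sylowOf_ge (H21.isPGroup_sup h1 h.pO (Or.inl le_normalizer_of_normal)) le_top
  have h3 : a ∈ S := h2 (mem_sup_left (mem_zpowers a))
  refine ⟨S, hS, h3, h.max S h3 (le_sup_right.trans h2) ?_⟩
  rintro rfl
  exact h.np (hS.isPGroup.of_equiv topEquiv)

/-- A natural `SL₂(p)`-plane modulo an invariant subspace, seen by the Borel subgroup. -/
def Con (ρ : L →* Module.End (ZMod p) W) (L0 : Subgroup L) (a : L) (Y : Submodule (ZMod p) W) (l : ZMod p) : Prop :=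
  ∃ U : Submodule (ZMod p) W, (∀ g, ∀ u ∈ U, ρ g u ∈ U) ∧ ∃ t ∈ L0, ∃ y ∈ Y, y ∉ U ∧ ∃ w,
    ρ a y - y ∈ U ∧ ρ a w - w - y ∈ U ∧ ρ t y - l • y ∈ U ∧ ρ t w - l⁻¹ • w ∈ U

open Cfsg.Agent.H20 Cfsg.Agent.H21 in
theorem LH.main [Finite W] (h : LH p L0 O a) (hp2 : p ≠ 2) {ρ : L →* Module.End (ZMod p) W} (ha : Quad ρ a)
    {Y : Submodule (ZMod p) W} (hY : ∀ g ∈ L0, ∀ y ∈ Y, ρ g y ∈ Y) (hn : ¬ ∀ g, ∀ y ∈ Y, ρ g y ∈ Y)
    {l : ZMod p} (hl : l ≠ 0) : Con ρ L0 a Y l := by
  by_contra hc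
  haveI : Finite (Submodule (ZMod p) W) := Finite.of_injective _ SetLike.coe_injective
  obtain ⟨S, hS, haS, hSL⟩ := h.sylow
  have app : ∀ g k v, ρ (g * k) v = ρ g (ρ k v) := fun g k v => by rw [map_mul]; rfl
  have key : ∀ U : Submodule (ZMod p) W, (∀ g, ∀ u ∈ U, ρ g u ∈ U) → ∀ e : L, (orderOf e).Coprime p →
      ∀ y ∈ Y, ρ e y - y ∈ U := by
    intro U
    induction U using WellFoundedGT.induction with
    | ind U ih =>
    intro hU e he y hy
    by_cases hT : U = ⊤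
    · exact hT ▸ Submodule.mem_top
    obtain ⟨N, ⟨hN, hUN⟩, hmin⟩ := wellFounded_lt.has_min
      {N : Submodule (ZMod p) W | (∀ g, ∀ u ∈ N, ρ g u ∈ N) ∧ U < N} ⟨⊤, fun _ _ _ => trivial, Ne.lt_top hT⟩
    have IH := ih N hUN hN
    let U' := U.comap N.subtype
    let σ : L →* Module.End (ZMod p) (N ⧸ U') :=
      Representation.quotient (Representation.subrepresentation ρ N fun g u hu => hN g u hu) U'
        fun g u hu => hU g u hu
    have hσ : ∀ g (n : N), σ g (U'.mkQ n) = U'.mkQ ⟨ρ g n, hN g n n.2⟩ := fun g n => rfl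
    have hπ : ∀ n m : N, U'.mkQ n = U'.mkQ m ↔ (n : W) - m ∈ U := fun n m => Submodule.Quotient.eq _
    haveI : Finite (N ⧸ U') := Finite.of_surjective _ U'.mkQ_surjective
    have one : ∀ g, σ g = 1 → ∀ n ∈ N, ρ g n - n ∈ U := fun g hg n hn =>
      (hπ ⟨ρ g n, hN g n hn⟩ ⟨n, hn⟩).1 (by rw [← hσ g ⟨n, hn⟩, hg]; rfl)
    have hd := IH e he y hy
    by_cases hnt : ∀ g : L, (orderOf g).Coprime p → σ g = 1
    · have k1 : ∀ k : ℕ, ρ (e ^ k) y - y - (k : ZMod p) • (ρ e y - y) ∈ U := by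
        intro k
        induction k with
        | zero => simp
        | succ k ihk =>
          have k2 := add_mem (hU e _ ihk) (U.smul_mem (k : ZMod p) (one e (hnt e he) _ hd))
          rw [pow_succ', app]
          convert k2 using 1
          simp only [map_sub, map_smul, Nat.cast_succ]
          module
      have k2 := k1 (orderOf e)
      rw [pow_orderOf_eq_one, map_one, Module.End.one_apply, sub_self, zero_sub, neg_mem_iff] at k2
      refine (U.smul_mem_iff ?_).1 k2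
      rw [Ne, ZMod.natCast_eq_zero_iff]
      exact (hp.out.coprime_iff_not_dvd).1 he.symm
    push Not at hnt
    obtain ⟨g0, hg0, hg1⟩ := hnt
    have hi : Irr σ := by
      intro M hM
      have k1 : U ≤ (M.comap U'.mkQ).map N.subtype := fun u hu => ⟨⟨u, hUN.le hu⟩, by
        have : U'.mkQ ⟨u, hUN.le hu⟩ = 0 := (Submodule.Quotient.mk_eq_zero _).2 hu
        show U'.mkQ _ ∈ M
        rw [this]; exact zero_mem _, rfl⟩
      rcases k1.eq_or_lt with k2 | k2
      · refine Or.inl (eq_bot_iff.2 fun m hm => ?_)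
        obtain ⟨n, rfl⟩ := U'.mkQ_surjective m
        exact (Submodule.Quotient.mk_eq_zero _).2 (show (n : W) ∈ U from k2 ▸ ⟨n, hm, rfl⟩)
      · refine Or.inr (eq_top_iff.2 fun m _ => ?_)
        obtain ⟨n, rfl⟩ := U'.mkQ_surjective m
        have k3 : (M.comap U'.mkQ).map N.subtype = N := by
          refine ((Submodule.map_subtype_le _ _).eq_or_lt).resolve_right (hmin _ ⟨?_, k2⟩)
          rintro g _ ⟨n, hn, rfl⟩
          exact ⟨⟨ρ g n, hN g n n.2⟩, hM g _ hn, rfl⟩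
        obtain ⟨n', hn', e⟩ := k3.ge n.2
        rwa [← (Subtype.ext e : n' = n)]
    have hq : Quad σ a := by
      refine LinearMap.ext fun m => ?_
      obtain ⟨n, rfl⟩ := U'.mkQ_surjective m
      have k1 : ρ a (ρ a n - n) - (ρ a n - n) = 0 := LinearMap.congr_fun ha n
      simp only [Module.End.mul_apply, LinearMap.sub_apply, Module.End.one_apply, hσ, ← map_sub, LinearMap.zero_apply]
      rw [← map_zero U'.mkQ]
      congr 1
      exact Subtype.ext k1
    obtain ⟨h1, ⟨z, hz, h2⟩, h3⟩ := h.irr hp2 hi hq ⟨g0, fun k hk => hg1 (by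
      rw [map_pow] at hk
      have k1 : σ g0 ^ orderOf g0 = 1 := by rw [← map_pow, pow_orderOf_eq_one, map_one]
      have := pow_gcd_eq_one.2 ⟨k1, hk⟩
      rwa [hg0.pow_right k, pow_one] at this)⟩
    have hYN : ∀ y ∈ Y, y ∈ N → y ∈ U := by
      intro y hy hyN
      by_contra hyU
      obtain ⟨t, ht, h4⟩ := h3 l hl
      obtain ⟨y, hy, hyN, hyU, h5⟩ : ∃ y ∈ Y, y ∈ N ∧ y ∉ U ∧ ρ a y - y ∈ U := by
        by_cases h5 : ρ a y - y ∈ U
        · exact ⟨y, hy, hyN, hyU, h5⟩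
        · refine ⟨_, sub_mem (hY a (hSL haS) y hy) hy, sub_mem (hN a y hyN) hyN, h5, ?_⟩
          have k1 : ρ a (ρ a y - y) - (ρ a y - y) = 0 := LinearMap.congr_fun ha y
          rw [k1]; exact zero_mem _
      obtain ⟨w, w1, w2, w3⟩ := h4 (U'.mkQ ⟨y, hyN⟩) (by rw [hσ, hπ]; exact h5)
      obtain ⟨w, rfl⟩ := U'.mkQ_surjective w
      rw [hσ, ← map_add, hπ] at w1
      rw [hσ, ← map_smul, hπ] at w2 w3
      exact hc ⟨U, hU, t, ht, y, hy, hyU, w, h5, by rw [sub_sub]; exact w1, w2, w3⟩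
    obtain ⟨k, hk⟩ := exists_pow_coprime (p := p) z
    have hz' : ∀ v, σ (z ^ p ^ k) v = -v := by
      obtain ⟨j, hj⟩ : Odd (p ^ k) := (hp.out.odd_of_ne_two hp2).pow
      have : σ (z ^ 2) = 1 := LinearMap.ext fun v => by
        rw [sq, map_mul, Module.End.mul_apply, h2, h2, neg_neg]; rfl
      intro v
      rw [hj, pow_succ, pow_mul, map_mul, map_pow, this, one_pow, one_mul, h2]
    set z' := z ^ p ^ k
    have hzL : z' ∈ L0 := pow_mem hz _
    have F1 : ∀ g g', (∀ y ∈ Y, ρ g y - y ∈ N) → (∀ y ∈ Y, ρ g' y - y ∈ N) → ∀ y ∈ Y, ρ (g * g') y - y ∈ N := by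
      intro g g' k1 k2 y hy
      have := add_mem (hN g _ (k2 y hy)) (k1 y hy)
      rwa [map_sub, sub_add_sub_cancel, ← app] at this
    have hc1 : σ (z' * e * z'⁻¹ * e⁻¹) = 1 := by
      have : σ (z' * e) = σ (e * z') := LinearMap.ext fun v => by
        rw [map_mul, map_mul, Module.End.mul_apply, Module.End.mul_apply, hz', hz', map_neg]
      rw [map_mul, map_mul, this, ← map_mul, ← map_mul]; simp
    set c := z' * e * z'⁻¹ * e⁻¹ with hcd
    have k1 : ρ c y - y ∈ U := hYN _ (sub_mem (hY c (h1 c hc1) y hy) hy)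
      (F1 _ _ (F1 _ _ (F1 _ _ (IH z' hk) (IH e he)) (IH _ (by rwa [orderOf_inv]))) (IH _ (by rwa [orderOf_inv])) y hy)
    have k2 : ρ z' y - y ∈ U := hYN _ (sub_mem (hY z' hzL y hy) hy) (IH z' hk y hy)
    have k3 : ρ z' (ρ e y - y) + (ρ e y - y) ∈ U := by
      have := (hπ ⟨ρ z' _, hN z' _ hd⟩ (-⟨_, hd⟩)).1 (by rw [← hσ z' ⟨_, hd⟩, hz', map_neg])
      rwa [Submodule.coe_neg, sub_neg_eq_add] at this
    have k4 := one c hc1 _ hd
    have k5 := hU c _ (hU e _ k2)
    have k6 : ρ c (ρ e (ρ z' y)) = ρ z' (ρ e y) := by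
      rw [← app, ← app, ← app, hcd]; congr 2; group
    have k7 : (2 : ZMod p) • (ρ e y - y) ∈ U := by
      have := sub_mem (add_mem k3 k2) (add_mem (add_mem k5 k4) k1)
      convert this using 1
      simp only [map_sub, k6]
      module
    refine (U.smul_mem_iff fun h2 => hp2 ?_).1 k7
    exact (Nat.prime_dvd_prime_iff_eq hp.out Nat.prime_two).mp
      ((CharP.cast_eq_zero_iff (ZMod p) p 2).mp (by simpa using h2))
  let K : Subgroup L :=
    { carrier := {g | ∀ v, v ∈ Y ↔ ρ g v ∈ Y}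
      one_mem' := fun v => by simp
      mul_mem' := fun {g k} hg hk v => by rw [app, ← hg, ← hk]
      inv_mem' := fun {g} hg v => by rw [hg (ρ g⁻¹ v), ← app, mul_inv_cancel, map_one]; rfl }
  have hK : ∀ A : Subgroup L, (∀ g ∈ A, ∀ y ∈ Y, ρ g y ∈ Y) → A ≤ K := fun A hA g hg v =>
    ⟨hA g hg v, fun hv => by simpa [← app] using hA _ (inv_mem hg) _ hv⟩
  have hK2 : K = ⊤ := eq_of_forall_sylow le_top fun q hq _ => by
    by_cases hqp : q = p
    · subst hqp
      exact ⟨S, hS, hSL.trans (hK L0 hY)⟩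
    · haveI := Fact.mk hq
      obtain ⟨R, hR⟩ := exists_sylowOf q (⊤ : Subgroup L)
      refine ⟨R, hR, hK R fun g hg y hy => ?_⟩
      obtain ⟨k, hk⟩ := hR.isPGroup ⟨g, hg⟩
      have := key ⊥ (fun g u hu => by rw [(Submodule.mem_bot _).1 hu, map_zero]; exact zero_mem _) g
        (Nat.Coprime.coprime_dvd_left (orderOf_dvd_of_pow_eq_one (congrArg Subtype.val hk))
          (((Nat.coprime_primes hq hp.out).2 hqp).pow_left k)) y hy
      rw [Submodule.mem_bot, sub_eq_zero] at this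
      rwa [this]
  exact hn fun g y hy => ((hK2.symm ▸ mem_top g : g ∈ K) y).1 hy

end Cfsg.Agent.H25.Gl
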