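/-
Sections isomorphic to `F(p)` and subgroups of order `p` with full automizer.
-/
import Cfsg.Agent.H25.Gl1
import Cfsg.Agent.H9.Involves

set_option autoImplicit false
set_option linter.style.haveILetI false

namespace Cfsg.Agent.H25.Gl

open Subgroup Cfsg.Agent.H9 Matrix
open scoped MatrixGroups commutatorElement

variable {p : ℕ} [hp : Fact p.Prime] {G : Type*} [Group G] [Finite G]

theorem mem_fOver {M : SL(3, ZMod p)} (h : M ∈ fOver (ZMod p)) : (M : Matrix (Fin 3) (Fin 3) (ZMod p)) 1 0 = 0 ∧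
    (M : Matrix (Fin 3) (Fin 3) (ZMod p)) 2 0 = 0 ∧
    (M : Matrix (Fin 3) (Fin 3) (ZMod p)) 2 1 = 0 ∧ (M : Matrix (Fin 3) (Fin 3) (ZMod p)) 2 2 = 1 := by
  let K : Submonoid SL(3, ZMod p) :=
    { carrier := {M | (M : Matrix (Fin 3) (Fin 3) (ZMod p)) 1 0 = 0 ∧ (M : Matrix (Fin 3) (Fin 3) (ZMod p)) 2 0 = 0 ∧
        (M : Matrix (Fin 3) (Fin 3) (ZMod p)) 2 1 = 0 ∧ (M : Matrix (Fin 3) (Fin 3) (ZMod p)) 2 2 = 1}
      one_mem' := by simp
      mul_mem' := fun {x y} hx hy => by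
        simp only [Set.mem_setOf_eq] at hx hy ⊢
        simp [Matrix.mul_apply, Fin.sum_univ_three, hx, hy] }
  show M ∈ K
  induction h using closure_induction with
  | mem x hx => exact hx
  | one => exact one_mem _
  | mul x y _ _ hx hy => exact mul_mem hx hy
  | inv x _ hx => exact Submonoid.powers_le.2 hx (mem_powers_iff_mem_zpowers.2 (inv_mem (mem_zpowers x)))

/-- diagonal matrices -/
def dMat (u : (ZMod p)ˣ) : SL(2, ZMod p) := ⟨!![(u : ZMod p), 0; 0, (u : ZMod p)⁻¹], by simp [det_fin_two, -ZMod.inv_coe_unit]⟩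

theorem dMat_mul (u v : (ZMod p)ˣ) : dMat (u * v) = dMat u * dMat v := by
  apply sl2_ext <;> rw [sl2_mul_apply] <;> simp [dMat, mul_comm, -ZMod.inv_coe_unit]

theorem borel_mem (hp2 : p ≠ 2) (K : Subgroup SL(2, ZMod p)) {u : (ZMod p)ˣ} (hu : ∀ v, v ∈ zpowers u)
    (h1 : uMat 1 ∈ K) (h2 : dMat u ∈ K) (M : SL(2, ZMod p)) (hM : M 1 0 = 0) : M ∈ K := by
  let d : (ZMod p)ˣ →* SL(2, ZMod p) := MonoidHom.mk' dMat dMat_mul
  have hd : ∀ v, dMat v ∈ K := fun v => by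
    obtain ⟨k, rfl⟩ := hu v
    show d (u ^ k) ∈ K
    rw [map_zpow]; exact zpow_mem h2 k
  have hU : ∀ m : ZMod p, uMat m ∈ K := fun m => by
    have := pow_mem h1 m.val
    rwa [uMat_pow, ZMod.natCast_zmod_val, mul_one] at this
  have det := M.2
  rw [det_fin_two] at det
  have d' : M 0 0 * M 1 1 = 1 := by
    have : M 0 0 * M 1 1 - M 0 1 * M 1 0 = 1 := det
    rwa [hM, mul_zero, sub_zero] at this
  have h0 : M 0 0 ≠ 0 := left_ne_zero_of_mul_eq_one d'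
  have : M = uMat (M 0 1 * M 0 0) * dMat (Units.mk0 _ h0) := by
    have h11 : M 1 1 = (M 0 0)⁻¹ := eq_inv_of_mul_eq_one_right d'
    apply sl2_ext <;> rw [sl2_mul_apply] <;> simp [dMat, hM, h11, h0, -ZMod.inv_coe_unit]
  rw [this]; exact mul_mem (hU _) (hd _)

theorem involves_fOver (hp2 : p ≠ 2) (H : Subgroup G) (R : Subgroup (G × Multiplicative (Fin 2 → ZMod p)))
    (h0 : ∀ x ∈ R, x.1 ∈ H) (h1 : ∀ c, ∃ b, (b, c) ∈ R) (h2 : ∀ c, (1, c) ∈ R → c = 1)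
    (h3 : ∀ x ∈ R, ∃ k, x.1 ^ p ^ k = 1) {a h : G} (haH : a ∈ H) (hhH : h ∈ H) {u : (ZMod p)ˣ} (hu : ∀ v, v ∈ zpowers u)
    (ha : ∀ b c, (b, Multiplicative.ofAdd c) ∈ R → (a * b * a⁻¹, Multiplicative.ofAdd ![c 0 + c 1, c 1]) ∈ R)
    (hh : ∀ b c, (b, Multiplicative.ofAdd c) ∈ R →
      (h * b * h⁻¹, Multiplicative.ofAdd ![u * c 0, (u : ZMod p)⁻¹ * c 1]) ∈ R) :
    Involves (fOver (ZMod p)) H := by
  have two : (2 : ZMod p) ≠ 0 := fun h => hp2 ((Nat.prime_dvd_prime_iff_eq hp.out Nat.prime_two).mp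
      ((CharP.cast_eq_zero_iff (ZMod p) p 2).mp (by simpa using h)))
  let D0 : Submonoid (G × SL(2, ZMod p)) :=
    { carrier := {x | x.1 ∈ H ∧ x.2 1 0 = 0 ∧ ∀ b c, (b, Multiplicative.ofAdd c) ∈ R →
        (x.1 * b * x.1⁻¹, Multiplicative.ofAdd ((x.2 : Matrix (Fin 2) (Fin 2) (ZMod p)) *ᵥ c)) ∈ R}
      one_mem' := ⟨one_mem _, by simp, fun b c hb => by simpa using hb⟩
      mul_mem' := fun {x y} hx hy => ⟨mul_mem hx.1 hy.1, by
        show (x.2 * y.2) 1 0 = 0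
        rw [sl2_mul_apply, hx.2.1, hy.2.1]; simp, fun b c hb => by
        have := hx.2.2 _ _ (hy.2.2 b c hb)
        rw [mulVec_mulVec] at this
        convert this using 2
        · simp only [Prod.fst_mul]; group
        · rfl⟩ }
  let D : Subgroup (G × SL(2, ZMod p)) :=
    { D0 with inv_mem' := fun {x} hx =>
        (Submonoid.powers_le (P := D0)).2 hx (mem_powers_iff_mem_zpowers.2 (inv_mem (mem_zpowers x))) }
  let ψ : D →* SL(2, ZMod p) := (MonoidHom.snd _ _).comp D.subtype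
  have hψ : ∀ M : SL(2, ZMod p), M 1 0 = 0 → M ∈ ψ.range := borel_mem hp2 _ hu
    ⟨⟨(a, uMat 1), haH, rfl, fun b c hb => by
      convert ha b c hb using 3
      ext i; fin_cases i <;> simp [mulVec, dotProduct, Fin.sum_univ_two]⟩, rfl⟩
    ⟨⟨(h, dMat u), hhH, rfl, fun b c hb => by
      convert hh b c hb using 3
      ext i; fin_cases i <;> simp [dMat, mulVec, dotProduct, Fin.sum_univ_two, -ZMod.inv_coe_unit]⟩, rfl⟩
  let Z₀ : Subgroup SL(2, ZMod p) := zpowers (-1)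
  have hZ₀ : Z₀.Normal := ⟨by
    rintro _ ⟨k, rfl⟩ g
    have : Commute g ((-1 : SL(2, ZMod p)) ^ k) :=
      Commute.zpow_right (sl2_neg_one_mul_comm g) k
    show g * (-1) ^ k * g⁻¹ ∈ Z₀
    rw [this.eq, mul_inv_cancel_right]; exact ⟨k, rfl⟩⟩
  have hZ₀2 : IsPGroup 2 Z₀ := isPGroup_of_isEA (isEA_zpowers (by simp))
  obtain ⟨T, hT⟩ := H3.exists_sylowIn 2 (Z₀.comap ψ)
  have hTψ : T.map ψ = Z₀ := by
    have := hT.map ψ
    rw [map_comap_eq, inf_eq_right.2 (zpowers_le.2 (hψ _ (by simp)))] at this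
    exact (this.eq_of_le hZ₀2 le_rfl this.le).symm
  obtain ⟨t, ht, ht'⟩ : (-1 : SL(2, ZMod p)) ∈ T.map ψ := by rw [hTψ]; exact mem_zpowers _
  let N := normalizer (T : Set D)
  let e2 : Multiplicative (Fin 2 → ZMod p) →* fOver (ZMod p) :=
    MonoidHom.mk' (fun c => ⟨qdT c.toAdd, subset_closure ⟨rfl, rfl, rfl, rfl⟩⟩) fun _ _ => Subtype.ext (qdT_add _ _)
  let j2 : D →* fOver (ZMod p) :=
    MonoidHom.mk' (fun c => ⟨qdL (ψ c), subset_closure ⟨c.2.2.1, rfl, rfl, rfl⟩⟩) fun _ _ =>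
      Subtype.ext (by simp only [map_mul]; exact qdL_mul _ _)
  refine involves_of_semidirect (A := R) (N := N)
    (fun n c => ⟨_, n.1.2.2.2 c.1.1 c.1.2.toAdd c.2⟩)
    (((MonoidHom.fst _ _).comp R.subtype).codRestrict H fun x => h0 _ x.2)
    ((((MonoidHom.fst _ _).comp D.subtype).codRestrict H fun x => x.2.1).comp N.subtype)
    (e2.comp ((MonoidHom.snd _ _).comp R.subtype)) (j2.comp N.subtype) (fun n c => rfl)
    (fun n c => ?_) (fun x => ?_) (fun c n hcn => ?_)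
  · rw [mul_inv_eq_iff_eq_mul]
    exact Subtype.ext (qdL_mul_qdT _ _)
  · obtain ⟨k0, k1, k2, k3⟩ := mem_fOver x.2
    obtain ⟨c, A, e⟩ := exists_qd_eq ⟨x.1, mem_qd_iff.2 ⟨k1, k2, k3⟩⟩
    have e' : x.1 = qdT c.toAdd * qdL A := congrArg Subtype.val e
    have hA : A 1 0 = 0 := by
      rw [e'] at k0
      simpa [coe_qdT, coe_qdL, Matrix.mul_apply, Fin.sum_univ_three] using k0
    obtain ⟨g, rfl⟩ := hψ A hA
    obtain ⟨z, hz, m, hm, rfl⟩ := hT.frattini (g := g) (by rw [normalizer_eq_top]; trivial)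
    obtain ⟨s, hs, hs'⟩ : ψ z ∈ T.map ψ := by rw [hTψ]; exact hz
    obtain ⟨b, hb⟩ := h1 c
    refine ⟨⟨_, hb⟩, ⟨s * m, N.mul_mem (le_normalizer hs) hm⟩, Subtype.ext ?_⟩
    rw [e', map_mul, ← hs', ← map_mul]; rfl
  · obtain ⟨⟨b, c⟩, hb⟩ := c
    have hn : (n : D).1.1 = b⁻¹ := eq_inv_of_mul_eq_one_right (congrArg Subtype.val hcn)
    have uniq : ∀ g c c', (g, c) ∈ R → (g, c') ∈ R → c = c' := fun g c c' k1 k2 => by
      have := mul_mem k1 (inv_mem k2)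
      rw [Prod.inv_mk, Prod.mk_mul_mk, mul_inv_cancel] at this
      exact mul_inv_eq_one.1 (h2 _ this)
    have hψn : ψ n = 1 := by
      apply Subtype.ext
      ext i j
      obtain ⟨b', hb'⟩ := h1 (Multiplicative.ofAdd (Pi.single j 1))
      have k1 := (n : D).2.2.2 _ _ hb'
      have k2 := mul_mem (mul_mem (inv_mem hb) hb') hb
      rw [Prod.inv_mk, Prod.mk_mul_mk, Prod.mk_mul_mk, mul_comm c⁻¹, inv_mul_cancel_right] at k2
      rw [hn, inv_inv] at k1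
      have := congrFun (Multiplicative.ofAdd.injective (uniq _ _ _ k1 k2)) i
      show (n : D).1.2 i j = _
      simpa [Matrix.one_apply, Pi.single_apply] using this
    have hc : c = 1 := by
      have k1 : (n : D) * t * (n : D)⁻¹ * t⁻¹ ∈ T :=
        T.mul_mem (conj_mem_of_mem_normalizer n.2 ht) (T.inv_mem ht)
      obtain ⟨k, hk⟩ := hT.isPGroup ⟨_, k1⟩
      have hk' : (b⁻¹ * (t.1.1 * b * t.1.1⁻¹)) ^ 2 ^ k = 1 := by
        have := congrArg (fun x : T => x.1.1.1) hk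
        simpa [hn, mul_assoc] using this
      have k2 := mul_mem (inv_mem hb) (t.2.2.2 b c.toAdd hb)
      rw [Prod.inv_mk, Prod.mk_mul_mk] at k2
      obtain ⟨m, hm⟩ := h3 _ k2
      have k3 := pow_gcd_eq_one.2 ⟨hk', hm⟩
      rw [(Nat.coprime_primes Nat.prime_two hp.out).2 hp2.symm |>.pow _ _, pow_one] at k3
      rw [k3, show t.1.2 = -1 from ht'] at k2
      have k4 := congrArg Multiplicative.toAdd (h2 _ k2)
      apply Multiplicative.toAdd.injective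
      ext i
      have := congrFun k4 i
      simp [Matrix.neg_mulVec] at this
      rw [← neg_add, ← two_mul] at this
      simpa [two] using this
    apply Subtype.ext
    show qdT c.toAdd * qdL (ψ n) = 1
    rw [hc, hψn]
    ext i j
    fin_cases i <;> fin_cases j <;> simp [coe_qdT, coe_qdL, Matrix.mul_apply, Fin.sum_univ_three]

theorem exists_full (H Y : Subgroup G) (hY : ∀ y ∈ Y, ∀ z ∈ Y, y * z = z * y)
    (R : Subgroup (G × Multiplicative (Fin 2 → ZMod p))) (h2 : ∀ c, (1, c) ∈ R → c = 1)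
    (h3 : IsPGroup p Y) {h : G} (hhH : h ∈ H) (hhY : ∀ y ∈ Y, h * y * h⁻¹ ∈ Y) {u : (ZMod p)ˣ} (hu : ∀ v, v ∈ zpowers u)
    (hh : ∀ b c, (b, Multiplicative.ofAdd c) ∈ R →
      (h * b * h⁻¹, Multiplicative.ofAdd ![u * c 0, (u : ZMod p)⁻¹ * c 1]) ∈ R)
    {y : G} (hy : y ∈ Y) (hyR : (y, Multiplicative.ofAdd ![1, 0]) ∈ R) :
    ∃ C : Subgroup G, C ≤ Y ∧ Nat.card C = p ∧
      (H ⊓ centralizer (C : Set G)).relIndex (H ⊓ normalizer (C : Set G)) = p - 1 := by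
  set κ := (u : ZMod p).val with hκ
  let f : G → G := fun v => h * v * h⁻¹ * (v ^ κ)⁻¹
  have hf : ∀ v, ∀ c : ZMod p, (v, Multiplicative.ofAdd ![c, 0]) ∈ R → (f v, 1) ∈ R := fun v c hv => by
    have := mul_mem (hh _ _ hv) (inv_mem (pow_mem hv κ))
    rw [Prod.pow_mk, Prod.inv_mk, Prod.mk_mul_mk] at this
    convert this using 2
    apply Multiplicative.toAdd.injective
    ext i; fin_cases i <;> simp [hκ, -ZMod.inv_coe_unit]
  have fY : ∀ v ∈ Y, f v ∈ Y := fun v hv => mul_mem (hhY v hv) (inv_mem (pow_mem hv κ))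
  obtain ⟨c, hcY, hc1, hc⟩ : ∃ c ∈ Y, c ≠ 1 ∧ h * c * h⁻¹ = c ^ κ := by
    by_contra hc
    push Not at hc
    have inj : ∀ v ∈ Y, ∀ w ∈ Y, f v = f w → v = w := fun v hv w hw e => by
      by_contra hne
      refine hc (w⁻¹ * v) (mul_mem (inv_mem hw) hv) (fun e => hne (inv_mul_eq_one.1 e).symm) ?_
      have c1 : Commute w⁻¹ v := hY _ (inv_mem hw) _ hv
      have e1 : h * v * h⁻¹ = h * w * h⁻¹ * (w ^ κ)⁻¹ * v ^ κ := eq_mul_of_mul_inv_eq e
      rw [c1.mul_pow, show h * (w⁻¹ * v) * h⁻¹ = (h * w * h⁻¹)⁻¹ * (h * v * h⁻¹) by group, e1]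
      group
    let F : {v // v ∈ Y ∧ (v, 1) ∈ R} → {v // v ∈ Y ∧ (v, 1) ∈ R} := fun v =>
      ⟨f v, fY _ v.2.1, hf v 0 (by convert v.2.2; ext i; fin_cases i <;> rfl)⟩
    have hF : Function.Injective F := fun v w e => Subtype.ext (inj _ v.2.1 _ w.2.1 (congrArg Subtype.val e))
    obtain ⟨v, e⟩ := Finite.surjective_of_injective hF ⟨f y, fY y hy, hf y 1 hyR⟩
    have e1 : (v : G) = y := inj _ v.2.1 _ hy (congrArg Subtype.val e)
    have := mul_mem (inv_mem v.2.2) hyR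
    rw [e1, Prod.inv_mk, Prod.mk_mul_mk, inv_mul_cancel, inv_one, one_mul] at this
    simpa using congrFun (congrArg Multiplicative.toAdd (h2 _ this)) 0
  obtain ⟨d, hdY, hd, hd'⟩ : ∃ d ∈ Y, orderOf d = p ∧ h * d * h⁻¹ = d ^ κ := by
    obtain ⟨k, hk⟩ := (IsPGroup.iff_orderOf.1 h3) ⟨c, hcY⟩
    rw [orderOf_mk] at hk
    obtain _ | k := k
    · exact absurd (orderOf_eq_one_iff.1 hk) hc1
    refine ⟨c ^ p ^ k, pow_mem hcY _, ?_, ?_⟩
    · rw [orderOf_pow_of_dvd (pow_pos hp.out.pos k).ne' (hk ▸ pow_dvd_pow p (Nat.le_succ k)), hk, pow_succ,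
        Nat.mul_div_cancel_left _ (pow_pos hp.out.pos k)]
    · rw [← conj_pow, hc, ← pow_mul, ← pow_mul, mul_comm]
  have hcard : Nat.card (zpowers d) = p := by rw [Nat.card_zpowers, hd]
  refine ⟨zpowers d, zpowers_le.2 hdY, hcard, ?_⟩
  let φ : (H ⊓ normalizer (zpowers d : Set G) : Subgroup G) →* MulAut (zpowers d) :=
    (zpowers d).normalizerMonoidHom.comp (inclusion inf_le_right)
  have hker : (H ⊓ centralizer (zpowers d : Set G)).subgroupOf (H ⊓ normalizer (zpowers d : Set G)) = φ.ker := by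
    ext x
    rw [mem_subgroupOf, MonoidHom.mem_ker, MonoidHom.comp_apply, ← MonoidHom.mem_ker, normalizerMonoidHom_ker,
      mem_subgroupOf]
    exact ⟨fun k => k.2, fun k => ⟨x.2.1, k⟩⟩
  rw [relIndex, hker, index_ker]
  have hA : Nat.card (MulAut (zpowers d)) = p - 1 := by
    rw [IsCyclic.card_mulAut, hcard, Nat.totient_prime hp.out]
  refine Nat.dvd_antisymm (hA ▸ card_subgroup_dvd_card _) ?_
  have hN : h ∈ normalizer (zpowers d : Set G) := by
    refine mem_normalizer_fintype ?_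
    rintro _ ⟨k, rfl⟩
    show h * d ^ k * h⁻¹ ∈ zpowers d
    rw [← conj_zpow, hd']; exact zpow_mem (pow_mem (mem_zpowers d) _) _
  let h' : (H ⊓ normalizer (zpowers d : Set G) : Subgroup G) := ⟨h, mem_inf.2 ⟨hhH, hN⟩⟩
  refine Dvd.dvd.trans ?_ (Subgroup.orderOf_dvd_natCard φ.range ⟨h', rfl⟩)
  set n := orderOf (φ h')
  have k1 : ∀ m : ℕ, h ^ m * d * (h ^ m)⁻¹ = d ^ κ ^ m := by
    intro m
    induction m with
    | zero => simp
    | succ m ih =>
      rw [pow_succ' h, show h * h ^ m * d * (h * h ^ m)⁻¹ = h * (h ^ m * d * (h ^ m)⁻¹) * h⁻¹ by group, ih, ← conj_pow, hd',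
        ← pow_mul, pow_succ']
  have k2 : h ^ n * d * (h ^ n)⁻¹ = d := by
    have : φ (h' ^ n) = 1 := by rw [map_pow, pow_orderOf_eq_one]
    exact congrArg (fun α : MulAut (zpowers d) => (α ⟨d, mem_zpowers d⟩ : G)) this
  rw [k1] at k2
  have k3 : κ ^ n ≡ 1 [MOD p] := by rw [← hd, ← pow_eq_pow_iff_modEq, k2, pow_one]
  have k4 : u ^ n = 1 := by
    apply Units.ext
    have := (ZMod.natCast_eq_natCast_iff _ _ _).2 k3
    simpa [hκ] using this
  have := orderOf_dvd_of_pow_eq_one k4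
  rwa [orderOf_eq_card_of_forall_mem_zpowers hu, Nat.card_eq_fintype_card, ZMod.card_units] at this

end Cfsg.Agent.H25.Gl
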