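/-
Failure of control of strong fusion: a critical subgroup.
-/
import Cfsg.Agent.H21.Base5

set_option autoImplicit false
set_option linter.style.haveILetI false

namespace Cfsg.Agent.H25.Gl

open Subgroup Cfsg.Agent.H20 Cfsg.Agent.H21

variable {G : Type*} [Group G] {p : ℕ} {H S Q R : Subgroup G}

/-- conjugation by `g` on `R` is induced by an element of `H` -/
def Ctl (H : Subgroup G) (g : G) (R : Subgroup G) : Prop := ∃ h ∈ H, ∀ r ∈ R, h * r * h⁻¹ = g * r * g⁻¹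

theorem Ctl.mono {g : G} (h : Ctl H g R) (hQ : Q ≤ R) : Ctl H g Q :=
  let ⟨k, hk, e⟩ := h; ⟨k, hk, fun r hr => e r (hQ hr)⟩

theorem Ctl.of_mem {g : G} (h : g ∈ H) (R : Subgroup G) : Ctl H g R := ⟨g, h, fun _ _ => rfl⟩

theorem Ctl.of_cent {g : G} (h : g ∈ C⟦R⟧) : Ctl H g R :=
  ⟨1, one_mem _, fun r hr => by rw [← mem_cent.1 h r hr]; group⟩

theorem Ctl.mul {g g' : G} (h : Ctl H g R) (h' : Ctl H g' (cj g R)) : Ctl H (g' * g) R := by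
  obtain ⟨k, hk, e⟩ := h
  obtain ⟨k', hk', e'⟩ := h'
  refine ⟨k' * k, mul_mem hk' hk, fun r hr => ?_⟩
  have := e' _ (conj_mem_cj.2 hr)
  rw [show k' * k * r * (k' * k)⁻¹ = k' * (k * r * k⁻¹) * k'⁻¹ by group, e r hr, this]; group

theorem Ctl.inv {g : G} (h : Ctl H g R) : Ctl H g⁻¹ (cj g R) := by
  obtain ⟨k, hk, e⟩ := h
  refine ⟨k⁻¹, inv_mem hk, fun r hr => ?_⟩
  obtain ⟨r, hr', rfl⟩ := mem_cj'.1 hr
  rw [show g⁻¹ * (g * r * g⁻¹) * g⁻¹⁻¹ = r by group, ← e r hr']; group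

/-- the elements of `N(Q)` acting on `Q` as elements of `H` -/
def ctlGp (H Q : Subgroup G) : Subgroup G where
  carrier := {x | x ∈ N⟦Q⟧ ∧ Ctl H x Q}
  one_mem' := ⟨one_mem _, .of_mem (one_mem _) _⟩
  mul_mem' := fun {x y} hx hy => ⟨mul_mem hx.1 hy.1, hy.2.mul (by rw [cj_eq_of_mem_norm hy.1]; exact hx.2)⟩
  inv_mem' := fun {x} hx => ⟨inv_mem hx.1, by have := hx.2.inv; rwa [cj_eq_of_mem_norm hx.1] at this⟩

variable [Finite G] [hp : Fact p.Prime]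

theorem Ctl.norm_inf {Z B D : Subgroup G} {x : G} (hH : H ≤ N⟦Z⟧) (h : Ctl H x D) (hx : x ∈ N⟦B⟧) (hB : B ≤ D) :
    x ∈ N⟦Z ⊓ B⟧ := by
  obtain ⟨k, hk, e⟩ := h
  refine mem_norm_of_forall fun y hy => ⟨?_, conj_mem_of_norm hx hy.2⟩
  rw [← e y (hB hy.2)]; exact conj_mem_of_norm (hH hk) hy.1

theorem exists_fn (hS : SylowOf p S ⊤) (hR : R ≤ S) : ∃ k, cj k (S ⊓ N⟦R⟧) ≤ S ⊓ N⟦cj k R⟧ ∧
    SylowOf p (S ⊓ N⟦cj k R⟧) N⟦cj k R⟧ := by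
  obtain ⟨P, hP, h1⟩ := exists_sylowOf_ge (hS.isPGroup.to_le (inf_le_left : S ⊓ N⟦R⟧ ≤ S)) inf_le_right
  obtain ⟨k, -, hk⟩ := hS.exists_cj_le hP.isPGroup le_top
  have h2 := hP.cj k
  rw [cj_norm] at h2
  have h3 := h2.pgroup_eq_of_le (hS.isPGroup.to_le (inf_le_left : S ⊓ N⟦cj k R⟧ ≤ S)) (le_inf hk h2.le) inf_le_right
  exact ⟨k, h3 ▸ cj_mono k h1, h3 ▸ h2⟩

theorem ctl_all (hS : SylowOf p S ⊤) (hH : N⟦S⟧ ≤ H) (m : ℕ)
    (hno : ∀ Q ≤ S, SylowOf p (S ⊓ N⟦Q⟧) N⟦Q⟧ → m ≤ ♯Q → ∀ x ∈ N⟦Q⟧, Ctl H x Q) :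
    ∀ R ≤ S, m ≤ ♯R → ∀ g, cj g R ≤ S → Ctl H g R := by
  intro R
  induction hn : ♯S - ♯R using Nat.strong_induction_on generalizing R with
  | _ n ih =>
  intro hR hm g hg
  rcases hR.eq_or_lt with rfl | hlt
  · exact .of_mem (hH (mem_norm_of_cj_le hg)) _
  have key : ∀ R' : Subgroup G, R' ≤ S → ♯R' = ♯R → ∀ k, cj k (S ⊓ N⟦R'⟧) ≤ S → Ctl H k R' := by
    intro R' h1 h2 k hk
    have h3 : R' < S := lt_of_le_of_ne h1 fun e => (card_lt hlt).ne (by rw [← h2, e])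
    have h4 := lt_inf_norm_of_isPGroup hS.isPGroup h3
    have h5 := card_lt h4
    have h6 := card_le (inf_le_left : S ⊓ N⟦R'⟧ ≤ S)
    exact (ih _ (by omega) _ rfl inf_le_left (by omega) k hk).mono h4.le
  obtain ⟨k, h1, h2⟩ := exists_fn hS hR
  have h3 : cj k R ≤ S := (cj_mono k (le_inf hR (le_norm_self R))).trans (h1.trans inf_le_left)
  obtain ⟨n, hn1, hn2⟩ := h2.exists_cj_le (Q := cj (k * g⁻¹) (S ⊓ N⟦cj g R⟧))
    (H21.isPGroup_cj.2 (hS.isPGroup.to_le inf_le_left)) (by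
      refine (cj_mono _ inf_le_right).trans ?_
      rw [cj_norm, cj_mul, cj_inv_cj])
  rw [← cj_mul] at hn2
  have c1 := key R hR rfl k (h1.trans inf_le_left)
  have c2 := c1.mul (hno _ h3 h2 (by rwa [card_cj]) n hn1)
  have c3 := (key _ hg (card_cj _ _) _ (hn2.trans inf_le_left)).inv
  rw [← cj_mul, show n * (k * g⁻¹) * g = n * k by group] at c3
  have := c2.mul c3
  rwa [show (n * (k * g⁻¹))⁻¹ * (n * k) = g by group] at this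

/-- A critical subgroup for the failure of control of strong fusion by `H`. -/
structure Crit (p : ℕ) (S H Q : Subgroup G) : Prop where
  le : Q ≤ S
  syl : SylowOf p (S ⊓ N⟦Q⟧) N⟦Q⟧
  bad : ∃ x ∈ N⟦Q⟧, ¬ Ctl H x Q
  lt : Q < S ⊓ N⟦Q⟧
  good : ∀ R ≤ S, S ⊓ N⟦Q⟧ ≤ N⟦R⟧ → (Q < R ∨ ¬ S ⊓ N⟦R⟧ ≤ N⟦Q⟧) → ∀ x ∈ N⟦R⟧, Ctl H x R

theorem exists_crit (hS : SylowOf p S ⊤) (hH : N⟦S⟧ ≤ H) (hR : R ≤ S) {g : G} (hg : cj g R ≤ S) (hc : ¬ Ctl H g R) :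
    ∃ Q, Crit p S H Q := by
  let Bad : Set (Subgroup G) := {Q | Q ≤ S ∧ SylowOf p (S ⊓ N⟦Q⟧) N⟦Q⟧ ∧ ∃ x ∈ N⟦Q⟧, ¬ Ctl H x Q}
  have hne : Bad.Nonempty := by
    by_contra h
    refine hc (ctl_all hS hH 0 (fun Q h1 h2 _ x hx => ?_) R hR (Nat.zero_le _) g hg)
    by_contra h3
    exact h ⟨Q, h1, h2, x, hx, h3⟩
  obtain ⟨Q, hQ, hmax⟩ := Set.exists_max_image Bad (fun Q => toLex (♯(S ⊓ N⟦Q⟧), ♯Q)) (Set.toFinite _) hne
  have lt : ∀ Q ∈ Bad, Q < S ⊓ N⟦Q⟧ := by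
    rintro Q ⟨h1, -, x, hx, h2⟩
    refine lt_inf_norm_of_isPGroup hS.isPGroup (lt_of_le_of_ne h1 ?_)
    rintro rfl
    exact h2 (.of_mem (hH hx) _)
  have all := ctl_all hS hH ♯(S ⊓ N⟦Q⟧) fun Q' h1 h2 h3 x hx => by
    by_contra h4
    have h5 := card_lt (lt Q' ⟨h1, h2, x, hx, h4⟩)
    have := hmax Q' ⟨h1, h2, x, hx, h4⟩
    rw [Prod.Lex.toLex_le_toLex] at this
    simp only at this
    omega
  refine ⟨Q, hQ.1, hQ.2.1, hQ.2.2, lt Q hQ, fun R hR h1 h2 x hx => ?_⟩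
  obtain ⟨k, k1, k2⟩ := exists_fn hS hR
  have k3 : R ≤ S ⊓ N⟦R⟧ := le_inf hR (le_norm_self R)
  have k4 : S ⊓ N⟦Q⟧ ≤ S ⊓ N⟦R⟧ := le_inf inf_le_left h1
  have c1 := (all _ inf_le_left (card_le k4) k (k1.trans inf_le_left)).mono k3
  have c2 : Ctl H (k * x * k⁻¹) (cj k R) := by
    by_contra h4
    have := hmax (cj k R) ⟨(cj_mono k k3).trans (k1.trans inf_le_left), k2, _, by
      rw [← cj_norm]; exact conj_mem_cj.2 hx, h4⟩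
    rw [Prod.Lex.toLex_le_toLex] at this
    simp only [card_cj] at this
    have k5 := card_le k1
    rw [card_cj] at k5
    have k6 := card_le k4
    rcases h2 with h2 | h2
    · have := card_lt h2
      omega
    · have := card_lt (lt_of_le_of_ne k4 fun e => h2 (e ▸ inf_le_right))
      omega
  have c3 := c1.inv
  have c4 := c1.mul c2
  rw [show cj k R = cj (k * x * k⁻¹ * k) R by rw [inv_mul_cancel_right, cj_mul, cj_eq_of_mem_norm hx]] at c3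
  have := c4.mul c3
  rwa [show k⁻¹ * (k * x * k⁻¹ * k) = x by group] at this

end Cfsg.Agent.H25.Gl
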