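/-
Coprime action of an elementary abelian group of order `q²` with abelian centralizers (Martineau's method).
-/
import Cfsg.Agent.H25.Comp7
import Cfsg.Agent.H9.NPC
import Cfsg.Agent.S0021

set_option autoImplicit false
set_option linter.style.haveILetI false

namespace Cfsg.Agent.H25

open Subgroup Cfsg.Agent.H20 Cfsg.Agent.H21 Cfsg.Agent.BG

universe u

variable {G : Type*} [Group G] [Finite G] {A B K L M N P R S U V W X Y : Subgroup G} {p q r : ℕ} {π : Set ℕ}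

theorem hall_quo' (h : IsPiHallOf π S M) (hn : M ≤ N⟦N⟧) : IsPiHallOf π (quo S N) (quo M N) :=
  Hall.mk (quo_mono N h.le) (isPi_quo h.isPi N) (h.piNat.of_dvd (relIndex_quo_dvd h.le hn))

theorem hall_normal_of_lcs {E : Subgroup G} {n : ℕ} (hn : N.lowerCentralSeries n ≤ fittingOf N) (hE : E ⊴ N)
    (hS : IsPiHallOf π S E) (h1 : piCoreOf π (fittingOf N) ≤ E) (h2 : S ≤ C⟦piCoreOf πᶜ (fittingOf N)⟧) : S ⊴ N := by
  have hF := fittingOf_normalIn N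
  have hq := (quo_nilpotent_iff hF.norm).2 ⟨n, hn⟩
  have h3 := hall_quo' hS (hE.le.trans hF.norm)
  have h4 : S ⊔ fittingOf N ⊴ N := (quo_normalIn_iff' hF (hS.le.trans hE.le)).1
    (h3.normalIn_trans (hall_normalIn_of_nil (nil_of_le hq (quo_mono _ hE.le)) h3) (hE.quo _))
  have h5 : piCoreOf π (fittingOf N) ≤ S :=
    hS.normalIn_le (isPi_piCoreOf _ _) ((piCoreOf_normalIn_of π hF).of_le h1 hE.le)
  have h6 : S ⊔ fittingOf N = S ⊔ piCoreOf πᶜ (fittingOf N) := by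
    conv_lhs => rw [← piCoreOf_sup_compl_of_nil π (nil_fittingOf N), ← sup_assoc, sup_eq_left.2 h5]
  rw [h6] at h4
  have h7 := norm_of_cent (cent_symm h2)
  exact (Hall.of_sup_left hS.isPi (isPi_piCoreOf _ _) (.inr h7)).normalIn_trans (NormalIn.sup_left h7) h4

theorem exists_not_mem_two (h1 : X < A) (h2 : Y < A) : ∃ a ∈ A, a ∉ X ∧ a ∉ Y := by
  obtain ⟨x, hx, hx'⟩ := SetLike.exists_of_lt h1
  obtain ⟨y, hy, hy'⟩ := SetLike.exists_of_lt h2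
  by_cases a : x ∈ Y
  · by_cases b : y ∈ X
    · exact ⟨x * y, mul_mem hx hy, fun h => hx' ((mul_mem_cancel_right b).1 h), fun h => hy' ((mul_mem_cancel_left a).1 h)⟩
    · exact ⟨y, hy, b, hy'⟩
  · exact ⟨x, hx, hx', a⟩

/-- basic hypothesis -/
structure Hy (q : ℕ) (K A : Subgroup G) : Prop where
  elem : IsElementaryAbelian q A
  card : ♯A = q ^ 2
  norm : A ≤ N⟦K⟧
  cop : (♯K).Coprime (♯A)
  ab : ∀ X ≤ A, ♯X = q → IsMulCommutative ↥(K ⊓ C⟦X⟧)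

/-- minimal counterexample -/
structure Mt (q : ℕ) (K A : Subgroup G) : Prop extends Hy q K A where
  fpf : K ⊓ C⟦A⟧ = ⊥
  sol : ∀ L < K, A ≤ N⟦L⟧ → Group.IsSolvable L
  simp : ∀ N, N ⊴ K → A ≤ N⟦N⟧ → N = ⊥ ∨ N = K
  nsol : ¬Group.IsSolvable K

variable [hq : Fact q.Prime]

namespace Hy

theorem card_zpowers (h : Hy q K A) {a : G} (ha : a ∈ A) (h1 : a ≠ 1) : ♯(zpowers a) = q := by
  rw [Nat.card_zpowers]; exact orderOf_eq_prime (h.elem.2 a ha) h1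

theorem lt (h : Hy q K A) (hX : X ≤ A) (hc : ♯X = q) : X < A := hX.lt_of_ne fun e => by
  have := h.card
  rw [← e, hc] at this
  have := hq.out.one_lt
  nlinarith

theorem ncyc (h : Hy q K A) : ¬IsCyclic A := fun hc => by
  have := Nat.le_of_dvd hq.out.pos (card_dvd_of_elem_cyclic h.elem hc)
  have := hq.out.one_lt
  rw [h.card] at *
  nlinarith

theorem gen (h : Hy q K A) (hL : L ≤ K) (hn : A ≤ N⟦L⟧) (H : ∀ X ≤ A, ♯X = q → L ⊓ C⟦X⟧ ≤ M) : L ≤ M :=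
  coprime_abelian_gen_cent1 h.elem.1 h.ncyc hn (coprime_of_le_left h.cop hL) fun a ha h1 => by
    rw [← cent_zpowers]; exact H _ (zpowers_le.2 ha) (h.card_zpowers ha h1)

theorem third (h : Hy q K A) (hX : X ≤ A) (hc : ♯X = q) (hY : Y ≤ A) (hd : ♯Y = q) :
    ∃ Z ≤ A, ♯Z = q ∧ Z ≠ X ∧ Z ≠ Y := by
  obtain ⟨a, ha, h1, h2⟩ := exists_not_mem_two (h.lt hX hc) (h.lt hY hd)
  exact ⟨zpowers a, zpowers_le.2 ha, h.card_zpowers ha fun e => h1 (e ▸ one_mem _),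
    fun e => h1 (e ▸ mem_zpowers a), fun e => h2 (e ▸ mem_zpowers a)⟩

theorem sup_eq (h : Hy q K A) (hX : X ≤ A) (hc : ♯X = q) (hY : Y ≤ A) (hd : ♯Y = q) (hne : X ≠ Y) : X ⊔ Y = A := by
  refine eq_of_le_card (sup_le hX hY) ?_
  have h1 : X ⊓ Y = ⊥ := (prime_inf_eq_bot_or_le (hc ▸ hq.out)).resolve_right fun e =>
    hne (eq_of_le_card e (by rw [hc, hd]))
  rw [card_sup_of_disjoint (.inl (le_norm_of_comm h.elem.1 hX hY)) h1, hc, hd, h.card, pow_two]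

omit hq [Finite G] in
theorem ncent (h : Hy q K A) (hX : X ≤ A) (hn : A ≤ N⟦L⟧) : A ≤ N⟦L ⊓ C⟦X⟧⟧ :=
  norm_inf_cent hn (le_norm_of_comm h.elem.1 le_rfl hX)

omit hq [Finite G] in
theorem cc (h : Hy q K A) (hX : X ≤ A) (hc : ♯X = q) (hL : L ≤ K) (hM : M ≤ K) : L ⊓ C⟦X⟧ ≤ C⟦M ⊓ C⟦X⟧⟧ :=
  le_cent_of_comm (h.ab X hX hc) (inf_le_inf_right _ hL) (inf_le_inf_right _ hM)

theorem solA (h : Hy q K A) : Group.IsSolvable A := sol_of_comm h.elem.1

end Hy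

namespace Mt

theorem loc (h : Mt q K A) (hU : U ≤ K) (hn : A ≤ N⟦U⟧) (h1 : U ≠ ⊥) (hs : Group.IsSolvable U) :
    Group.IsSolvable ↥(K ⊓ N⟦U⟧) :=
  h.sol _ (inf_lt_left.2 fun e => h.nsol (((h.simp U ⟨hU, e⟩ hn).resolve_left h1) ▸ hs)) (norm_inf_norm h.norm hn)

theorem fpf' (h : Mt q K A) (hL : L ≤ K) : L ⊓ C⟦A⟧ = ⊥ := eq_bot_iff.2 (h.fpf ▸ inf_le_inf_right _ hL)

/-- the module lemma -/
theorem ml (h : Mt q K A) (hB : B ≤ K) (hAB : A ≤ N⟦B⟧) (hV : V ≤ K) (hAV : A ≤ N⟦V⟧) (hs : Group.IsSolvable V)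
    (hn : B ≤ N⟦V⟧) (hcop : (♯V).Coprime (♯B)) (hX : X ≤ A) (hc : ♯X = q) (hY : Y ≤ A) (hd : ♯Y = q) (hne : X ≠ Y)
    (hBX : B ≤ C⟦X⟧) (H : V ⊓ C⟦Y⟧ ≤ C⟦B⟧) : B ≤ C⟦V⟧ := by
  by_cases h0 : B = ⊥
  · rw [h0]; exact bot_le
  have hreg : Semiregular B Y := semiregular_prime (hd ▸ hq.out) (eq_bot_iff.2 (by
    rw [← h.fpf' hB, ← h.sup_eq hX hc hY hd hne, cent_sup]
    exact le_inf inf_le_left (le_inf (inf_le_left.trans hBX) inf_le_right)))
  have := (Frobenius_Wielandt_fixpoint (frob_mk (hY.trans hAB) h0 (ne_bot_of_card_prime (hd ▸ hq.out)) hreg)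
    (sup_le hn (hY.trans hAV)) (coprime_sup_right hcop (coprime_of_le h.cop hV hY) (.inr (hY.trans hAB))) hs).1
  rw [cent_sup, show V ⊓ (C⟦B⟧ ⊓ C⟦Y⟧) = V ⊓ C⟦Y⟧ from
    le_antisymm (inf_le_inf_left _ inf_le_right) (le_inf inf_le_left (le_inf H inf_le_right))] at this
  have := Nat.eq_of_mul_eq_mul_left (pow_pos (card_pos _) _) this
  exact cent_symm ((eq_of_le_card inf_le_left this.le).ge.trans inf_le_right)

theorem le_syl [Fact p.Prime] (h : Mt q K A) (hP : SylowOf p P K) (hAP : A ≤ N⟦P⟧) (hU : U ≤ K) (hAU : A ≤ N⟦U⟧)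
    (hp : IsPGroup p U) : U ≤ P := by
  obtain ⟨Q, h1, h2, h3⟩ := exists_inv_sylow_ge h.norm h.cop (.inl h.solA) hp hU hAU
  obtain ⟨c, hc, e⟩ := inv_sylow_exists_cj_eq h.norm h.cop (.inl h.solA) h1 h2 hP hAP
  rw [h.fpf, mem_bot] at hc
  rwa [← e, hc, cj_one]

theorem syl_inf [Fact p.Prime] (h : Mt q K A) (hP : SylowOf p P K) (hAP : A ≤ N⟦P⟧) (hL : L ≤ K) (hAL : A ≤ N⟦L⟧) :
    SylowOf p (L ⊓ P) L := by
  obtain ⟨Q, h1, h2⟩ := exists_inv_sylow p hAL (coprime_of_le_left h.cop hL) (.inl h.solA)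
  exact h1.of_ge inf_le_left (hP.isPi.inf_right _) (le_inf h1.le (h.le_syl hP hAP (h1.le.trans hL) h2 h1.isPGroup))

theorem pi_sup (h : Mt q K A) (hL : L ≤ K) (hAL : A ≤ N⟦L⟧) (hs : Group.IsSolvable L) (hV : V ≤ L) (hAV : A ≤ N⟦V⟧)
    (h1 : IsPi π V) (hW : W ≤ L) (hAW : A ≤ N⟦W⟧) (h2 : IsPi π W) : IsPi π (V ⊔ W) := by
  have hc := coprime_of_le_left h.cop hL
  obtain ⟨H, a1, a2, a3⟩ := exists_inv_hall_ge hAL hc hs h1 hV hAV
  obtain ⟨H', b1, b2, b3⟩ := exists_inv_hall_ge hAL hc hs h2 hW hAW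
  obtain ⟨c, hc, e⟩ := inv_hall_exists_cj_eq hAL hc hs a1 a2 b1 b2
  rw [h.fpf' hL, mem_bot] at hc
  rw [hc, cj_one] at e
  exact a1.isPi.of_le (sup_le a3 (e ▸ b3))

theorem ward (h : Mt q K A) (hL : L ≤ K) (hAL : A ≤ N⟦L⟧) (hs : Group.IsSolvable L) :
    ∃ n, L.lowerCentralSeries n ≤ fittingOf L := ward_le_fitting hs h.elem h.card.dvd hAL (h.fpf' hL)

theorem le_core [Fact p.Prime] (h : Mt q K A) (hL : L ≤ K) (hAL : A ≤ N⟦L⟧) (hs : Group.IsSolvable L) (hU : U ≤ L)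
    (hp : IsPGroup p U) (hc : U ≤ C⟦piCoreOf {p}ᶜ L⟧) : U ≤ piCoreOf {p} L := by
  obtain ⟨n, hn⟩ := h.ward hL hAL hs
  obtain ⟨S, hS, hUS⟩ := exists_sylowOf_ge hp (le_inf hU hc)
  refine hUS.trans (le_piCoreOf (hall_normal_of_lcs hn (piCoreOf_normalIn _ L).cent hS ?_ ?_) hS.isPi)
  · rw [pCoreOf_fittingOf]; exact le_inf (piCoreOf_le _ _) (piCoreOf_cent_compl _ _)
  · exact (hS.le.trans inf_le_right).trans (cent_anti (piCoreOf_le_of_normalIn (fittingOf_normalIn L)))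

end Mt

/-- `P` has nontrivial fixed points for all lines but one. -/
def BigL (q : ℕ) (A P : Subgroup G) : Prop := ∃ X₀ ≤ A, ♯X₀ = q ∧ ∀ X ≤ A, ♯X = q → X ≠ X₀ → P ⊓ C⟦X⟧ ≠ ⊥

namespace Mt

theorem big_of (h : Mt q K A) (hB : B ≤ K) (hAB : A ≤ N⟦B⟧) (hP : P ≤ K) (hV : V ≤ P) (hAV : A ≤ N⟦V⟧)
    (hs : Group.IsSolvable V) (hn : B ≤ N⟦V⟧) (hcop : (♯V).Coprime (♯B)) (H : ¬B ≤ C⟦V⟧) : BigL q A P := by
  by_contra hb
  refine H (h.gen hB hAB fun X hX hc => ?_)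
  simp only [BigL, not_exists, not_and, not_forall, not_not] at hb
  obtain ⟨Y, hY, hd, hne, e⟩ := hb X hX hc
  refine h.ml (inf_le_left.trans hB) (h.ncent hX hAB) (hV.trans hP) hAV hs (inf_le_left.trans hn)
    (coprime_of_le_right hcop inf_le_left) hX hc hY hd (Ne.symm hne) inf_le_right ?_
  exact ((inf_le_inf_right _ hV).trans e.le).trans bot_le

theorem not_pnil [Fact p.Prime] (h : Mt q K A) (hP : SylowOf p P K) (h1 : P ≠ ⊥) :
    ¬IsPiHallOf {p}ᶜ (piCoreOf {p}ᶜ K) K := fun H => by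
  rcases h.simp _ (piCoreOf_normalIn {p}ᶜ K) (norm_piCoreOf _ h.norm) with e | e
  · refine h.nsol (sol_of_pgroup (p := p) (IsPi.isPGroup ?_))
    simpa using H.eq_bot_iff.1 e
  · exact h1 (hP.eq_bot_iff.2 (e ▸ isPi_piCoreOf _ _))

theorem big_of_not_pnil [Fact p.Prime] (h : Mt q K A) (hP : SylowOf p P K) (hAP : A ≤ N⟦P⟧) (hL : L ≤ K)
    (hAL : A ≤ N⟦L⟧) (hs : Group.IsSolvable L) (H : ¬IsPiHallOf {p}ᶜ (piCoreOf {p}ᶜ L) L) : BigL q A P := by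
  obtain ⟨D, hD, hAD⟩ := exists_inv_hall {p}ᶜ hAL (coprime_of_le_left h.cop hL) hs
  have hO := norm_piCoreOf {p} hAL
  refine h.big_of (hD.le.trans hL) hAD hP.le (h.le_syl hP hAP ((piCoreOf_le _ _).trans hL) hO (isPGroup_piCoreOf p L))
    hO (sol_of_le hs (piCoreOf_le _ _)) (hD.le.trans (piCoreOf_normalIn _ _).norm)
    ((isPi_piCoreOf _ _).coprime hD.isPi) fun hc => H ?_
  obtain ⟨n, hn⟩ := h.ward hL hAL hs
  exact hD.piCoreOf_hall (hall_normal_of_lcs hn (NormalIn.refl L) hD ((piCoreOf_le _ _).trans (fittingOf_le L))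
    (by rwa [compl_compl, pCoreOf_fittingOf]))

theorem big_odd [Fact p.Prime] (h : Mt q K A) (hP : SylowOf p P K) (hAP : A ≤ N⟦P⟧) (h1 : P ≠ ⊥) (hp : p ≠ 2) :
    BigL q A P := by
  have hZ : A ≤ N⟦centerThompsonOf p P⟧ := hAP.trans ((H9.normalizer_le_normalizer_thompsonOf p P).trans
    (H9.normalizer_thompsonOf_le_normalizer_center p P))
  have hZP := H9.centerThompsonOf_le p P
  refine h.big_of_not_pnil hP hAP inf_le_left (norm_inf_norm h.norm hZ) (h.loc (hZP.trans hP.le) hZ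
    (H9.centerThompsonOf_ne_bot dvd_rfl hP.isPGroup h1) (sol_of_comm (H9.centerThompsonOf_comm p P)))
    fun H => h.not_pnil hP h1 ?_
  obtain ⟨S, rfl⟩ := hP.exists_sylow
  rw [← hasNormalPComplement_iff] at H ⊢
  refine H9.npc_of_centerThompsonOf hp dvd_rfl S ?_
  rw [← H9.map_centerThompsonOf K.subtype_injective] at H
  have := (H3.hasNormalPComplement_subgroupOf_iff (K := K) inf_le_left).2 H
  rwa [inf_subgroupOf_left, ← H9.normalizer_subgroupOf (map_subtype_le _), subgroupOf_map_subtype_self] at this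

theorem big_comm [Fact p.Prime] (h : Mt q K A) (hP : SylowOf p P K) (hAP : A ≤ N⟦P⟧) (h1 : P ≠ ⊥)
    (hc : IsMulCommutative P) : BigL q A P := by
  have hL := norm_inf_norm h.norm hAP
  have hPL : SylowOf p P (K ⊓ N⟦P⟧) := hP.of_le (le_inf hP.le le_normalizer) inf_le_left
  refine h.big_of_not_pnil hP hAP inf_le_left hL (h.loc hP.le hAP h1 (sol_of_comm hc))
    fun H => h.not_pnil hP h1 (Burnside_normal_complement hP ?_)
  rw [← (hPL.isComplIn H).sup_eq]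
  exact sup_le (comm_iff_le_cent.1 hc) (cent_symm (cent_of_normalIn_isPi ⟨hPL.le, inf_le_right⟩
    (piCoreOf_normalIn _ _) hP.isPi (isPi_piCoreOf _ _)))

end Mt

/-- maximal invariant `π`-subgroups -/
def MxP (π : Set ℕ) (K A M : Subgroup G) : Prop := Maximal (fun M => M ≤ K ∧ A ≤ N⟦M⟧ ∧ IsPi π M) M

omit hq in
theorem exists_mxP (hW : W ≤ K) (hAW : A ≤ N⟦W⟧) (h : IsPi π W) : ∃ M, W ≤ M ∧ MxP π K A M :=
  Finite.exists_le_maximal (p := fun M => M ≤ K ∧ A ≤ N⟦M⟧ ∧ IsPi π M) ⟨hW, hAW, h⟩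

/-- two invariant Sylow subgroups which do not permute -/
structure NP (q p r : ℕ) (π : Set ℕ) (K A P R : Subgroup G) : Prop extends Mt q K A where
  ne : p ≠ r
  pi : π = {p, r}
  sp : SylowOf p P K
  ap : A ≤ N⟦P⟧
  sr : SylowOf r R K
  ar : A ≤ N⟦R⟧
  np : ¬IsPi π (P ⊔ R)

namespace NP

omit hq [Finite G] in
theorem symm (h : NP q p r π K A P R) : NP q r p π K A R P :=
  { h with ne := h.ne.symm, pi := h.pi.trans (Set.pair_comm p r), sp := h.sr, ap := h.ar, sr := h.sp, ar := h.ap,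
           np := sup_comm P R ▸ h.np }

omit hq [Finite G] in
theorem solP (h : NP q p r π K A P R) (hW : W ≤ K) (hAW : A ≤ N⟦W⟧) (hπ : IsPi π W) : Group.IsSolvable W :=
  h.sol W (hW.lt_of_ne fun e => h.np (hπ.of_le (e ▸ sup_le h.sp.le h.sr.le))) hAW

omit hq [Finite G] in
theorem pi1 (h : NP q p r π K A P R) (hW : IsPi {p} W) : IsPi π W := hW.mono (by simp [h.pi])

omit hq [Finite G] in
theorem cop' (h : NP q p r π K A P R) (hV : IsPi {p} V) (hW : IsPi {r} W) : (♯V).Coprime (♯W) :=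
  hV.coprime (hW.compl_singleton h.ne)

omit hq in
theorem core_eq (h : NP q p r π K A P R) (hW : IsPi π W) : piCoreOf {p}ᶜ W = piCoreOf {r} W :=
  piCoreOf_congr fun s hs hd => by
    have := hW.mem hs hd
    have := h.ne
    rw [h.pi] at *
    simp only [Set.mem_insert_iff, Set.mem_singleton_iff, Set.mem_compl_iff] at *
    omega

theorem hall_le (h : NP q p r π K A P R) (hM : MxP π K A M) (hU : U ≤ M) (hAU : A ≤ N⟦U⟧) (h1 : U ≠ ⊥)
    (hMU : M ≤ N⟦U⟧) (hW : W ≤ K) (hAW : A ≤ N⟦W⟧) (hπ : IsPi π W) (hWU : W ≤ N⟦U⟧) : W ≤ M := by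
  obtain ⟨a1, a2, a3⟩ := hM.prop
  exact le_sup_right.trans (hM.le_of_ge ⟨sup_le a1 hW, norm_sup a2 hAW, h.pi_sup inf_le_left (norm_inf_norm h.norm hAU)
    (h.loc (hU.trans a1) hAU h1 (sol_of_le (h.solP a1 a2 a3) hU)) (le_inf a1 hMU) a2 a3 (le_inf hW hWU) hAW hπ⟩ le_sup_left)

variable [Fact p.Prime] [Fact r.Prime]

theorem le_core (h : NP q p r π K A P R) (hL : L ≤ K) (hAL : A ≤ N⟦L⟧) (hπ : IsPi π L) (hU : U ≤ L)
    (hp : IsPi {p} U) (hc : U ≤ C⟦piCoreOf {r} L⟧) : U ≤ piCoreOf {p} L :=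
  h.toMt.le_core hL hAL (h.solP hL hAL hπ) hU hp.isPGroup (by rwa [h.core_eq hπ])

theorem step (h : NP q p r π K A P R) (hM : MxP π K A M) (hN : MxP π K A N) (h1 : piCoreOf {p} M ≠ ⊥)
    (h2 : piCoreOf {r} M ≠ ⊥) (z1 : piCoreOf {p} M ⊓ C⟦piCoreOf {p} M⟧ ≤ N) (z2 : piCoreOf {r} M ⊓ C⟦piCoreOf {r} M⟧ ≤ N) :
    piCoreOf {r} N ≤ M ∧ piCoreOf {p} N ≠ ⊥ := by
  obtain ⟨a1, a2, a3⟩ := hM.prop
  obtain ⟨b1, b2, b3⟩ := hN.prop
  have n1 := (piCoreOf_normalIn {p} M).center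
  have n2 := (piCoreOf_normalIn {r} M).center
  have m1 := norm_inf_cent (norm_piCoreOf {p} a2) (norm_piCoreOf {p} a2)
  have m2 := norm_inf_cent (norm_piCoreOf {r} a2) (norm_piCoreOf {r} a2)
  have e1 := center_ne_bot_of_nil (isPGroup_piCoreOf p M).isNilpotent h1
  have e2 := center_ne_bot_of_nil (isPGroup_piCoreOf r M).isNilpotent h2
  have p1 := (isPi_piCoreOf {p} M).inf_left C⟦piCoreOf {p} M⟧
  have p2 := (isPi_piCoreOf {r} M).inf_left C⟦piCoreOf {r} M⟧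
  generalize piCoreOf {p} M ⊓ C⟦piCoreOf {p} M⟧ = Z₁ at *
  generalize piCoreOf {r} M ⊓ C⟦piCoreOf {r} M⟧ = Z₂ at *
  have o := piCoreOf_normalIn {r} N
  have oa := norm_piCoreOf {r} b2
  have op := isPi_piCoreOf {r} N
  have w : piCoreOf {r} N ⊓ C⟦Z₂⟧ ≤ M := h.hall_le hM n2.le m2 e2 n2.norm (inf_le_left.trans (o.le.trans b1))
    (norm_inf_cent oa m2) (h.symm.pi1 (op.inf_left _)) (norm_of_cent inf_le_right)
  have c : Z₁ ≤ C⟦piCoreOf {r} N⟧ := coprime_pxq p2.isPGroup op.isPGroup ((p1.compl_singleton h.ne.symm).coprime_prime Fact.out)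
    (cent_of_coprime (n2.le.trans n1.norm) (n1.le.trans n2.norm) (h.cop' p1 p2).symm) (z2.trans o.norm) (z1.trans o.norm)
    (cent_of_coprime (w.trans n1.norm) (norm_inf_cent (z1.trans o.norm) (n1.le.trans n2.norm))
      (h.cop' p1 (op.inf_left _)).symm)
  exact ⟨h.hall_le hM n1.le m1 e1 n1.norm (o.le.trans b1) oa (h.symm.pi1 op) (norm_of_cent (cent_symm c)),
    fun e => e1 (eq_bot_iff.2 (e ▸ h.le_core b1 b2 b3 z1 p1 c))⟩

theorem bender (h : NP q p r π K A P R) (hM : MxP π K A M) (hN : MxP π K A N) (h1 : piCoreOf {p} M ≠ ⊥)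
    (h2 : piCoreOf {r} M ≠ ⊥) (z1 : piCoreOf {p} M ⊓ C⟦piCoreOf {p} M⟧ ≤ N) (z2 : piCoreOf {r} M ⊓ C⟦piCoreOf {r} M⟧ ≤ N) :
    N ≤ M := by
  obtain ⟨a1, a2⟩ := h.step hM hN h1 h2 z1 z2
  obtain ⟨b1, b2⟩ := h.symm.step hM hN h2 h1 z2 z1
  obtain ⟨c1, -⟩ := h.step hN hM a2 b2 (inf_le_left.trans b1) (inf_le_left.trans a1)
  obtain ⟨d1, -⟩ := h.symm.step hN hM b2 a2 (inf_le_left.trans a1) (inf_le_left.trans b1)
  have key : ∀ {M N : Subgroup G}, MxP π K A N → piCoreOf {p} M ≤ N → piCoreOf {r} N ≤ M →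
      piCoreOf {p} M ≤ piCoreOf {p} N := fun {M N} hN e1 e2 =>
    h.le_core hN.prop.1 hN.prop.2.1 hN.prop.2.2 e1 (isPi_piCoreOf _ _) (cent_of_coprime
      (e1.trans (piCoreOf_normalIn _ _).norm) (e2.trans (piCoreOf_normalIn _ _).norm)
      (h.cop' (isPi_piCoreOf _ _) (isPi_piCoreOf _ _)))
  refine h.hall_le hM (piCoreOf_le _ _) (norm_piCoreOf {p} hM.prop.2.1) h1 (piCoreOf_normalIn _ _).norm hN.prop.1
    hN.prop.2.1 hN.prop.2.2 ?_
  rw [le_antisymm (key hN d1 a1) (key hM b1 c1)]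
  exact (piCoreOf_normalIn _ _).norm

theorem norm_le (h : NP q p r π K A P R) (hM : MxP π K A M) (h1 : piCoreOf {p} M ≠ ⊥) (h2 : piCoreOf {r} M ≠ ⊥)
    (hU : U ≤ piCoreOf {p} M) (hAU : A ≤ N⟦U⟧) (h0 : U ≠ ⊥) (hW : W ≤ K) (hAW : A ≤ N⟦W⟧) (hπ : IsPi π W)
    (hWU : W ≤ N⟦U⟧) : W ≤ M := by
  obtain ⟨a1, a2, a3⟩ := hM.prop
  have m1 := norm_inf_cent (norm_piCoreOf {p} a2) (norm_piCoreOf {p} a2)
  have m2 := norm_inf_cent (norm_piCoreOf {r} a2) (norm_piCoreOf {r} a2)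
  have l1 : piCoreOf {p} M ⊓ C⟦piCoreOf {p} M⟧ ≤ M := inf_le_left.trans (piCoreOf_le _ _)
  have l2 : piCoreOf {r} M ⊓ C⟦piCoreOf {r} M⟧ ≤ M := inf_le_left.trans (piCoreOf_le _ _)
  have hUM := hU.trans (piCoreOf_le _ _)
  obtain ⟨N, hle, hN⟩ := exists_mxP (sup_le hW (sup_le (l1.trans a1) (l2.trans a1))) (norm_sup hAW (norm_sup m1 m2))
    (h.pi_sup inf_le_left (norm_inf_norm h.norm hAU) (h.loc (hUM.trans a1) hAU h0 (sol_of_le (h.solP a1 a2 a3) hUM))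
      (le_inf hW hWU) hAW hπ (le_inf (sup_le (l1.trans a1) (l2.trans a1)) (norm_of_cent (sup_le
        (inf_le_right.trans (cent_anti hU)) (inf_le_left.trans ((cent_of_coprime
          ((piCoreOf_le _ _).trans (piCoreOf_normalIn _ _).norm) ((piCoreOf_le _ _).trans (piCoreOf_normalIn _ _).norm)
          (h.cop' (isPi_piCoreOf _ _) (isPi_piCoreOf _ _)).symm).trans (cent_anti hU))))))
      (norm_sup m1 m2) (a3.of_le (sup_le l1 l2)))
  exact (le_sup_left.trans hle).trans (h.bender hM hN h1 h2 ((le_sup_left.trans le_sup_right).trans hle)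
    ((le_sup_right.trans le_sup_right).trans hle))

theorem le_of_mixed (h : NP q p r π K A P R) (hM : MxP π K A M) (h1 : piCoreOf {p} M ≠ ⊥) (h2 : piCoreOf {r} M ≠ ⊥) :
    P ≤ M := by
  obtain ⟨a1, a2, a3⟩ := hM.prop
  have o1 := piCoreOf_normalIn {p} M
  have o2 := piCoreOf_normalIn {r} M
  have oa1 := norm_piCoreOf {p} a2
  have oa2 := norm_piCoreOf {r} a2
  have hT := norm_inf a2 h.ap
  have hD := norm_inf_norm h.ap hT
  have tp : IsPi {p} (M ⊓ P) := h.sp.isPi.inf_right _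
  have key : P ⊓ N⟦M ⊓ P⟧ ≤ N⟦piCoreOf {p} M⟧ := h.gen (inf_le_left.trans h.sp.le) hD fun X hX hc => by
    have g := h.ncent hX h.ap
    have gp := h.pi1 (h.sp.isPi.inf_left C⟦X⟧)
    have gl : P ⊓ N⟦M ⊓ P⟧ ⊓ C⟦X⟧ ≤ P ⊓ C⟦X⟧ := inf_le_inf_right _ inf_le_left
    by_cases b1 : piCoreOf {p} M ⊓ C⟦X⟧ = ⊥
    · by_cases b2 : piCoreOf {r} M ⊓ C⟦X⟧ = ⊥
      · have e1 : M ⊓ P ≤ piCoreOf {p} M ⊔ M ⊓ P ⊓ C⟦X⟧ := h.gen (inf_le_left.trans a1) hT fun Y hY hd => by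
          by_cases e : Y = X
          · rw [e]; exact le_sup_right
          · refine (h.le_core a1 a2 a3 (inf_le_left.trans inf_le_left) (tp.inf_left _) ?_).trans le_sup_left
            exact h.ml ((inf_le_left.trans inf_le_left).trans a1) (h.ncent hY hT) (o2.le.trans a1) oa2
              (sol_of_pgroup (isPGroup_piCoreOf r M)) ((inf_le_left.trans inf_le_left).trans o2.norm)
              (h.cop' (tp.inf_left _) (isPi_piCoreOf _ _)).symm hY hd hX hc e inf_le_right (b2.le.trans bot_le)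
        have e2 : ⁅M ⊓ P, X⁆ = piCoreOf {p} M := by
          refine le_antisymm ((commutator_mono e1 le_rfl).trans (commg_sup_left_le le_normalizer
            ((inf_le_left.trans inf_le_left).trans o1.norm) (commg_le_left (hX.trans oa1))
            ((commg_eq_bot.2 inf_le_right).le.trans bot_le))) ?_
          have := coprime_commg_sup_cent (hX.trans oa1) (coprime_of_le h.cop (o1.le.trans a1) hX)
            (.inl (sol_of_le h.solA hX))
          rw [b1, sup_bot_eq] at this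
          rw [← this]
          exact commutator_mono (le_inf o1.le (h.le_syl h.sp h.ap (o1.le.trans a1) oa1 (isPGroup_piCoreOf p M))) le_rfl
        rw [← e2]
        exact norm_commutator (inf_le_left.trans inf_le_right) (norm_of_cent inf_le_right)
      · exact (gl.trans (h.symm.norm_le hM h2 h1 inf_le_left (h.ncent hX oa2) b2 (inf_le_left.trans h.sp.le) g gp
          (norm_of_cent (h.cc hX hc h.sp.le (o2.le.trans a1))))).trans o1.norm
    · exact (gl.trans (h.norm_le hM h1 h2 inf_le_left (h.ncent hX oa1) b1 (inf_le_left.trans h.sp.le) g gp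
        (norm_of_cent (h.cc hX hc h.sp.le (o1.le.trans a1))))).trans o1.norm
  have := eq_of_nilpotent_of_inf_norm_le h.sp.isPGroup.isNilpotent (inf_le_right : M ⊓ P ≤ P) (le_inf
    (h.hall_le hM o1.le oa1 h1 o1.norm (inf_le_left.trans h.sp.le) hD (h.pi1 (h.sp.isPi.inf_left _)) key) inf_le_left)
  exact this.ge.trans inf_le_left

omit hq [Fact p.Prime] [Fact r.Prime] [Finite G] in
theorem ne_bot (h : NP q p r π K A P R) : P ≠ ⊥ := fun e => h.np (by rw [e, bot_sup_eq]; exact h.symm.pi1 h.sr.isPi)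

theorem normal_of (h : NP q p r π K A P R) (hM : MxP π K A M) (h2 : piCoreOf {r} M = ⊥) : P ⊴ M := by
  obtain ⟨a1, a2, a3⟩ := hM.prop
  have o1 := piCoreOf_normalIn {p} M
  have oa1 := norm_piCoreOf {p} a2
  have h1 : piCoreOf {p} M ≠ ⊥ := fun e => by
    by_cases h0 : M = ⊥
    · exact h.ne_bot (eq_bot_iff.2 (h0 ▸ hM.le_of_ge ⟨h.sp.le, h.ap, h.pi1 h.sp.isPi⟩ (h0.le.trans bot_le)))
    · exact (piCoreOf_ne_bot_or {p} (h.solP a1 a2 a3) h0).elim (· e) fun e' => e' (by rwa [h.core_eq a3])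
  have l := h.le_syl h.sp h.ap (o1.le.trans a1) oa1 (isPGroup_piCoreOf p M)
  have hD := norm_inf_norm h.ap oa1
  rwa [← eq_of_nilpotent_of_inf_norm_le h.sp.isPGroup.isNilpotent l (h.le_core a1 a2 a3
    (h.hall_le hM o1.le oa1 h1 o1.norm (inf_le_left.trans h.sp.le) hD (h.pi1 (h.sp.isPi.inf_left _)) inf_le_right)
    (h.sp.isPi.inf_left _) (by rw [h2, cent_bot]; exact le_top))]

theorem dich' (h : NP q p r π K A P R) (hM : MxP π K A M) : piCoreOf {r} M = ⊥ ∨ piCoreOf {p} M = ⊥ := by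
  by_contra! H
  exact h.np (hM.prop.2.2.of_le (sup_le (h.le_of_mixed hM H.2 H.1) (h.symm.le_of_mixed hM H.1 H.2)))

theorem dich (h : NP q p r π K A P R) (hW : W ≤ K) (hAW : A ≤ N⟦W⟧) (hπ : IsPi π W) : W ≤ N⟦P⟧ ∨ W ≤ N⟦R⟧ := by
  obtain ⟨M, hle, hM⟩ := exists_mxP hW hAW hπ
  exact (h.dich' hM).imp (fun e => hle.trans (h.normal_of hM e).norm) fun e => hle.trans (h.symm.normal_of hM e).norm

theorem cent_eq (h : NP q p r π K A P R) : R ⊓ C⟦P⟧ = ⊥ := by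
  have hY := norm_inf_cent h.ar h.ap
  have yp := h.sr.isPi.inf_left C⟦P⟧
  obtain ⟨M, hle, hM⟩ := exists_mxP (sup_le h.sp.le (inf_le_left.trans h.sr.le)) (norm_sup h.ap hY)
    ((h.pi1 h.sp.isPi).sup (h.symm.pi1 yp) (.inr (norm_of_cent inf_le_right)))
  obtain ⟨a1, a2, a3⟩ := hM.prop
  rcases h.dich' hM with e | e
  · exact eq_bot_iff.2 (e ▸ h.symm.le_core a1 a2 a3 (le_sup_right.trans hle) yp (inf_le_right.trans (cent_anti
      (h.le_syl h.sp h.ap ((piCoreOf_le _ _).trans a1) (norm_piCoreOf _ a2) (isPGroup_piCoreOf p M)))))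
  · exact (h.np (a3.of_le (sup_le (le_sup_left.trans hle) (h.symm.normal_of hM e).le))).elim

theorem dich_line (h : NP q p r π K A P R) (hX : X ≤ A) (hc : ♯X = q) : R ⊓ C⟦X⟧ ≤ N⟦P⟧ ∨ P ⊓ C⟦X⟧ ≤ N⟦R⟧ :=
  (h.dich (sup_le (inf_le_left.trans h.sp.le) (inf_le_left.trans h.sr.le)) (norm_sup (h.ncent hX h.ap) (h.ncent hX h.ar))
    ((h.pi1 (h.sp.isPi.inf_left _)).sup (h.symm.pi1 (h.sr.isPi.inf_left _))
      (.inl (norm_of_cent (h.cc hX hc h.sp.le h.sr.le))))).imp le_sup_right.trans le_sup_left.trans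

theorem le_norm (h : NP q p r π K A P R) (hX : X ≤ A) (hc : ♯X = q) (hY : Y ≤ A) (hd : ♯Y = q) (hne : X ≠ Y)
    (H : R ⊓ N⟦P⟧ ⊓ C⟦X⟧ ≠ ⊥) : R ⊓ C⟦Y⟧ ≤ N⟦P⟧ := by
  refine (h.dich_line hY hd).resolve_right fun e => H (eq_bot_iff.2 ?_)
  have hB := h.ncent hX (norm_inf_norm h.ar h.ap)
  have l : R ⊓ N⟦P⟧ ⊓ C⟦X⟧ ≤ R := inf_le_left.trans inf_le_left
  have yp := h.sr.isPi.of_le l
  rw [← h.cent_eq]
  refine le_inf l (h.ml (l.trans h.sr.le) hB h.sp.le h.ap (sol_of_pgroup h.sp.isPGroup) (inf_le_left.trans inf_le_right)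
    (h.cop' h.sp.isPi yp) hX hc hY hd hne inf_le_right ?_)
  have : P ⊓ N⟦R⟧ ≤ C⟦R ⊓ N⟦P⟧⟧ := cent_of_coprime (norm_inf_norm inf_le_right (norm_of_le inf_le_left))
    (norm_inf_norm inf_le_right (norm_of_le inf_le_left)) (h.cop' (h.sp.isPi.inf_left _) (h.sr.isPi.inf_left _))
  exact ((le_inf inf_le_left e).trans this).trans (cent_anti inf_le_left)

theorem small (h : NP q p r π K A P R) (H : R ⊓ N⟦P⟧ ≠ ⊥) :
    ∃ X ≤ A, ♯X = q ∧ ∀ Y ≤ A, ♯Y = q → Y ≠ X → R ⊓ C⟦Y⟧ = ⊥ := by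
  obtain ⟨X, hX, hc, e⟩ : ∃ X ≤ A, ♯X = q ∧ R ⊓ N⟦P⟧ ⊓ C⟦X⟧ ≠ ⊥ := by
    by_contra! H'
    exact H (eq_bot_iff.2 (h.gen (inf_le_left.trans h.sr.le) (norm_inf_norm h.ar h.ap) fun X hX hc => (H' X hX hc).le))
  refine ⟨X, hX, hc, fun Y hY hd hne => by_contra fun e' => h.np ?_⟩
  have e1 : R ⊓ N⟦P⟧ ⊓ C⟦Y⟧ ≠ ⊥ := fun e1 => e' (eq_bot_iff.2 (e1 ▸ le_inf
    (le_inf inf_le_left (h.le_norm hX hc hY hd hne.symm e)) inf_le_right))
  refine (h.pi1 h.sp.isPi).sup (h.symm.pi1 h.sr.isPi) (.inr (h.gen h.sr.le h.ar fun Z hZ hz => ?_))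
  by_cases a : X = Z
  · exact h.le_norm hY hd hZ hz (a ▸ hne) e1
  · exact h.le_norm hX hc hZ hz a e

theorem false (h : NP q p r π K A P R) (hr : r ≠ 2) : False := by
  have key : ∀ {P : Subgroup G}, BigL q A P → ∀ X ≤ A, ♯X = q → ¬∀ Y ≤ A, ♯Y = q → Y ≠ X → P ⊓ C⟦Y⟧ = ⊥ :=
    fun ⟨X₀, a1, a2, a3⟩ X hX hc H => by
      obtain ⟨Z, b1, b2, b3, b4⟩ := h.third a1 a2 hX hc
      exact a3 Z b1 b2 b3 (H Z b1 b2 b4)
  have hR := h.big_odd h.sr h.ar h.symm.ne_bot hr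
  have h1 : R ⊓ N⟦P⟧ = ⊥ := by_contra fun e => by
    obtain ⟨X, hX, hc, H⟩ := h.small e
    exact key hR X hX hc H
  obtain ⟨X, hX, hc, H⟩ : ∃ X ≤ A, ♯X = q ∧ ∀ Y ≤ A, ♯Y = q → Y ≠ X → P ⊓ C⟦Y⟧ = ⊥ := by
    by_cases e : P ⊓ N⟦R⟧ = ⊥
    · obtain ⟨X, hX, hc, H⟩ := hR
      refine ⟨X, hX, hc, fun Y hY hd hne => eq_bot_iff.2 (e ▸ le_inf inf_le_left ?_)⟩
      exact (h.dich_line hY hd).resolve_left fun e' => H Y hY hd hne (eq_bot_iff.2 (h1 ▸ le_inf inf_le_left e'))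
    · exact h.symm.small e
  refine key (h.big_comm h.sp h.ap h.ne_bot (comm_of_le (h.gen h.sp.le h.ap fun Y hY hd => ?_) (h.ab X hX hc))) X hX hc H
  by_cases e : Y = X
  · rw [e]; exact inf_le_inf_right _ h.sp.le
  · exact (H Y hY hd e).le.trans bot_le

end NP

open scoped Pointwise in
theorem Mt.false (h : Mt q K A) : False := by
  have H : ∀ p : Nat.Primes, ∃ S : Sylow (p : ℕ) K, SylowOf p ((S : Subgroup K).map K.subtype) K ∧
      A ≤ N⟦(S : Subgroup K).map K.subtype⟧ := fun p => by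
    haveI := Fact.mk p.2
    obtain ⟨P, h1, h2⟩ := exists_inv_sylow p h.norm h.cop (.inl h.solA)
    obtain ⟨S, rfl⟩ := h1.exists_sylow
    exact ⟨S, h1, h2⟩
  choose S h1 h2 using H
  have key : ∀ p r : Nat.Primes, Permute ((S p : Subgroup K).map K.subtype) ((S r : Subgroup K).map K.subtype) := by
    intro p r
    haveI := Fact.mk p.2
    haveI := Fact.mk r.2
    by_cases e : p = r
    · subst e; exact Permute.of_norm le_normalizer
    have e' : (p : ℕ) ≠ r := fun e' => e (Subtype.ext e')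
    have hπ : IsPi {(p : ℕ), (r : ℕ)} ((S p : Subgroup K).map K.subtype ⊔ (S r : Subgroup K).map K.subtype) := by
      by_contra hn
      have : NP q p r _ K A _ _ := { h with ne := e', pi := rfl, sp := h1 p, ap := h2 p, sr := h1 r, ar := h2 r, np := hn }
      by_cases e2 : (r : ℕ) = 2
      · exact this.symm.false (e2 ▸ e')
      · exact this.false e2
    have l := sup_le (h1 p).le (h1 r).le
    refine prod_of_coprime_relIndex le_sup_left le_sup_right (PiNat.coprime_of_disjoint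
      (((h1 p).of_le le_sup_left l).piNat.inter (hπ.relIndex _)) (((h1 r).of_le le_sup_right l).piNat.inter (hπ.relIndex _))
      fun s _ a b => ?_)
    simp only [Set.mem_inter_iff, Set.mem_compl_iff, Set.mem_insert_iff, Set.mem_singleton_iff] at a b
    omega
  have key2 : ∀ p r : Nat.Primes, (S p : Set K) * (S r : Set K) ⊆ (S r : Set K) * (S p : Set K) := by
    rintro p r _ ⟨a, ha, b, hb, rfl⟩
    obtain ⟨_, ⟨c, hc, rfl⟩, _, ⟨d, hd, rfl⟩, e⟩ := key r p ((a : G) * b)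
      (mul_mem (mem_sup_right ⟨a, ha, rfl⟩) (mem_sup_left ⟨b, hb, rfl⟩))
    exact ⟨c, hc, d, hd, Subtype.ext e⟩
  exact h.nsol (S0021.result S fun p r => (key2 p r).antisymm (key2 r p))

theorem Hy.solvable_aux (n : ℕ) : ∀ {G : Type u} [Group G] [Finite G] {K A : Subgroup G}, ♯K = n → Hy q K A →
    Group.IsSolvable K := by
  induction n using Nat.strong_induction_on with
  | _ n ih =>
  intro G _ _ K A hn h
  by_contra hs
  have sol : ∀ L < K, A ≤ N⟦L⟧ → Group.IsSolvable L := fun L hL hA => ih _ (hn ▸ card_lt hL) rfl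
    ⟨h.elem, h.card, hA, coprime_of_le_left h.cop hL.le, fun X hX hc => comm_of_le (inf_le_inf_right _ hL.le) (h.ab X hX hc)⟩
  have simp : ∀ N, N ⊴ K → A ≤ N⟦N⟧ → N = ⊥ ∨ N = K := fun N hN hA => by
    by_contra! H
    have hc := coprime_of_le_left h.cop hN.le
    have hd := inf_eq_bot_coprime hc.symm
    refine hs (solvable_of_quo hN.norm (sol N (hN.le.lt_of_ne H.2) hA) (ih _ (hn ▸ card_quo_lt hN H.1) rfl
      ⟨elem_quo h.elem N, (card_quo_of_disjoint hA hd).trans h.card, quo_norm N h.norm, coprime_quo_quo h.cop N,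
        fun X hX hq' => ?_⟩))
    obtain ⟨x, hx, h1⟩ := exists_ne_one (ne_bot_of_card_prime (hq' ▸ hq.out))
    obtain ⟨a, ha, ha', rfl⟩ := mem_quo.1 (hX hx)
    have h2 : a ≠ 1 := fun e => h1 (by rw [e, cos_one])
    have h3 := zpowers_le.2 ha
    rw [← eq_zpowers_of_card_prime (hq' ▸ hq.out) hx h1, ← quo_zpowers ha',
      ← coprime_quo_cent hN.le (h3.trans hA) (coprime_of_le_right hc h3) (.inl (sol_of_le h.solA h3))]
    exact quo_comm (h.ab _ h3 (h.card_zpowers ha h2)) N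
  refine Mt.false { h with sol := sol, simp := simp, nsol := hs, fpf := ?_ }
  have h1 : K ≤ C⟦K ⊓ C⟦A⟧⟧ := h.gen le_rfl h.norm fun X hX hc =>
    le_cent_of_comm (h.ab X hX hc) le_rfl (inf_le_inf_left _ (cent_anti hX))
  refine (simp _ (NormalIn.of_cent inf_le_left h1) (norm_inf_cent h.norm le_normalizer)).resolve_right fun e => ?_
  rw [e] at h1
  exact hs (sol_of_comm (comm_iff_le_cent.2 h1))

end Cfsg.Agent.H25
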