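import Cfsg.Agent.H25.CycCount

/-! Congruences between the numbers of elements of given orders. -/

set_option autoImplicit false

namespace Cfsg.Agent.H25
open Subgroup

/-- the number of elements of order `m` -/
noncomputable abbrev ns (G : Type*) [Group G] (m : ℕ) : ℕ := Nat.card {g : G // orderOf g = m}

variable {G : Type*} [Group G] [Finite G] {p q m n : ℕ}

theorem ns_one : ns G 1 = 1 := by
  rw [Nat.card_eq_one_iff_unique]
  exact ⟨⟨fun a b => Subtype.ext ((orderOf_eq_one_iff.1 a.2).trans (orderOf_eq_one_iff.1 b.2).symm)⟩,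
    ⟨⟨1, orderOf_one⟩⟩⟩

theorem ns_ne_zero_iff : ns G m ≠ 0 ↔ ∃ g : G, orderOf g = m := by
  rw [Nat.card_ne_zero]
  exact ⟨fun ⟨⟨g, hg⟩, _⟩ => ⟨g, hg⟩, fun ⟨g, hg⟩ => ⟨⟨⟨g, hg⟩⟩, inferInstance⟩⟩

theorem ns_eq_zero_iff : ns G m = 0 ↔ ∀ g : G, orderOf g ≠ m := by
  rw [← not_ne_iff, ns_ne_zero_iff, not_exists]

theorem ns_ne_zero_of_dvd (h : ns G n ≠ 0) (hd : m ∣ n) : ns G m ≠ 0 := by
  obtain ⟨g, rfl⟩ := ns_ne_zero_iff.1 h
  exact ns_ne_zero_iff.2 ⟨_, orderOf_pow_orderOf_div (orderOf_pos g).ne' hd⟩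

theorem not_dvd_of_ns_eq_zero (h : ns G m = 0) (g : G) : ¬ m ∣ orderOf g := fun hd =>
  ns_ne_zero_of_dvd (ns_ne_zero_iff.2 ⟨g, rfl⟩) hd h

theorem ns_prime_ne_zero (hp : p.Prime) (h : p ∣ Nat.card G) : ns G p ≠ 0 :=
  haveI := Fact.mk hp
  ns_ne_zero_iff.2 (exists_prime_orderOf_dvd_card' p h)

theorem dvd_card_of_ns (h : ns G m ≠ 0) : m ∣ Nat.card G := by
  obtain ⟨g, rfl⟩ := ns_ne_zero_iff.1 h
  exact orderOf_dvd_natCard g

theorem totient_dvd_ns (m : ℕ) : m.totient ∣ ns G m := totient_dvd_card_order m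

theorem two_dvd_ns (h : 2 < m) : 2 ∣ ns G m := (Nat.totient_even h).two_dvd.trans (totient_dvd_ns m)

theorem card_order_mem (D : Finset ℕ) : Nat.card {g : G // orderOf g ∈ D} = ∑ d ∈ D, ns G d := by
  classical
  have := Fintype.ofFinite G
  simp only [ns, Nat.card_eq_fintype_card, Fintype.card_subtype]
  rw [Finset.card_eq_sum_card_fiberwise (f := orderOf) (t := D) (fun g hg => by simpa using hg)]
  refine Finset.sum_congr rfl (fun d hd => congrArg _ ?_)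
  ext g
  simp only [Finset.mem_filter, Finset.mem_univ, true_and]
  exact ⟨fun h => h.2, fun h => ⟨h ▸ hd, h⟩⟩

theorem card_eq_sum_ns (D : Finset ℕ) (h : ∀ g : G, orderOf g ∈ D) : Nat.card G = ∑ d ∈ D, ns G d := by
  rw [← card_order_mem]
  exact (Nat.card_congr (Equiv.subtypeUnivEquiv h)).symm

theorem sum_ns_le (D : Finset ℕ) : ∑ d ∈ D, ns G d ≤ Nat.card G := by
  rw [← card_order_mem]
  exact Nat.card_le_card_of_injective _ Subtype.val_injective

theorem dvd_card_orderOf_pow (hn : n ∣ Nat.card G) (m : ℕ) : n ∣ Nat.card {g : G // orderOf (g ^ n) = m} := by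
  refine H26.dvd_card_of_fiber (fun g : {g : G // orderOf (g ^ n) = m} => ConjClasses.mk (g.1 ^ n)) n (fun a => ?_)
  have h1 := H26.gcd_dvd_card_isConj_pow (a.1 ^ n) n
  rw [Nat.gcd_eq_left hn] at h1
  refine h1.trans (dvd_of_eq (Nat.card_congr ?_))
  refine ⟨fun x => ⟨⟨x.1, ?_⟩, (ConjClasses.mk_eq_mk_iff_isConj.2 x.2.symm)⟩,
    fun x => ⟨x.1.1, (ConjClasses.mk_eq_mk_iff_isConj.1 x.2).symm⟩, fun x => rfl, fun x => rfl⟩
  obtain ⟨c, hc'⟩ := isConj_iff.1 x.2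
  rw [← hc']
  exact ((MulAut.conj c).orderOf_eq _).trans a.2

theorem dvd_sum_ns (hn : n ∣ Nat.card G) (m : ℕ) (D : Finset ℕ)
    (h : ∀ g : G, orderOf g / Nat.gcd (orderOf g) n = m ↔ orderOf g ∈ D) : n ∣ ∑ d ∈ D, ns G d := by
  rw [← card_order_mem]
  refine (dvd_card_orderOf_pow hn m).trans (dvd_of_eq (Nat.card_congr (Equiv.subtypeEquivRight fun g => ?_)))
  rw [orderOf_pow, h]

theorem div_gcd_pow_eq_iff (hp : p.Prime) (hm : ¬ p ∣ m) {k o : ℕ} (hk : k ≠ 0) (ho : k = 1 ∨ ¬ p ^ 2 ∣ o) :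
    o / Nat.gcd o (p ^ k) = m ↔ o = m ∨ o = p * m := by
  have hc : (p ^ k).Coprime m := ((Nat.Prime.coprime_iff_not_dvd hp).2 hm).pow_left _
  constructor
  · intro h
    obtain ⟨j, hj, h2⟩ := (Nat.dvd_prime_pow hp).1 (Nat.gcd_dvd_right o (p ^ k))
    have h3 := Nat.mul_div_cancel' (Nat.gcd_dvd_left o (p ^ k))
    rw [h, h2] at h3
    rcases j with _ | _ | j
    · left; simpa using h3.symm
    · right; simpa using h3.symm
    · rcases ho with ho | ho
      · omega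
      · exact absurd (h3 ▸ Dvd.dvd.mul_right (pow_dvd_pow p (by omega)) m) ho
  · rintro (rfl | rfl)
    · rw [hc.symm, Nat.div_one]
    · obtain ⟨k, rfl⟩ : ∃ j, k = j + 1 := ⟨k - 1, by omega⟩
      rw [pow_succ', Nat.gcd_mul_left, (hc.coprime_dvd_left (pow_dvd_pow p (by omega))).symm, mul_one,
        Nat.mul_div_cancel_left _ hp.pos]

theorem ne_mul_of_not_dvd (hm : ¬ p ∣ m) : m ≠ p * m := fun h => hm (h ▸ Dvd.intro _ rfl)

theorem dvd_ns_add (hp : p.Prime) (h : p ∣ Nat.card G) (hm : ¬ p ∣ m) : p ∣ ns G m + ns G (p * m) := by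
  rw [← Finset.sum_pair (ne_mul_of_not_dvd hm)]
  refine dvd_sum_ns h m _ (fun g => ?_)
  have := div_gcd_pow_eq_iff hp hm (k := 1) (o := orderOf g) one_ne_zero (Or.inl rfl)
  rw [pow_one] at this
  simp [this]

theorem pow_dvd_ns_add (hp : p.Prime) {k : ℕ} (h : p ^ k ∣ Nat.card G) (h2 : ns G (p ^ 2) = 0) (hm : ¬ p ∣ m) :
    p ^ k ∣ ns G m + ns G (p * m) := by
  rcases eq_or_ne k 0 with rfl | hk
  · simp
  rw [← Finset.sum_pair (ne_mul_of_not_dvd hm)]
  refine dvd_sum_ns h m _ (fun g => ?_)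
  rw [div_gcd_pow_eq_iff hp hm hk (Or.inr (not_dvd_of_ns_eq_zero h2 g))]
  simp

theorem dvd_one_add_ns (hp : p.Prime) (h : p ∣ Nat.card G) : p ∣ 1 + ns G p := by
  have := dvd_ns_add hp h hp.not_dvd_one
  rwa [ns_one, mul_one] at this

theorem pow_dvd_one_add_ns (hp : p.Prime) {k : ℕ} (h : p ^ k ∣ Nat.card G) (h2 : ns G (p ^ 2) = 0) :
    p ^ k ∣ 1 + ns G p := by
  have := pow_dvd_ns_add hp h h2 hp.not_dvd_one
  rwa [ns_one, mul_one] at this

theorem four_dvd_ns (h : 4 ∣ Nat.card G) : 4 ∣ 1 + ns G 2 + ns G 4 := by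
  have := dvd_sum_ns h 1 {1, 2, 4} (fun g => by
    have h0 := orderOf_pos g
    rw [Nat.div_eq_iff_eq_mul_left (Nat.gcd_pos_of_pos_left _ h0) (Nat.gcd_dvd_left _ _), one_mul, eq_comm,
      Nat.gcd_eq_left_iff_dvd]
    constructor
    · intro h
      have := Nat.le_of_dvd (by norm_num) h
      generalize orderOf g = o at *
      interval_cases o <;> simp_all
    · simp only [Finset.mem_insert, Finset.mem_singleton]
      rintro (h | h | h) <;> rw [h] <;> norm_num)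
  simpa [ns_one, add_assoc] using this

theorem dvd_ns_sq (hp : p.Prime) : p ∣ ns G (p ^ 2) := by
  refine Dvd.dvd.trans ?_ (totient_dvd_ns _)
  rw [Nat.totient_prime_pow hp two_pos]
  simp

theorem four_dvd_totient_mul (h : m.Coprime n) (hm : 2 < m) (hn : 2 < n) : 4 ∣ ns G (m * n) := by
  refine Dvd.dvd.trans ?_ (totient_dvd_ns _)
  rw [Nat.totient_mul h]
  exact Nat.mul_dvd_mul (Nat.totient_even hm).two_dvd (Nat.totient_even hn).two_dvd

theorem two_mul_ns_le (hp : p.Prime) (hc : p.Coprime m) (hm : 2 < m) (h : ¬ p ∣ ns G m) :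
    2 * ns G p ≤ ns G (p * m) := by
  haveI := Fact.mk hp
  have key : ∀ x : {g : G // orderOf g = p}, ∃ y : G, orderOf y = m ∧ Commute x.1 y := by
    intro x
    have hP : IsPGroup p (zpowers x.1) := IsPGroup.of_card (n := 1) (by rw [Nat.card_zpowers, x.2, pow_one])
    letI : MulAction (zpowers x.1) {g : G // orderOf g = m} :=
      { smul := fun g y => ⟨g.1 * y.1 * g.1⁻¹, ((MulAut.conj g.1).orderOf_eq y.1).trans y.2⟩
        one_smul := fun y => Subtype.ext (by change (1 : G) * y.1 * 1⁻¹ = y.1; group)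
        mul_smul := fun g h y => Subtype.ext (by
          change (g.1 * h.1) * y.1 * (g.1 * h.1)⁻¹ = g.1 * (h.1 * y.1 * h.1⁻¹) * g.1⁻¹; group) }
    obtain ⟨y, hy⟩ := hP.nonempty_fixed_point_of_prime_not_dvd_card _ h
    refine ⟨y.1, y.2, ?_⟩
    have : x.1 * y.1 * x.1⁻¹ = y.1 := congrArg Subtype.val (hy ⟨x.1, mem_zpowers _⟩)
    exact mul_inv_eq_iff_eq_mul.1 this
  choose y hy1 hy2 using key
  have h1 : ∀ (x : {g : G // orderOf g = p}) (b : Bool), orderOf (if b then y x else (y x)⁻¹) = m ∧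
      Commute x.1 (if b then y x else (y x)⁻¹) := by
    intro x b
    cases b
    · exact ⟨(orderOf_inv _).trans (hy1 x), (hy2 x).inv_right⟩
    · exact ⟨hy1 x, hy2 x⟩
  rw [← Nat.card_eq_fintype_card.trans Fintype.card_bool, ← Nat.card_prod]
  refine Nat.card_le_card_of_injective (fun t => ⟨t.2.1 * (if t.1 then y t.2 else (y t.2)⁻¹), by
    rw [(h1 _ _).2.orderOf_mul_eq_mul_orderOf_of_coprime (by rwa [t.2.2, (h1 _ _).1]), t.2.2, (h1 _ _).1]⟩) ?_
  rintro ⟨b, x⟩ ⟨b', x'⟩ h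
  have h2 : x.1 * (if b then y x else (y x)⁻¹) = x'.1 * (if b' then y x' else (y x')⁻¹) := congrArg Subtype.val h
  have h3 : x.1 ^ m = x'.1 ^ m := by
    have := congrArg (· ^ m) h2
    simp only [(h1 _ _).2.mul_pow, orderOf_dvd_iff_pow_eq_one.1 (h1 _ _).1.dvd, mul_one] at this
    exact this
  obtain ⟨k, hk⟩ := Nat.exists_mul_mod_eq_one_of_coprime hc.symm hp.one_lt
  have h4 : ∀ x : {g : G // orderOf g = p}, (x.1 ^ m) ^ k = x.1 := fun x => by
    rw [← pow_mul, ← pow_mod_orderOf, x.2, hk.2, pow_one]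
  obtain rfl : x = x' := Subtype.ext (by rw [← h4 x, h3, h4])
  have h5 := mul_left_cancel h2
  have h6 : y x ≠ (y x)⁻¹ := fun h => by
    have : orderOf (y x) ∣ 2 := orderOf_dvd_of_pow_eq_one (by rw [pow_two]; exact mul_eq_one_iff_eq_inv.2 h)
    rw [hy1] at this
    exact absurd (Nat.le_of_dvd two_pos this) (by omega)
  cases b <;> cases b'
  · rfl
  · exact absurd h5.symm h6
  · exact absurd h5 h6
  · rfl

theorem nse_three (h : ((fun m : ℕ => ns G m) '' Set.range (orderOf : G → ℕ)).ncard = 3) (h0 : ns G m ≠ 0)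
    (h1 : ns G m ≠ 1) : ∃ b, ∀ k, ns G k = 0 ∨ ns G k = 1 ∨ ns G k = ns G m ∨ ns G k = b := by
  have hm : ∀ k, ns G k ≠ 0 → ns G k ∈ (fun m : ℕ => ns G m) '' Set.range (orderOf : G → ℕ) :=
    fun k hk => ⟨k, ns_ne_zero_iff.1 hk, rfl⟩
  obtain ⟨x, y, z, -, -, -, e⟩ := Set.ncard_eq_three.1 h
  rw [e] at hm
  have h2 := hm 1 (by rw [ns_one]; exact one_ne_zero)
  rw [ns_one] at h2
  have h3 := hm m h0
  simp only [Set.mem_insert_iff, Set.mem_singleton_iff] at hm h2 h3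
  refine ⟨x + y + z - 1 - ns G m, fun k => ?_⟩
  by_cases hk : ns G k = 0
  · exact Or.inl hk
  have := hm k hk
  omega

theorem exponent_eq_of_ns_sq [hp : Fact p.Prime] (h2 : ns G (p ^ 2) = 0) {P : Subgroup G} (hP : IsPGroup p P)
    (h1 : P ≠ ⊥) : Monoid.exponent P = p := by
  haveI := (nontrivial_iff_ne_bot P).2 h1
  refine (Monoid.exponent_eq_prime_iff hp.out).2 (fun g hg => ?_)
  obtain ⟨k, hk⟩ := IsPGroup.iff_orderOf.1 hP g
  rcases k with _ | _ | k
  · exact absurd (orderOf_eq_one_iff.1 hk) hg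
  · simpa using hk
  · exact absurd (by rw [orderOf_coe, hk]; exact pow_dvd_pow p (by omega)) (not_dvd_of_ns_eq_zero h2 g.1)

end Cfsg.Agent.H25
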