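import Cfsg.Agent.H25.Hopf

/-! Metacyclic groups and their Schur multipliers. -/

set_option autoImplicit false

namespace Cfsg.Agent.H25
open Cfsg Subgroup
open scoped commutatorElement

universe u v w

theorem exists_surj_zmod {K : Type u} [Group K] (z : K) (hz : ∀ y, y ∈ zpowers z) {k : ℕ}
    (hk : z ^ k = 1) : ∃ π : Multiplicative (ZMod k) →* K, Function.Surjective π := by
  let f : Multiplicative ℤ →* Multiplicative (ZMod k) :=
    AddMonoidHom.toMultiplicative (Int.castAddHom (ZMod k))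
  have hf : Function.Surjective f := fun y => by
    obtain ⟨i, hi⟩ := ZMod.intCast_surjective y.toAdd
    exact ⟨Multiplicative.ofAdd i, congrArg Multiplicative.ofAdd hi⟩
  have hker : f.ker ≤ (zpowersHom K z).ker := by
    intro i hi
    have h1 : ((i.toAdd : ℤ) : ZMod k) = 0 := hi
    obtain ⟨j, hj⟩ := (ZMod.intCast_zmod_eq_zero_iff_dvd _ _).1 h1
    show z ^ i.toAdd = 1
    rw [hj, zpow_mul, zpow_natCast, hk, one_zpow]
  refine ⟨f.liftOfSurjective hf ⟨_, hker⟩, fun y => ?_⟩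
  obtain ⟨i, rfl⟩ := hz y
  exact ⟨f (Multiplicative.ofAdd i), MonoidHom.liftOfRightInverse_comp_apply _ _ _ _ _⟩

theorem conj_pow_pow {G : Type u} [Group G] {a b : G} {r : ℕ} (h : b * a * b⁻¹ = a ^ r) (k : ℕ) :
    b ^ k * a * (b ^ k)⁻¹ = a ^ r ^ k := by
  induction k with
  | zero => simp
  | succ k ih =>
    rw [pow_succ' b, mul_inv_rev, show b * b ^ k * a * ((b ^ k)⁻¹ * b⁻¹) =
      b * (b ^ k * a * (b ^ k)⁻¹) * b⁻¹ by group, ih, ← conj_pow, h, ← pow_mul, pow_succ']

theorem normal_of_closure_pair {G : Type u} [Group G] {a b : G} (hgen : closure {a, b} = ⊤)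
    {N : Subgroup G} (ha : a ∈ normalizer (N : Set G)) (hb : b ∈ normalizer (N : Set G)) :
    N.Normal := by
  rw [← normalizer_eq_top_iff, eq_top_iff, ← hgen, closure_le]
  rintro x (rfl | rfl)
  exacts [ha, hb]

theorem mem_normalizer_zpowers_of_conj {G : Type u} [Group G] {a b : G}
    (h1 : b * a * b⁻¹ ∈ zpowers a) (h2 : b⁻¹ * a * b ∈ zpowers a) :
    b ∈ normalizer ((zpowers a : Subgroup G) : Set G) := by
  rw [mem_normalizer_iff]
  intro x
  constructor
  · rintro ⟨i, rfl⟩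
    show b * a ^ i * b⁻¹ ∈ zpowers a
    rw [← conj_zpow]; exact zpow_mem h1 i
  · rintro ⟨i, hi⟩
    have : x = (b⁻¹ * a * b) ^ i := by
      have h3 := conj_zpow (i := i) (a := b⁻¹) (b := a)
      rw [inv_inv] at h3
      rw [h3]
      simp only at hi
      rw [hi]; group
    rw [this]; exact zpow_mem h2 i

/-- metacyclic data -/
structure Meta {G : Type u} [Group G] (a b : G) (m n r t : ℕ) : Prop where
  ord : orderOf a = m
  conj : b * a * b⁻¹ = a ^ r
  pow : b ^ n = a ^ t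
  gen : closure {a, b} = ⊤
  ind : ∀ j : ℤ, b ^ j ∈ zpowers a → (n : ℤ) ∣ j

theorem normal_zpowers_of_rel {G : Type u} [Group G] {a b : G} {n r t : ℕ} (hn : 0 < n)
    (hc : b * a * b⁻¹ = a ^ r) (hp : b ^ n = a ^ t) (hgen : closure {a, b} = ⊤) :
    (zpowers a).Normal := by
  refine normal_of_closure_pair hgen (le_normalizer (mem_zpowers a))
    (mem_normalizer_zpowers_of_conj (by rw [hc]; exact pow_mem (mem_zpowers a) _) ?_)
  obtain ⟨k, rfl⟩ : ∃ k, n = k + 1 := ⟨n - 1, by omega⟩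
  have h1 := conj_pow_pow hc k
  have h2 : b ^ k = b⁻¹ * a ^ t := by rw [← hp]; group
  have h3 : b⁻¹ * a * b = a ^ r ^ k := by
    rw [← h1, h2]; group
  rw [h3]; exact pow_mem (mem_zpowers a) _

theorem normal_form_of_rel {G : Type u} [Group G] {a b : G} {n r t : ℕ} (hn : 0 < n)
    (hc : b * a * b⁻¹ = a ^ r) (hp : b ^ n = a ^ t) (hgen : closure {a, b} = ⊤) (g : G) :
    ∃ i j : ℤ, g = a ^ i * b ^ j := by
  have := normal_zpowers_of_rel hn hc hp hgen
  have h1 : zpowers a ⊔ zpowers b = ⊤ := by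
    rw [eq_top_iff, ← hgen, closure_le]
    rintro x (rfl | rfl)
    exacts [mem_sup_left (mem_zpowers _), mem_sup_right (mem_zpowers _)]
  have h2 : g ∈ ((zpowers a ⊔ zpowers b : Subgroup G) : Set G) := by rw [h1]; trivial
  rw [normal_mul] at h2
  obtain ⟨_, ⟨i, rfl⟩, _, ⟨j, rfl⟩, h⟩ := h2
  exact ⟨i, j, h.symm⟩

theorem finite_of_rel {G : Type u} [Group G] {a b : G} {m n r t : ℕ} (hm : 0 < m) (hn : 0 < n)
    (ha : a ^ m = 1) (hc : b * a * b⁻¹ = a ^ r) (hp : b ^ n = a ^ t) (hgen : closure {a, b} = ⊤) :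
    Finite G := by
  have h1 : IsOfFinOrder a := isOfFinOrder_iff_pow_eq_one.2 ⟨m, hm, ha⟩
  have h2 : IsOfFinOrder b := isOfFinOrder_iff_pow_eq_one.2 ⟨n * m, by positivity, by
    rw [pow_mul, hp, ← pow_mul, mul_comm, pow_mul, ha, one_pow]⟩
  have := finite_zpowers.2 h1
  have := finite_zpowers.2 h2
  have h3 : Finite (zpowers a) := finite_zpowers.2 h1
  have h4 : Finite (zpowers b) := finite_zpowers.2 h2
  refine Finite.of_surjective (fun p : zpowers a × zpowers b => (p.1 : G) * p.2) (fun g => ?_)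
  obtain ⟨i, j, rfl⟩ := normal_form_of_rel hn hc hp hgen g
  exact ⟨(⟨_, zpow_mem (mem_zpowers a) i⟩, ⟨_, zpow_mem (mem_zpowers b) j⟩), rfl⟩

theorem exists_meta_model_aux {C : Type} [CommGroup C] (x : C) {m n r t : ℕ} (hn : 0 < n)
    (hC : ∀ (y : C) {i j : ℕ}, i ≡ j [MOD m] → y ^ i = y ^ j) (hr : r ^ n ≡ 1 [MOD m])
    (ht : t * r ≡ t [MOD m]) : ∃ (Γ : Type) (_ : Group Γ) (a b : Γ), orderOf a = orderOf x ∧
      b * a * b⁻¹ = a ^ r ∧ b ^ n = a ^ t := by
  obtain ⟨k, rfl⟩ : ∃ k, n = k + 1 := ⟨n - 1, by omega⟩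
  let ψ : MulAut C := MonoidHom.toMulEquiv (powMonoidHom r) (powMonoidHom (r ^ k))
    (MonoidHom.ext fun y => by
      show (y ^ r) ^ r ^ k = y; rw [← pow_mul, ← pow_succ', hC y hr, pow_one])
    (MonoidHom.ext fun y => by
      show (y ^ r ^ k) ^ r = y; rw [← pow_mul, ← pow_succ, hC y hr, pow_one])
  let S := C ⋊[zpowersHom _ ψ] Multiplicative ℤ
  let ι : C →* S := SemidirectProduct.inl
  let β : S := SemidirectProduct.inr (Multiplicative.ofAdd 1)
  have hc : ∀ y : C, β * ι y * β⁻¹ = ι y ^ r := by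
    intro y
    rw [← map_pow ι, ← map_inv, ← SemidirectProduct.inl_aut]
    rfl
  let w : S := β ^ (k + 1) * (ι x ^ t)⁻¹
  have hw1 : ∀ y : C, Commute (ι y) w := by
    intro y
    refine Commute.mul_right ?_ (Commute.inv_right (Commute.pow_right ?_ _))
    · have h1 := conj_pow_pow (hc y) (k + 1)
      rw [← map_pow ι, hC y hr, pow_one, mul_inv_eq_iff_eq_mul] at h1
      exact h1.symm
    · exact (Commute.all y x).map _
  have hw2 : Commute β w := by
    refine Commute.mul_right (Commute.pow_right (Commute.refl _) _) (Commute.inv_right ?_)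
    have h1 := hc (x ^ t)
    rw [← map_pow ι, ← pow_mul, hC x ht, mul_inv_eq_iff_eq_mul, map_pow] at h1
    exact h1
  have hw : ∀ s : S, Commute s w := by
    intro s
    rw [← SemidirectProduct.inl_left_mul_inr_right s]
    refine Commute.mul_left (hw1 _) ?_
    have : (SemidirectProduct.inr s.right : S) = β ^ s.right.toAdd := by
      rw [← map_zpow, ← ofAdd_zsmul, smul_eq_mul, mul_one, ofAdd_toAdd]
    rw [this]; exact hw2.zpow_left _
  have hN : (zpowers w).Normal := ⟨by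
    rintro _ ⟨i, rfl⟩ g
    have := ((hw g).zpow_right i).eq
    simp only
    rw [this, mul_inv_cancel_right]; exact zpow_mem (mem_zpowers w) i⟩
  let π := QuotientGroup.mk' (zpowers w)
  refine ⟨S ⧸ zpowers w, inferInstance, π (ι x), π β, ?_, ?_, ?_⟩
  · refine Nat.dvd_antisymm ((orderOf_map_dvd _ _).trans (orderOf_map_dvd _ _)) ?_
    have h1 : π (ι x ^ orderOf (π (ι x))) = 1 := by rw [map_pow, pow_orderOf_eq_one]
    obtain ⟨i, hi⟩ := (QuotientGroup.eq_one_iff _).1 h1
    let ρ : S →* Multiplicative ℤ := SemidirectProduct.rightHom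
    have r1 : ρ (ι x) = 1 := SemidirectProduct.rightHom_inl x
    have r2 : ρ β = Multiplicative.ofAdd 1 := SemidirectProduct.rightHom_inr _
    have h2 : ρ (w ^ i) = ρ (ι x ^ orderOf (π (ι x))) := congrArg ρ hi
    rw [map_zpow, map_pow, map_mul, map_inv, map_pow, map_pow, r1, r2, one_pow, one_pow, inv_one,
      mul_one, ← ofAdd_nsmul, ← ofAdd_zsmul, ofAdd_eq_one] at h2
    have h3 : i = 0 := by
      rw [smul_eq_mul, nsmul_eq_mul, mul_one, mul_eq_zero] at h2
      rcases h2 with h2 | h2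
      · exact h2
      · omega
    subst h3
    simp only [zpow_zero] at hi
    rw [orderOf_dvd_iff_pow_eq_one]
    apply SemidirectProduct.inl_injective (φ := zpowersHom _ ψ)
    rw [map_pow, map_one]; exact hi.symm
  · rw [← map_inv, ← map_mul, ← map_mul, hc, map_pow]
  · rw [← mul_inv_eq_one, ← map_pow π, ← map_pow π, ← map_inv, ← map_mul]
    exact (QuotientGroup.eq_one_iff _).2 (mem_zpowers w)

/-- a concrete model where `a` has full order -/
theorem exists_meta_model {m n r t : ℕ} (hn : 0 < n) (hr : r ^ n ≡ 1 [MOD m])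
    (ht : t * r ≡ t [MOD m]) : ∃ (Γ : Type) (_ : Group Γ) (a b : Γ), orderOf a = m ∧
      b * a * b⁻¹ = a ^ r ∧ b ^ n = a ^ t := by
  have := exists_meta_model_aux (Multiplicative.ofAdd (1 : ZMod m)) hn (fun y i j h => by
    apply Multiplicative.toAdd.injective
    rw [toAdd_pow, toAdd_pow, nsmul_eq_mul, nsmul_eq_mul, (ZMod.natCast_eq_natCast_iff _ _ _).2 h])
    hr ht
  rwa [orderOf_ofAdd_eq_addOrderOf, ZMod.addOrderOf_one] at this

theorem Meta.pow_eq_one {G : Type u} [Group G] {a b : G} {m n r t : ℕ} (M : Meta a b m n r t) :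
    a ^ m = 1 := by rw [← M.ord]; exact pow_orderOf_eq_one _

/-- relators of the metacyclic presentation -/
abbrev metaRels (m n r t : ℕ) : Set (FreeGroup Bool) :=
  {FreeGroup.of true ^ m, (FreeGroup.of false) ^ n * (FreeGroup.of true ^ t)⁻¹,
    FreeGroup.of false * FreeGroup.of true * (FreeGroup.of false)⁻¹ * (FreeGroup.of true ^ r)⁻¹}

theorem metaPres_lift {m n r t : ℕ} {G : Type u} [Group G] {a b : G} (ha : a ^ m = 1)
    (hc : b * a * b⁻¹ = a ^ r) (hp : b ^ n = a ^ t) :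
    ∃ f : PresentedGroup (metaRels m n r t) →* G, f (PresentedGroup.of true) = a ∧
      f (PresentedGroup.of false) = b := by
  refine ⟨PresentedGroup.toGroup (f := fun i => cond i a b) ?_, PresentedGroup.toGroup.of _,
    PresentedGroup.toGroup.of _⟩
  rintro x (rfl | rfl | rfl)
  · simp [ha]
  · simp [hp]
  · simp [hc]

theorem metaPres_rel (m n r t : ℕ) :
    (PresentedGroup.of true : PresentedGroup (metaRels m n r t)) ^ m = 1 ∧
    (PresentedGroup.of false : PresentedGroup (metaRels m n r t)) * PresentedGroup.of true *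
      (PresentedGroup.of false)⁻¹ = PresentedGroup.of true ^ r ∧
    (PresentedGroup.of false : PresentedGroup (metaRels m n r t)) ^ n = PresentedGroup.of true ^ t ∧
    closure {(PresentedGroup.of true : PresentedGroup (metaRels m n r t)), PresentedGroup.of false}
      = ⊤ := by
  refine ⟨?_, ?_, ?_, ?_⟩
  · exact PresentedGroup.one_of_mem (rels := metaRels m n r t) (Or.inl rfl)
  · rw [← mul_inv_eq_one]
    exact PresentedGroup.one_of_mem (rels := metaRels m n r t) (Or.inr (Or.inr rfl))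
  · rw [← mul_inv_eq_one]
    exact PresentedGroup.one_of_mem (rels := metaRels m n r t) (Or.inr (Or.inl rfl))
  · rw [← PresentedGroup.closure_range_of]
    congr 1
    ext x
    constructor
    · rintro (rfl | rfl) <;> exact ⟨_, rfl⟩
    · rintro ⟨i, rfl⟩
      cases i
      exacts [Or.inr rfl, Or.inl rfl]

theorem metaPres_meta {m n r t : ℕ} (hn : 0 < n) (hr : r ^ n ≡ 1 [MOD m])
    (ht : t * r ≡ t [MOD m]) :
    Meta (PresentedGroup.of true : PresentedGroup (metaRels m n r t)) (PresentedGroup.of false)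
      m n r t := by
  obtain ⟨h1, h2, h3, h4⟩ := metaPres_rel m n r t
  refine ⟨?_, h2, h3, h4, ?_⟩
  · obtain ⟨Γ, _, a, b, ha, hc, hp⟩ := exists_meta_model hn hr ht
    obtain ⟨f, hf, -⟩ := metaPres_lift (m := m) (by rw [← ha, pow_orderOf_eq_one]) hc hp
    refine Nat.dvd_antisymm (orderOf_dvd_of_pow_eq_one h1) ?_
    conv_lhs => rw [← ha, ← hf]
    exact orderOf_map_dvd _ _
  · obtain ⟨f, hf, hf'⟩ := metaPres_lift (m := m) (n := n) (r := r) (t := t)
      (a := (1 : Multiplicative (ZMod n))) (b := Multiplicative.ofAdd 1) (by simp) (by simp)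
      (by rw [one_pow, ← ofAdd_nsmul]; simp)
    rintro j ⟨i, hi⟩
    have := congrArg f hi
    simp only [map_zpow, hf, hf', one_zpow] at this
    rw [← ofAdd_zsmul, zsmul_eq_mul, mul_one] at this
    exact (ZMod.intCast_zmod_eq_zero_iff_dvd _ _).1 (by exact this.symm)

section upper
variable {X : Type u} {G : Type v} [Group X] [Group G] {ξ : X →* G}

theorem CExt.commute_of_mem_zpowers (h : CExt ξ) {x y z : X} (hy : ξ y ∈ zpowers (ξ x))
    (hz : ξ z ∈ zpowers (ξ x)) : Commute y z := by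
  obtain ⟨i, hi⟩ := hy
  obtain ⟨j, hj⟩ := hz
  rw [← commutatorElement_eq_one_iff_commute,
    ← H27.comm_congr h.cent (a := x ^ i) (b := x ^ j) (by rw [map_zpow]; exact hi)
      (by rw [map_zpow]; exact hj), commutatorElement_eq_one_iff_commute]
  exact (Commute.refl x).zpow_zpow i j

theorem commutator_le_of_pair {x y : X} (h : CExt ξ) (hgen : closure {ξ x, ξ y} = ⊤)
    (N : Subgroup X) [N.Normal] (hN : ⁅y, x⁆ ∈ N) : commutator X ≤ N := by
  refine (H27.commutator_le_of_map_top h.cent (H := closure {x, y}) (fun g => ?_)).trans ?_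
  · have : ξ g ∈ (closure {x, y}).map ξ := by
      rw [MonoidHom.map_closure, Set.image_pair, hgen]; trivial
    exact this
  · let f := QuotientGroup.mk' N
    have h1 : Commute (f y) (f x) := by
      rw [← commutatorElement_eq_one_iff_commute, ← map_commutatorElement]
      exact (QuotientGroup.eq_one_iff _).2 hN
    have h2 : IsMulCommutative (closure {f x, f y}) := by
      apply isMulCommutative_closure
      rintro a (rfl | rfl) b (rfl | rfl)
      exacts [rfl, h1.symm.eq, h1.eq, rfl]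
    rw [commutator_le]
    intro a ha b hb
    have h3 : ∀ c ∈ closure {x, y}, f c ∈ closure {f x, f y} := fun c hc => by
      rw [← Set.image_pair, ← MonoidHom.map_closure]; exact ⟨c, hc, rfl⟩
    rw [← QuotientGroup.eq_one_iff]
    show f _ = 1
    rw [map_commutatorElement, commutatorElement_eq_one_iff_mul_comm]
    exact congrArg Subtype.val (h2.is_comm.comm ⟨_, h3 a ha⟩ ⟨_, h3 b hb⟩)

theorem Meta.exists_commutator_gen {a b : G} {m n r t : ℕ} (M : Meta a b m n r t) (hr : 0 < r)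
    (hm : 0 < m) (h : CExt ξ) : ∃ c : X, commutator X ≤ zpowers c ∧ ξ c = a ^ (r - 1) ∧
      c ^ Nat.gcd m (Nat.gcd t (∑ i ∈ Finset.range n, r ^ i)) = 1 := by
  obtain ⟨x, rfl⟩ := h.surj a
  obtain ⟨y, rfl⟩ := h.surj b
  have hc : ξ ⁅y, x⁆ = ξ x ^ (r - 1) := by
    rw [map_commutatorElement, commutatorElement_def, M.conj, mul_inv_eq_iff_eq_mul, ← pow_succ]
    congr 1; omega
  have hcx : Commute ⁅y, x⁆ x :=
    h.commute_of_mem_zpowers (x := x) (by rw [hc]; exact pow_mem (mem_zpowers _) _) (mem_zpowers _)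
  have h1 : ∀ k : ℕ, ⁅y, x ^ k⁆ = ⁅y, x⁆ ^ k := by
    intro k
    rw [commutatorElement_def, mul_inv_eq_iff_eq_mul, ← hcx.mul_pow, ← conj_pow,
      commutatorElement_def, inv_mul_cancel_right]
  have h2 : y * ⁅y, x⁆ * y⁻¹ = ⁅y, x⁆ ^ r := by
    rw [← h1, conjugate_commutatorElement, mul_inv_cancel_right]
    exact H27.comm_congr h.cent rfl (by rw [map_mul, map_mul, map_inv, M.conj, map_pow])
  have hm1 : ⁅y, x⁆ ^ m = 1 := by
    rw [← h1, H27.comm_congr h.cent (a' := y) (b' := 1) rfl (by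
      rw [map_pow, ← M.ord, pow_orderOf_eq_one, map_one]), commutatorElement_one_right]
  have ht1 : ⁅y, x⁆ ^ t = 1 := by
    rw [← h1, H27.comm_congr h.cent (a' := y) (b' := y ^ n) rfl (by
      rw [map_pow, map_pow, M.pow]), commutatorElement_eq_one_iff_commute]
    exact (Commute.refl y).pow_right n
  have h3 : ∀ k : ℕ, ⁅y ^ k, x⁆ = ⁅y, x⁆ ^ (∑ i ∈ Finset.range k, r ^ i) := by
    intro k
    induction k with
    | zero => simp
    | succ k ih =>
      rw [geom_sum_succ, pow_succ ⁅y, x⁆, pow_mul, ← h2, conj_pow, ← ih, pow_succ']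
      simp only [commutatorElement_def]; group
  have hs1 : ⁅y, x⁆ ^ (∑ i ∈ Finset.range n, r ^ i) = 1 := by
    rw [← h3, H27.comm_congr h.cent (a' := x ^ t) (b' := x) (by
      rw [map_pow, map_pow, M.pow]) rfl, commutatorElement_eq_one_iff_commute]
    exact (Commute.refl x).pow_left t
  have hfin : Finite (zpowers ⁅y, x⁆) :=
    finite_zpowers.2 (isOfFinOrder_iff_pow_eq_one.2 ⟨m, hm, hm1⟩)
  have hN : (zpowers ⁅y, x⁆).Normal := by
    rw [← normalizer_eq_top_iff, eq_top_iff]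
    intro g _
    have h4 : ξ g ∈ (closure {x, y}).map ξ := by
      rw [MonoidHom.map_closure, Set.image_pair, M.gen]; trivial
    obtain ⟨k, hk, hk'⟩ := h4
    obtain ⟨z, hz, rfl⟩ := H27.eq_mul_ker hk'
    refine mul_mem ?_ (centralizer_le_normalizer _ (center_le_centralizer _ (h.cent hz)))
    revert hk
    refine fun hk => (closure_le _).2 ?_ hk
    rintro e (rfl | rfl)
    · refine centralizer_le_normalizer _ ?_
      rintro _ ⟨i, rfl⟩
      exact (hcx.zpow_left i).eq
    · refine mem_normalizer_fintype ?_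
      rintro _ ⟨i, rfl⟩
      show e * ⁅e, x⁆ ^ i * e⁻¹ ∈ zpowers _
      rw [← conj_zpow, h2]
      exact zpow_mem (pow_mem (mem_zpowers _) _) _
  refine ⟨⁅y, x⁆, commutator_le_of_pair h M.gen _ (mem_zpowers _), hc, ?_⟩
  rw [← orderOf_dvd_iff_pow_eq_one] at hm1 ht1 hs1 ⊢
  exact Nat.dvd_gcd hm1 (Nat.dvd_gcd ht1 hs1)

end upper

theorem exists_coprime_modEq {s₀ m₁ k : ℕ} (h : s₀.Coprime m₁) (hmk : m₁ * k ≠ 0) :
    ∃ s, s ≡ s₀ [MOD m₁] ∧ s.Coprime (m₁ * k) := by
  have : NeZero (m₁ * k) := ⟨hmk⟩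
  obtain ⟨u, hu⟩ := ZMod.unitsMap_surjective (Dvd.intro k rfl : m₁ ∣ m₁ * k)
    (ZMod.unitOfCoprime s₀ h)
  refine ⟨(u : ZMod (m₁ * k)).val, ?_, ZMod.val_coe_unit_coprime u⟩
  rw [← ZMod.natCast_eq_natCast_iff]
  have := congrArg Units.val hu
  rw [ZMod.unitsMap_val, ZMod.coe_unitOfCoprime] at this
  rw [← this, ZMod.natCast_val]

theorem geom_modEq {r R g : ℕ} (h : R ≡ r [MOD g]) (n : ℕ) :
    ∑ i ∈ Finset.range n, R ^ i ≡ ∑ i ∈ Finset.range n, r ^ i [MOD g] := by
  induction n with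
  | zero => rfl
  | succ n ih => rw [Finset.sum_range_succ, Finset.sum_range_succ]; exact ih.add (h.pow n)

theorem Meta.hasSchur {G : Type u} [Group G] {a b : G} {m n r t : ℕ} (M : Meta a b m n r t)
    (hm : 0 < m) (hn : 0 < n) (hr : 0 < r) {k : ℕ}
    (hk : m / Nat.gcd m (r - 1) * k = Nat.gcd m (Nat.gcd t (∑ i ∈ Finset.range n, r ^ i))) :
    HasCyclicSchurMultiplier G k := by
  set d := Nat.gcd m (r - 1) with hd
  set g := Nat.gcd m (Nat.gcd t (∑ i ∈ Finset.range n, r ^ i)) with hg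
  have hd0 : 0 < d := Nat.gcd_pos_of_pos_left _ hm
  have hg0 : 0 < g := Nat.gcd_pos_of_pos_left _ hm
  obtain ⟨m₁, hm₁⟩ : d ∣ m := Nat.gcd_dvd_left _ _
  obtain ⟨s₀, hs₀⟩ : d ∣ r - 1 := Nat.gcd_dvd_right _ _
  have hdiv : m / d = m₁ := by rw [hm₁]; exact Nat.mul_div_cancel_left _ hd0
  rw [hdiv] at hk
  have hk0 : 0 < k := Nat.pos_of_mul_pos_left (hk ▸ hg0)
  have hm10 : 0 < m₁ := Nat.pos_of_mul_pos_right (hk ▸ hg0)
  have hco : s₀.Coprime m₁ := by
    have h1 : Nat.gcd (d * m₁) (d * s₀) = d * 1 := by rw [← hm₁, ← hs₀, mul_one]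
    rw [Nat.gcd_mul_left] at h1
    exact Nat.Coprime.symm (Nat.eq_of_mul_eq_mul_left hd0 h1)
  obtain ⟨s, hs, hs'⟩ := exists_coprime_modEq (k := k) hco (by positivity)
  have hgm : g ∣ m := Nat.gcd_dvd_left _ _
  have hgt : g ∣ t := (Nat.gcd_dvd_right _ _).trans (Nat.gcd_dvd_left _ _)
  have hgs : g ∣ ∑ i ∈ Finset.range n, r ^ i := (Nat.gcd_dvd_right _ _).trans (Nat.gcd_dvd_right _ _)
  have hkd : k ∣ d := by
    rw [← hk, hm₁, mul_comm d] at hgm
    exact Nat.dvd_of_mul_dvd_mul_left hm10 hgm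
  have hR : d * s + 1 ≡ r [MOD m] := by
    have : r = d * s₀ + 1 := by omega
    rw [this, hm₁]
    exact (hs.mul_left' d).add_right 1
  have hmk : m * k = d * g := by rw [← hk, hm₁]; ring
  have hRn : (d * s + 1) ^ n ≡ 1 [MOD m * k] := by
    have h1 : g ∣ ∑ i ∈ Finset.range n, (d * s + 1) ^ i :=
      (Nat.modEq_zero_iff_dvd).1 ((geom_modEq (hR.of_dvd hgm) n).trans
        ((Nat.modEq_zero_iff_dvd).2 hgs))
    have h2 := geom_sum_mul_add (d * s) n
    rw [← h2, hmk]
    obtain ⟨e, he⟩ := h1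
    rw [he]
    exact (Nat.modEq_iff_dvd' (by omega)).2 ⟨e * s, by rw [Nat.add_sub_cancel]; ring⟩ |>.symm
  have hRt : t * (d * s + 1) ≡ t [MOD m * k] := by
    obtain ⟨e, he⟩ := hgt
    rw [hmk, mul_add, mul_one]
    exact (Nat.modEq_iff_dvd' (by omega)).2 ⟨e * s, by rw [Nat.add_sub_cancel, he]; ring⟩ |>.symm
  have N := metaPres_meta hn hRn hRt
  set α : PresentedGroup (metaRels (m * k) n (d * s + 1) t) := PresentedGroup.of true
  set β : PresentedGroup (metaRels (m * k) n (d * s + 1) t) := PresentedGroup.of false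
  have hα : α ^ (m * k) = 1 := N.pow_eq_one
  have hfin := finite_of_rel (by positivity) hn hα N.conj N.pow N.gen
  have ham : a ^ m = 1 := M.pow_eq_one
  obtain ⟨f, hf1, hf2⟩ := metaPres_lift (m := m * k) (n := n) (r := d * s + 1) (t := t) (a := a)
    (b := b) (by rw [pow_mul, ham, one_pow])
    (by rw [M.conj, pow_eq_pow_iff_modEq, M.ord]; exact hR.symm) M.pow
  have hfs : Function.Surjective f := by
    rw [← MonoidHom.range_eq_top, eq_top_iff, ← M.gen, closure_le]
    rintro x (rfl | rfl)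
    exacts [⟨_, hf1⟩, ⟨_, hf2⟩]
  have hker : f.ker = zpowers (α ^ m) := by
    apply le_antisymm
    · intro x hx
      obtain ⟨i, j, rfl⟩ := normal_form_of_rel hn N.conj N.pow N.gen x
      rw [MonoidHom.mem_ker, map_mul, map_zpow, map_zpow, hf1, hf2] at hx
      obtain ⟨j, rfl⟩ := M.ind j ⟨-i, by
        simp only; rw [zpow_neg]; exact inv_eq_of_mul_eq_one_right hx⟩
      rw [zpow_mul, zpow_natCast, M.pow, ← zpow_natCast, ← zpow_mul, ← zpow_add,
        ← orderOf_dvd_iff_zpow_eq_one, M.ord] at hx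
      obtain ⟨e, he⟩ := hx
      refine ⟨e, ?_⟩
      simp only
      rw [zpow_mul, zpow_natCast β, N.pow, ← zpow_natCast α t, ← zpow_mul α, ← zpow_add, he,
        zpow_mul, zpow_natCast]
    · rw [zpowers_le, MonoidHom.mem_ker, map_pow, hf1, ham]
  have hst : IsStemExtension f := by
    refine ⟨hfs, ?_, ?_⟩
    · rw [hker, zpowers_le, mem_center_iff]
      intro x
      have h1 : Commute β (α ^ m) := by
        have h2 : β * α ^ m * β⁻¹ = α ^ m := by
          rw [← conj_pow, N.conj, ← pow_mul, pow_eq_pow_iff_modEq, N.ord]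
          obtain ⟨e, he⟩ := hkd
          exact (Nat.modEq_iff_dvd' (Nat.le_mul_of_pos_left _ (Nat.succ_pos _))).2 ⟨e * s, by
            rw [Nat.succ_mul, Nat.add_sub_cancel, he]; ring⟩ |>.symm
        exact mul_inv_eq_iff_eq_mul.1 h2
      obtain ⟨i, j, rfl⟩ := normal_form_of_rel hn N.conj N.pow N.gen x
      exact (Commute.mul_left (((Commute.refl α).pow_right m).zpow_left i) (h1.zpow_left j)).eq
    · rw [hker, zpowers_le]
      have h1 : (α ^ d) ^ s ∈ commutator _ := by
        have : (α ^ d) ^ s = ⁅β, α⁆ := by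
          rw [commutatorElement_def, N.conj, ← pow_mul, pow_succ, mul_inv_cancel_right]
        rw [this]; exact commutator_mem_commutator (mem_top _) (mem_top _)
      have h2 : α ^ d ∈ zpowers ((α ^ d) ^ s) := by
        rw [mem_zpowers_pow_iff]
        refine Nat.Coprime.coprime_dvd_right (orderOf_dvd_of_pow_eq_one ?_) hs'
        rw [← pow_mul, ← mul_assoc, ← hm₁, hα]
      have h3 : α ^ m = (α ^ d) ^ m₁ := by rw [← pow_mul, ← hm₁]
      rw [h3]
      exact pow_mem (zpowers_le.2 h1 h2) _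
  have : NeZero k := ⟨hk0.ne'⟩
  refine H27.hasSchur_of_bound (fun p _ Γ _ _ σ hσ _ => ?_) hst ?_
  · obtain ⟨c, h1, h2, h3⟩ := M.exists_commutator_gen hr hm (CExt.of_stem hσ)
    have ho : orderOf (a ^ (r - 1)) = m₁ := by
      have : IsOfFinOrder a := isOfFinOrder_iff_pow_eq_one.2 ⟨m, hm, ham⟩
      rw [this.orderOf_pow, M.ord, hdiv]
    have h4 : c ^ m₁ ∈ σ.ker := by
      rw [MonoidHom.mem_ker, map_pow, h2, ← ho, pow_orderOf_eq_one]
    refine exists_surj_zmod (⟨_, h4⟩ : σ.ker) (fun y => ?_) (Subtype.ext ?_)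
    · obtain ⟨i, hi⟩ := h1 (hσ.2.2 y.2)
      have h5 : σ y = 1 := y.2
      simp only at hi
      rw [← hi, map_zpow, h2, ← orderOf_dvd_iff_zpow_eq_one, ho] at h5
      obtain ⟨e, rfl⟩ := h5
      refine ⟨e, Subtype.ext ?_⟩
      rw [← hi, zpow_mul, zpow_natCast]; rfl
    · show (c ^ m₁) ^ k = 1
      rw [← pow_mul, hk, h3]
  · rw [hker, Nat.card_zpowers, orderOf_pow' _ hm.ne', N.ord, Nat.gcd_mul_right_left,
      Nat.mul_div_cancel_left _ hm]
    simp

theorem two_dvd_of_zpow_mem {G : Type u} [Group G] {H : Subgroup G} {b : G} (h2 : b ^ 2 ∈ H)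
    (hb : b ∉ H) (j : ℤ) (hj : b ^ j ∈ H) : ((2 : ℕ) : ℤ) ∣ j := by
  rcases Int.even_or_odd' j with ⟨i, rfl | rfl⟩
  · exact ⟨i, rfl⟩
  · exfalso
    rw [zpow_add, zpow_one, zpow_mul] at hj
    exact hb ((H.mul_mem_cancel_left (zpow_mem (by exact_mod_cast h2) i)).1 hj)

theorem dihedral_meta (n : ℕ) [NeZero n] :
    Meta (DihedralGroup.r 1 : DihedralGroup n) (DihedralGroup.sr 0) n 2 (2 * n - 1) 0 := by
  have hn := NeZero.pos n
  refine ⟨DihedralGroup.orderOf_r_one, ?_, by simp [sq], ?_, two_dvd_of_zpow_mem (by simp [sq]) ?_⟩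
  · rw [DihedralGroup.r_one_pow, Nat.cast_sub (by omega)]; simp
  · rw [eq_top_iff]
    have h1 : ∀ i : ZMod n, DihedralGroup.r i ∈
        closure {(DihedralGroup.r 1 : DihedralGroup n), DihedralGroup.sr 0} := by
      intro i
      rw [← ZMod.natCast_zmod_val i, ← DihedralGroup.r_one_pow]
      exact pow_mem (subset_closure (by simp)) _
    rintro (i | i) _
    · exact h1 i
    · have : DihedralGroup.sr i = DihedralGroup.sr 0 * DihedralGroup.r i := by simp
      rw [this]; exact mul_mem (subset_closure (by simp)) (h1 i)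
  · rintro ⟨i, hi⟩
    simp at hi

theorem quaternion_meta (n : ℕ) [NeZero n] :
    Meta (QuaternionGroup.a 1 : QuaternionGroup n) (QuaternionGroup.xa 0) (2 * n) 2 (2 * n - 1) n := by
  have hn := NeZero.pos n
  have : NeZero (2 * n) := ⟨by omega⟩
  refine ⟨QuaternionGroup.orderOf_a_one, ?_, by simp, ?_, two_dvd_of_zpow_mem ?_ ?_⟩
  · rw [QuaternionGroup.a_one_pow, mul_inv_eq_iff_eq_mul, Nat.cast_sub (by omega),
      ZMod.natCast_self]; simp
  · rw [eq_top_iff]
    have h1 : ∀ i : ZMod (2 * n), QuaternionGroup.a i ∈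
        closure {(QuaternionGroup.a 1 : QuaternionGroup n), QuaternionGroup.xa 0} := by
      intro i
      rw [← ZMod.natCast_zmod_val i, ← QuaternionGroup.a_one_pow]
      exact pow_mem (subset_closure (by simp)) _
    rintro (i | i) _
    · exact h1 i
    · have : QuaternionGroup.xa i = QuaternionGroup.xa 0 * QuaternionGroup.a i := by simp
      rw [this]; exact mul_mem (subset_closure (by simp)) (h1 i)
  · rw [QuaternionGroup.xa_sq, ← QuaternionGroup.a_one_pow]; exact pow_mem (mem_zpowers _) _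
  · intro h
    rw [mem_zpowers_iff_mem_range_orderOf, Finset.mem_image] at h
    obtain ⟨i, -, hi⟩ := h
    simp at hi

end Cfsg.Agent.H25
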