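import Mathlib
import Cfsg.Agent.H8.Deg5
import Cfsg.Agent.H2.SS
import Cfsg.Agent.H2.Frattini

/-!
Solvable groups with squarefree character degrees have derived length at most four.
-/

set_option autoImplicit false
set_option linter.dupNamespace false

namespace Cfsg.Agent.H25.SqF

open Cfsg Cfsg.Agent.H4 Cfsg.Agent.H5 Cfsg.Agent.H8
open scoped commutatorElement

/-- All character degrees are squarefree. -/
def SF (G : Type*) [Group G] : Prop := ∀ d ∈ charDegrees G, Squarefree d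

variable {G : Type*} [Group G] [Finite G]

theorem SF.normal (h : SF G) (N : Subgroup G) [N.Normal] : SF N := fun d hd => by
  obtain ⟨e, -, he⟩ := cd_over_normal N hd
  exact (h _ he).squarefree_of_dvd (Dvd.intro_left _ rfl)

omit [Finite G] in
theorem SF.quotient (h : SF G) (N : Subgroup G) [N.Normal] : SF (G ⧸ N) := fun d hd =>
  h d (cd_quotient_subset N hd)

theorem SF.linI (h : SF G) {A : Subgroup G} [A.Normal] (lam : A →* ℂˣ) :
    Squarefree (linI lam).index := by
  obtain ⟨e, he⟩ := exists_cd_index_inertia (NEmb.ofNormal A) (isIrrCharacter_linear lam)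
    (d := 1) (by simp)
  rw [mul_one] at he
  exact (h _ he).squarefree_of_dvd (Dvd.intro_left _ rfl)

theorem dvd_of_sqfree_pow {p k n : ℕ} (hp : p.Prime) (h1 : n ∣ p ^ k) (h2 : Squarefree n) :
    n = 1 ∨ n = p := by
  obtain ⟨j, -, rfl⟩ := (Nat.dvd_prime_pow hp).1 h1
  rcases j with _ | _ | j
  · simp
  · simp
  · exact absurd (h2 p ⟨p ^ j, by ring⟩) (by simpa using hp.one_lt.ne')

theorem normal_of_index_dvd {p : ℕ} [hp : Fact p.Prime] {Q X : Subgroup G} [Q.Normal]
    (hq : IsPGroup p (G ⧸ Q)) (hQX : Q ≤ X) (h : X.index = 1 ∨ X.index = p) : X.Normal := by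
  rcases h with h | h
  · rw [Subgroup.index_eq_one.1 h]; infer_instance
  haveI := hq.isNilpotent
  have hc : IsCoatom X := by
    refine ⟨fun h1 => ?_, fun Y hY => ?_⟩
    · rw [h1, Subgroup.index_top] at h; exact hp.out.one_lt.ne h
    · have h2 := Subgroup.index_dvd_of_le hY.le
      rw [h] at h2
      rcases (Nat.dvd_prime hp.out).1 h2 with h3 | h3
      · exact Subgroup.index_eq_one.1 h3
      · exact absurd (h3.trans h.symm) (Subgroup.index_strictAnti hY).ne
  have h1 := H2.normal_of_isCoatom_of_isNilpotent (H2.isCoatom_map_mk' hc hQX)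
  have h2 := h1.comap (QuotientGroup.mk' Q)
  rwa [Subgroup.comap_map_eq, QuotientGroup.ker_mk', sup_eq_left.2 hQX] at h2

theorem SF.exists_cent (h : SF G) {p : ℕ} [hp : Fact p.Prime] {Q : Subgroup G} [hQ : Q.Normal]
    (hq : IsPGroup p (G ⧸ Q)) (hc : (Nat.card Q).Coprime p) :
    ∃ X : Subgroup G, X.Normal ∧ X.index ∣ p ∧ ∀ lam : Q →* ℂˣ, X ≤ H8.linI lam := by
  obtain ⟨k, hk⟩ := IsPGroup.iff_card.1 hq
  have hk' : Q.index = p ^ k := hk
  have hcop : (Nat.card Q).Coprime Q.index := by rw [hk']; exact hc.pow_right k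
  have hT : ∀ lam : Q →* ℂˣ, (H8.linI lam).index = 1 ∨ (H8.linI lam).index = p := fun lam =>
    dvd_of_sqfree_pow hp.out (hk' ▸ Subgroup.index_dvd_of_le (le_linI lam)) (h.linI lam)
  have hT' : ∀ lam : Q →* ℂˣ, H8.linI lam ≠ ⊤ → (H8.linI lam).index = p := fun lam h1 =>
    (hT lam).resolve_left (by rwa [Subgroup.index_eq_one])
  have hn' : ∀ lam : Q →* ℂˣ, (H8.linI lam).Normal := fun lam =>
    normal_of_index_dvd hq (le_linI lam) (hT lam)
  have heq : ∀ lam μ : Q →* ℂˣ, H8.linI lam ≠ ⊤ → H8.linI μ ≠ ⊤ → H8.linI lam ≤ H8.linI μ →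
      H8.linI lam = H8.linI μ := fun lam μ h1 h2 h3 =>
    h3.eq_of_not_lt fun h4 => (Subgroup.index_strictAnti h4).ne
      ((hT' μ h2).trans (hT' lam h1).symm)
  have hle : ∀ lam μ : Q →* ℂˣ, H8.linI lam ≠ ⊤ → H8.linI lam ≤ H8.linI μ := fun lam μ h1 => by
    by_cases h2 : H8.linI μ = ⊤
    · rw [h2]; exact le_top
    have h3 : H8.linI (lam * μ) ⊓ H8.linI lam ≤ H8.linI μ := by
      have := inf_le_linI_div (lam * μ) lam
      rwa [show lam * μ / lam = μ from MonoidHom.ext fun a => by simp] at this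
    by_cases h4 : H8.linI (lam * μ) = ⊤
    · rwa [h4, top_inf_eq] at h3
    by_contra h5
    have h6 : H8.linI (lam * μ) ≤ H8.linI lam := fun u hu => by
      haveI := hn' lam
      haveI := hn' μ
      refine mem_linI_of_div hcop (by_contra fun h6 => h5 ?_)
      have h7 : H8.linI (linC lam u / lam) ≠ ⊤ := fun h7 => h6 (h7 ▸ Subgroup.mem_top u)
      have h8 : linC lam u / lam = μ / linC μ u := MonoidHom.ext fun a => by
        have := mem_linI.1 hu a a.2
        rw [MonoidHom.mul_apply, MonoidHom.mul_apply] at this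
        rw [MonoidHom.div_apply, MonoidHom.div_apply, div_eq_div_iff_mul_eq_mul, linC_apply,
          linC_apply, this, mul_comm]
      rw [heq lam _ h1 h7 ((le_inf (le_linI_linC lam u) le_rfl).trans (inf_le_linI_div _ _)), h8,
        ← heq μ _ h2 (h8 ▸ h7) ((le_inf le_rfl (le_linI_linC μ u)).trans (inf_le_linI_div _ _))]
    rw [heq _ _ h4 h1 h6, inf_idem] at h3
    exact h5 h3
  by_cases h1 : ∃ lam : Q →* ℂˣ, H8.linI lam ≠ ⊤
  · obtain ⟨lam, h1⟩ := h1
    exact ⟨_, hn' lam, (hT' lam h1).dvd, fun μ => hle lam μ h1⟩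
  · push Not at h1
    exact ⟨⊤, inferInstance, by simp, fun μ => (h1 μ).ge⟩

theorem mem_commutator_of_linI {Q : Subgroup G} [hQ : Q.Normal] {x : G}
    (h : ∀ lam : Q →* ℂˣ, x ∈ H8.linI lam) {a : G} (ha : a ∈ Q) : x * a * x⁻¹ * a⁻¹ ∈ ⁅Q, Q⁆ := by
  by_contra h1
  have h2 : (Abelianization.of (⟨_, hQ.conj_mem a ha x⟩ * ⟨a, ha⟩⁻¹ : Q)) ≠ 1 := fun h2 => by
    apply h1
    have h3 : (⟨_, hQ.conj_mem a ha x⟩ * ⟨a, ha⟩⁻¹ : Q) ∈ commutator Q := by
      rw [← Abelianization.ker_of]; exact h2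
    rw [← Subgroup.map_subtype_commutator]
    exact ⟨_, h3, rfl⟩
  obtain ⟨lam, h3⟩ := exists_linear_ne_one (G := Abelianization Q) mul_comm h2
  apply h3
  have h4 := mem_linI.1 (h (lam.comp Abelianization.of)) a ha
  simp only [MonoidHom.comp_apply] at h4
  rw [map_mul, map_inv, map_mul, map_inv, h4, mul_inv_cancel]

theorem SF.index_fitting_of (h : SF G) {p : ℕ} [hp : Fact p.Prime] {Q : Subgroup G}
    [hQ : Q.Normal] (hq : IsPGroup p (G ⧸ Q)) (hc : (Nat.card Q).Coprime p)
    (hn : Group.IsNilpotent Q) : (fittingSubgroup G).index ∣ p := by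
  obtain ⟨X, hX, h1, h2⟩ := h.exists_cent hq hc
  refine (Subgroup.index_dvd_of_le (H1.le_fittingSubgroup ?_)).trans h1
  refine H2.isNilpotent_of_map_mk_of_le_frattini (H2.commutator_le_frattini_of_normal hn) ?_
  haveI := hq.isNilpotent
  have hle : ⁅Q, Q⁆ ≤ Q.comap (MonoidHom.id G) := Subgroup.commutator_le_left Q Q
  refine isNilpotent_of_ker_le_center
    ((QuotientGroup.map ⁅Q, Q⁆ Q (MonoidHom.id G) hle).comp (Subgroup.subtype _)) ?_
  rintro ⟨_, a, haX, rfl⟩ ha
  have ha' : a ∈ Q := by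
    rw [MonoidHom.mem_ker, MonoidHom.comp_apply] at ha
    exact (QuotientGroup.eq_one_iff (N := Q) a).1 ha
  rw [Subgroup.mem_center_iff]
  rintro ⟨_, x, hx, rfl⟩
  apply Subtype.ext
  change QuotientGroup.mk' _ x * QuotientGroup.mk' _ a = QuotientGroup.mk' _ a * QuotientGroup.mk' _ x
  have h3 := (QuotientGroup.eq_one_iff (N := ⁅Q, Q⁆) _).2
    (mem_commutator_of_linI (fun lam => h2 lam hx) ha')
  change QuotientGroup.mk' _ (x * a * x⁻¹ * a⁻¹) = 1 at h3
  rw [map_mul, map_mul, map_mul, map_inv, map_inv, mul_inv_eq_one, mul_inv_eq_iff_eq_mul] at h3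
  exact h3

theorem isPGroup_quotient_pPrimeCore {p : ℕ} [hp : Fact p.Prime]
    (h : IsPGroup p (G ⧸ fittingSubgroup G)) : IsPGroup p (G ⧸ pPrimeCore p G) := by
  intro g
  obtain ⟨g, rfl⟩ := QuotientGroup.mk'_surjective _ g
  obtain ⟨k, hk⟩ := h (QuotientGroup.mk' _ g)
  rw [← map_pow] at hk
  have h1 := H1.fittingSubgroup_le_pCore_sup_pPrimeCore p
    ((QuotientGroup.eq_one_iff (N := fittingSubgroup G) _).1 hk)
  obtain ⟨a, ha, b, hb, hab⟩ := (H1.mem_sup_of_le_normalizer_right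
    Subgroup.le_normalizer_of_normal).1 h1
  obtain ⟨j, hj⟩ := H1.isPGroup_pCore p G ⟨a, ha⟩
  have hj' : a ^ p ^ j = 1 := congrArg Subtype.val hj
  refine ⟨k + j, ?_⟩
  have hb' : QuotientGroup.mk' (pPrimeCore p G) b = 1 := (QuotientGroup.eq_one_iff _).2 hb
  rw [pow_add, pow_mul, ← map_pow, ← hab, map_mul, hb', mul_one, ← map_pow, hj', map_one]

theorem SF.index_fitting (h : SF G) {p : ℕ} [hp : Fact p.Prime]
    (hq : IsPGroup p (G ⧸ fittingSubgroup G)) : (fittingSubgroup G).index ∣ p := by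
  refine h.index_fitting_of (isPGroup_quotient_pPrimeCore hq) (H1.coprime_card_pPrimeCore p G) ?_
  have hle : pPrimeCore p G ≤ fittingSubgroup G := fun x hx => by
    obtain ⟨k, hk⟩ := hq (QuotientGroup.mk' _ x)
    have h1 : (QuotientGroup.mk' (fittingSubgroup G) x) ^ Nat.card (pPrimeCore p G) = 1 := by
      have : (⟨x, hx⟩ : pPrimeCore p G) ^ Nat.card (pPrimeCore p G) = 1 := pow_card_eq_one'
      have h2 : x ^ Nat.card (pPrimeCore p G) = 1 := congrArg Subtype.val this
      rw [← map_pow, h2, map_one]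
    have h3 := pow_gcd_eq_one.2 ⟨h1, hk⟩
    rw [(H1.coprime_card_pPrimeCore p G).pow_right k, pow_one] at h3
    exact (QuotientGroup.eq_one_iff _).1 h3
  haveI := H1.isNilpotent_fittingSubgroup G
  exact nilpotent_of_mulEquiv (Subgroup.subgroupOfEquivOfLe hle)

theorem SF.card_pCore (h : SF G) (p : ℕ) [hp : Fact p.Prime] :
    Nat.card (pCore p (G ⧸ fittingSubgroup G)) ∣ p := by
  set M := (pCore p (G ⧸ fittingSubgroup G)).comap (QuotientGroup.mk' (fittingSubgroup G)) with hM
  have hFM : fittingSubgroup G ≤ M := fun x hx => by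
    rw [hM, Subgroup.mem_comap, QuotientGroup.mk'_apply, (QuotientGroup.eq_one_iff x).2 hx]
    exact Subgroup.one_mem _
  have hF : fittingSubgroup M = (fittingSubgroup G).subgroupOf M := by
    apply Subgroup.map_injective M.subtype_injective
    rw [H1.map_subtype_fittingSubgroup_eq, Subgroup.subgroupOf_map_subtype]
  have h1 : IsPGroup p (M ⧸ fittingSubgroup M) := by
    intro g
    obtain ⟨g, rfl⟩ := QuotientGroup.mk'_surjective _ g
    obtain ⟨k, hk⟩ := H1.isPGroup_pCore p _ ⟨_, g.2⟩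
    have hk' : (QuotientGroup.mk' (fittingSubgroup G) (g : G)) ^ p ^ k = 1 :=
      congrArg Subtype.val hk
    refine ⟨k, ?_⟩
    rw [← map_pow] at hk' ⊢
    refine (QuotientGroup.eq_one_iff _).2 ?_
    rw [hF, Subgroup.mem_subgroupOf]
    exact (QuotientGroup.eq_one_iff _).1 hk'
  have h2 := (h.normal M).index_fitting h1
  rw [hF] at h2
  have h3 : ((fittingSubgroup G).subgroupOf M).index = Nat.card (pCore p (G ⧸ fittingSubgroup G)) := by
    have h4 := Subgroup.relIndex_comap (⊥ : Subgroup (G ⧸ fittingSubgroup G))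
      (QuotientGroup.mk' (fittingSubgroup G)) M
    rw [MonoidHom.comap_bot, QuotientGroup.ker_mk', hM, Subgroup.map_comap_eq_self_of_surjective
      (QuotientGroup.mk'_surjective _), Subgroup.relIndex_bot_left] at h4
    exact h4
  rwa [h3] at h2

theorem derived_two_of_card_pCore (hs : Group.IsSolvable G)
    (h : ∀ p : ℕ, p.Prime → Nat.card (pCore p G) ∣ p) : derivedSeries G 2 = ⊥ := by
  have h1 : commutator G ≤ Subgroup.centralizer (fittingSubgroup G : Set G) := by
    rw [Subgroup.le_centralizer_iff, H1.fittingSubgroup_eq_iSup_pCore]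
    refine iSup_le fun p => ?_
    rw [← Subgroup.le_centralizer_iff]
    haveI : Fact (p : ℕ).Prime := ⟨p.2⟩
    haveI : IsCyclic (pCore (p : ℕ) G) := isCyclic_of_card_dvd_prime (h p p.2)
    exact H2.commutator_le_centralizer_of_isCyclic _
  have h2 := h1.trans (H1.centralizer_fittingSubgroup_le hs)
  rw [derivedSeries_succ, derivedSeries_one, Subgroup.commutator_eq_bot_iff_le_centralizer]
  exact h1.trans (Subgroup.centralizer_le h2)

theorem SF.derived_two_of_nilpotent (h : SF G) (hn : Group.IsNilpotent G) :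
    derivedSeries G 2 = ⊥ := by
  have hF := H1.fittingSubgroup_eq_top_iff.2 hn
  rw [← Subgroup.card_eq_one]
  by_contra h1
  obtain ⟨p, hp, hd⟩ := Nat.exists_prime_and_dvd h1
  haveI : Fact p.Prime := ⟨hp⟩
  have h2 : IsPGroup p (G ⧸ fittingSubgroup G) := by
    intro g
    obtain ⟨g, rfl⟩ := QuotientGroup.mk'_surjective _ g
    refine ⟨0, ?_⟩
    rw [pow_zero, pow_one]
    exact (QuotientGroup.eq_one_iff _).2 (hF ▸ Subgroup.mem_top g)
  have h3 := isPGroup_quotient_pPrimeCore h2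
  have h4 := two_degrees (G ⧸ pPrimeCore p G) p fun d hd => by
    obtain ⟨k, hk⟩ := exists_pow_of_mem_cd h3 hd
    exact dvd_of_sqfree_pow hp hk.dvd (h.quotient _ d hd)
  exact H1.not_dvd_card_pPrimeCore p G
    (hd.trans (Subgroup.card_dvd_of_le (derivedSeries_le_of_quotient h4)))

theorem SF.main (h : SF G) (hs : Group.IsSolvable G) : derivedSeries G 4 = ⊥ := by
  have h1 : derivedSeries (G ⧸ fittingSubgroup G) 2 = ⊥ :=
    derived_two_of_card_pCore inferInstance fun p hp => by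
      haveI : Fact p.Prime := ⟨hp⟩
      exact h.card_pCore p
  have h2 := derivedSeries_le_of_quotient h1
  have h3 := (h.normal (fittingSubgroup G)).derived_two_of_nilpotent
    (H1.isNilpotent_fittingSubgroup G)
  exact derivedSeries_eq_bot_of_le (A := fittingSubgroup G) (j := 2) (i := 0) (k := 2)
    (by rw [map_derivedSeries_zero]; exact h2) h3

end Cfsg.Agent.H25.SqF
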